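import Mathlib
import Cfsg.Prelude.Def_GeometricClasses

/-! Ladder ASCH: Aschbacher's theorem for SL_n(q), n an odd prime (definitions). -/

set_option autoImplicit false

namespace Cfsg.Agent.Lib.Helper77.Asch

open Cfsg Cfsg.Geo
open scoped MatrixGroups

variable {n : ℕ} {F : Type*} [Field F]

/-- the scalar matrix `c • 1` as an element of `GL`. -/
def sc (c : Fˣ) : GL (Fin n) F :=
  Units.map (Matrix.scalar (Fin n) : F →+* Matrix (Fin n) (Fin n) F).toMonoidHom c

/-- `N` is normalised by every element of `H`. -/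
def NormBy {G : Type*} [Group G] (H N : Subgroup G) : Prop :=
  ∀ h ∈ H, ∀ x ∈ N, h * x * h⁻¹ ∈ N

/-- `N` is minimal among the `H`-invariant subgroups of `H` properly containing `Z`. -/
structure MinOver {G : Type*} [Group G] (H Z N : Subgroup G) : Prop where
  lt : Z < N
  le : N ≤ H
  norm : NormBy H N
  min : ∀ M : Subgroup G, Z ≤ M → M ≤ N → NormBy H M → M = Z ∨ M = N

/-- The cyclic shift matrix `e_i ↦ e_{i+1 mod n}`. -/
def shiftM (n : ℕ) (F : Type*) [Field F] : Matrix (Fin n) (Fin n) F :=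
  fun j i => if (j : ℕ) = ((i : ℕ) + 1) % n then 1 else 0

/-- `R` is the Heisenberg (extraspecial, exponent `n`) group generated by `x`, `y` and the scalar `w`. -/
structure Heis (R : Subgroup (GL (Fin n) F)) (x y : GL (Fin n) F) (w : Fˣ) : Prop where
  x_mem : x ∈ R
  y_mem : y ∈ R
  w_mem : (sc w : GL (Fin n) F) ∈ R
  x_pow : x ^ n = 1
  y_pow : y ^ n = 1
  w_ord : orderOf w = n
  comm : x * y = sc w * (y * x)
  gen : ∀ g ∈ R, ∃ a b c : ℕ, g = sc w ^ c * (x ^ a * y ^ b)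

/-- `H` lies in a member of one of the geometric classes relevant in prime dimension. -/
def InGeo [Fintype F] (H : Subgroup (GL (Fin n) F)) : Prop :=
  (∃ W : Submodule F (Fin n → F), W ≠ ⊥ ∧ W ≠ ⊤ ∧ H ≤ subspaceStabilizer W) ∨
  (∃ D : Fin n → Submodule F (Fin n → F), IsMDecomposition 1 D ∧ H ≤ decompositionStabilizer D) ∨
  (∃ K : Subalgebra F (Matrix (Fin n) (Fin n) F), IsFieldSubalgebra n K ∧ H ≤ subalgebraNormalizer K) ∨
  (∃ (F₀ : Subfield F) (r : ℕ) (P : GL (Fin n) F), r.Prime ∧ Fintype.card F = Nat.card F₀ ^ r ∧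
      H ≤ subfieldSubgroup F₀ P) ∨
  (∃ R : Subgroup (GL (Fin n) F), IsLinearSymplecticTypeData n R ∧ H ≤ subgroupNormalizer R) ∨
  (Odd (Fintype.card F) ∧ ∃ Q : (Fin n → F) → F, IsNondegenerateQuadraticForm Q ∧ H ≤ quadSimilarityGroup Q) ∨
  (∃ (σ : F ≃+* F) (f : (Fin n → F) → (Fin n → F) → F), IsUnitaryForm σ f ∧ H ≤ similarityGroup f)

end Cfsg.Agent.Lib.Helper77.Asch
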