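import Cfsg.Agent.Lib.Helper77.Asch.Defs

set_option autoImplicit false
set_option linter.style.haveILetI false

namespace Cfsg.Agent.Lib.Helper77.Asch

open Cfsg Cfsg.Geo
open scoped MatrixGroups Matrix

variable {n : ℕ} {F : Type*} [Field F]

/-- SUBF2. -/
theorem exists_prime_subfield [Fintype F] (F₀ : Subfield F) (h : F₀ ≠ ⊤) :
    ∃ (F₁ : Subfield F) (r : ℕ), F₀ ≤ F₁ ∧ r.Prime ∧ Fintype.card F = Nat.card F₁ ^ r := by
  classical
  haveI : Fintype F₀ := Fintype.ofFinite F₀
  set b := Module.finrank F₀ F with hb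
  have hb1 : b ≠ 1 := by
    intro hb1
    apply h
    have h1 : Fintype.card F = Fintype.card F₀ ^ b := Module.card_eq_pow_finrank
    rw [hb1, pow_one] at h1
    rw [eq_top_iff]
    intro x _
    have hsurj : Function.Surjective (F₀.subtype) := by
      have hinj : Function.Injective (F₀.subtype) := Subtype.val_injective
      exact (Fintype.bijective_iff_injective_and_card _).2 ⟨hinj, h1.symm⟩ |>.2
    obtain ⟨y, rfl⟩ := hsurj x
    exact y.2
  obtain ⟨r, hr, c, hc⟩ := Nat.exists_prime_and_dvd hb1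
  have hbpos : 0 < b := Module.finrank_pos
  have hcpos : 0 < c := by
    rcases Nat.eq_zero_or_pos c with h0 | h0
    · rw [h0, mul_zero] at hc; omega
    · exact h0
  set φ := FiniteField.frobeniusAlgEquivOfAlgebraic F₀ F with hφ
  have hord : orderOf φ = b := FiniteField.orderOf_frobeniusAlgEquivOfAlgebraic F₀ F
  have hord2 : orderOf (φ ^ c) = r := by
    rw [orderOf_pow' φ hcpos.ne', hord, hc, Nat.gcd_eq_right (Dvd.intro_left r rfl),
      Nat.mul_div_cancel _ hcpos]
  set K := IntermediateField.fixedField (Subgroup.zpowers (φ ^ c)) with hK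
  have hfin : Module.finrank K F = r := by
    rw [IntermediateField.finrank_fixedField_eq_card, Nat.card_zpowers, hord2]
  refine ⟨K.toSubfield, r, ?_, hr, ?_⟩
  · intro x hx
    exact K.algebraMap_mem ⟨x, hx⟩
  · haveI : Fintype K := Fintype.ofFinite K
    have h1 : Fintype.card F = Fintype.card K ^ Module.finrank K F := Module.card_eq_pow_finrank
    rw [h1, hfin, Nat.card_eq_fintype_card]
    rfl

/-- SUBF2 (easy). -/
theorem subfieldSubgroup_mono {F₀ F₁ : Subfield F} (h : F₀ ≤ F₁) (P : GL (Fin n) F) :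
    subfieldSubgroup F₀ P ≤ subfieldSubgroup F₁ P := by
  unfold subfieldSubgroup
  apply Subgroup.map_mono
  apply sup_le_sup_right
  rintro _ ⟨g, rfl⟩
  refine ⟨Matrix.GeneralLinearGroup.map (Subfield.inclusion h) g, ?_⟩
  ext i j
  rfl

end Cfsg.Agent.Lib.Helper77.Asch
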