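import Cfsg.Agent.Lib.Helper77.Asch.AG5

set_option autoImplicit false

/-! Ladder ASCH, rung AG0 (helper41). -/

namespace Cfsg.Agent.Lib.Helper77.Asch

section abstract
variable {G : Type*} [Group G] [Finite G]

/-- a minimal `K`-invariant subgroup `M` with `Z < M ≤ T`. -/
theorem ag0_exists_min (K Z T : Subgroup G) (hZ : Z < T) (hT : NormBy K T) :
    ∃ M : Subgroup G, Z < M ∧ M ≤ T ∧ NormBy K M ∧
      ∀ M' : Subgroup G, Z ≤ M' → M' ≤ M → NormBy K M' → M' = Z ∨ M' = M := by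
  have hne : {M : Subgroup G | Z < M ∧ M ≤ T ∧ NormBy K M}.Nonempty := ⟨T, hZ, le_refl _, hT⟩
  obtain ⟨M, ⟨h1, h2, h3⟩, hmin⟩ := (Set.toFinite _).exists_minimal hne
  refine ⟨M, h1, h2, h3, ?_⟩
  intro M' hZM hM'M hn
  by_cases h : M' = Z
  · exact Or.inl h
  · right
    have hlt : Z < M' := lt_of_le_of_ne hZM (Ne.symm h)
    exact le_antisymm hM'M (hmin ⟨hlt, hM'M.trans h2, hn⟩ hM'M)

/-- AG0. -/
theorem exists_minOver (H Z : Subgroup G) (hZ : Z < H) : ∃ N, MinOver H Z N := by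
  obtain ⟨N, h1, h2, h3, h4⟩ := ag0_exists_min H Z H hZ (ag5_normBy_self H)
  exact ⟨N, h1, h2, h3, h4⟩

end abstract

end Cfsg.Agent.Lib.Helper77.Asch
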