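import Cfsg.Agent.Lib.Helper77.Asch.AG5

set_option autoImplicit false

/-! Ladder ASCH, rung AG3 (helper41). -/

namespace Cfsg.Agent.Lib.Helper77.Asch

section abstract
variable {G : Type*} [Group G]

/-- AG3. -/
theorem perfect_core (H Z N : Subgroup G) (hZc : ∀ z ∈ Z, ∀ g : G, g * z = z * g)
    (hm : MinOver H Z N) (hnab : ¬ ⁅N, N⁆ ≤ Z) :
    ⁅⁅N, N⁆, ⁅N, N⁆⁆ = ⁅N, N⁆ ∧ ⁅N, N⁆ ⊔ Z = N := by
  have h1 : ⁅N, N⁆ ⊔ Z = N := by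
    rcases hm.min (⁅N, N⁆ ⊔ Z) le_sup_right (sup_le (ag5_commutator_le_self N) hm.lt.le)
      (ag5_normBy_sup (ag5_normBy_commutator hm.norm hm.norm) (ag5_normBy_central H Z hZc))
      with h | h
    · exact absurd (h ▸ le_sup_left) hnab
    · exact h
  refine ⟨le_antisymm (ag5_commutator_le_self _) ?_, h1⟩
  calc ⁅N, N⁆ = ⁅⁅N, N⁆ ⊔ Z, ⁅N, N⁆ ⊔ Z⁆ := by rw [h1]
    _ ≤ ⁅⁅N, N⁆, ⁅N, N⁆⁆ := ag5_commutator_sup _ Z hZc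

end abstract

end Cfsg.Agent.Lib.Helper77.Asch
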