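import Cfsg.Agent.Lib.Helper77.Asch.AG0
import Cfsg.Agent.Lib.Helper77.Asch.AG3

set_option autoImplicit false

/-! Ladder ASCH, rung AG2 (helper41). -/

namespace Cfsg.Agent.Lib.Helper77.Asch

open Subgroup
open scoped commutatorElement

section abstract
variable {G : Type*} [Group G]

theorem ag2_mem_sup {A B : Subgroup G} (h : B ≤ normalizer (A : Set G)) {x : G} :
    x ∈ A ⊔ B ↔ ∃ a ∈ A, ∃ b ∈ B, a * b = x := by
  rw [← SetLike.mem_coe, coe_mul_of_right_le_normalizer_left A B h, Set.mem_mul]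
  rfl

theorem ag2_sup_quotient_surjective {X Y : Subgroup G} (hn : Y ≤ normalizer (X : Set G))
    [hX : (X.subgroupOf (X ⊔ Y)).Normal] :
    Function.Surjective ((QuotientGroup.mk' (X.subgroupOf (X ⊔ Y))).comp
      (inclusion (le_sup_right : Y ≤ X ⊔ Y))) := by
  intro z
  obtain ⟨w, rfl⟩ := QuotientGroup.mk'_surjective _ z
  obtain ⟨x, hx, y, hy, hxy⟩ := (ag2_mem_sup hn).1 w.2
  refine ⟨⟨y, hy⟩, ?_⟩
  rw [MonoidHom.comp_apply, QuotientGroup.mk'_apply, QuotientGroup.mk'_apply, QuotientGroup.eq]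
  rw [mem_subgroupOf]
  have hy' : y⁻¹ * x * y ∈ X := by
    have := ((mem_normalizer_iff.1 (hn (Y.inv_mem hy))) x).1 hx
    simpa using this
  have : ((inclusion (le_sup_right : Y ≤ X ⊔ Y) ⟨y, hy⟩)⁻¹ * w : (X ⊔ Y : Subgroup G)).1
      = y⁻¹ * x * y := by
    show y⁻¹ * (w : G) = _
    rw [← hxy]; group
  rw [this]; exact hy'

theorem ag2_isSolvable_sup {X Y : Subgroup G} (hX : Group.IsSolvable X) (hY : Group.IsSolvable Y)
    (hn : Y ≤ normalizer (X : Set G)) : Group.IsSolvable (X ⊔ Y : Subgroup G) := by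
  have hXn : (X.subgroupOf (X ⊔ Y)).Normal :=
    (normal_subgroupOf_iff_le_normalizer le_sup_left).2 (sup_le le_normalizer hn)
  rw [Group.isSolvable_iff_subgroup_quotient (X.subgroupOf (X ⊔ Y))]
  constructor
  · exact Group.isSolvable_of_surjective
      (f := (subgroupOfEquivOfLe (le_sup_left : X ≤ X ⊔ Y)).symm.toMonoidHom)
      (MulEquiv.surjective _)
  · exact Group.isSolvable_of_surjective (ag2_sup_quotient_surjective hn)

theorem ag2_perfect_solvable (P : Subgroup G) (hP : ⁅P, P⁆ = P) (hs : Group.IsSolvable P) :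
    P = ⊥ := by
  by_contra hne
  have : Nontrivial P := (Subgroup.nontrivial_iff_ne_bot P).2 hne
  have hlt := Group.IsSolvable.commutator_lt_top_of_nontrivial P
  have htop : commutator P = ⊤ := by
    rw [eq_top_iff]
    intro x _
    have hx : (x : G) ∈ ⁅P, P⁆ := hP.symm ▸ x.2
    rw [← Subgroup.map_subtype_commutator] at hx
    obtain ⟨y, hy, hyx⟩ := hx
    have : y = x := Subtype.ext hyx
    exact this ▸ hy
  exact hlt.ne htop

theorem ag2_solvable_of_comm_derived (M : Subgroup G)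
    (h : ∀ a ∈ ⁅M, M⁆, ∀ b ∈ ⁅M, M⁆, a * b = b * a) : Group.IsSolvable M := by
  rw [Group.isSolvable_iff_subgroup_quotient (commutator M)]
  constructor
  · apply Group.isSolvable_of_comm
    intro a b
    have ha : ((a : M) : G) ∈ ⁅M, M⁆ := by
      rw [← Subgroup.map_subtype_commutator]
      exact ⟨a, a.2, rfl⟩
    have hb : ((b : M) : G) ∈ ⁅M, M⁆ := by
      rw [← Subgroup.map_subtype_commutator]
      exact ⟨b, b.2, rfl⟩
    exact Subtype.ext (Subtype.ext (h _ ha _ hb))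
  · show Group.IsSolvable (Abelianization M)
    infer_instance

theorem ag2_conj_le {H N M : Subgroup G} (hN : NormBy H N) (hMN : M ≤ N) {h : G} (hh : h ∈ H) :
    M.map (MulAut.conj h).toMonoidHom ≤ N :=
  (Subgroup.map_mono hMN).trans ((ag5_normBy_map H N).1 hN h hh)

theorem ag2_conj_normBy {H N M : Subgroup G} (hN : NormBy H N) (hM : NormBy N M) {h : G}
    (hh : h ∈ H) : NormBy N (M.map (MulAut.conj h).toMonoidHom) := by
  rintro n hn _ ⟨r, hr, rfl⟩
  have h1 : h⁻¹ * n * h ∈ N := by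
    have := hN h⁻¹ (inv_mem hh) n hn
    simpa using this
  refine ⟨(h⁻¹ * n * h) * r * (h⁻¹ * n * h)⁻¹, hM _ h1 r hr, ?_⟩
  simp only [MulEquiv.coe_toMonoidHom, MulAut.conj_apply]
  group

theorem ag2_conj_solvable {M : Subgroup G} (hM : Group.IsSolvable M) (h : G) :
    Group.IsSolvable (M.map (MulAut.conj h).toMonoidHom) :=
  Group.isSolvable_of_surjective (f := (MulAut.conj h).toMonoidHom.subgroupMap M)
    (MonoidHom.subgroupMap_surjective _ _)

variable [Finite G]

theorem ag2_alpha (H Z N : Subgroup G) (hZc : ∀ z ∈ Z, ∀ g : G, g * z = z * g)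
    (hm : MinOver H Z N) (hnab : ¬ ⁅N, N⁆ ≤ Z) (M : Subgroup G) (hMN : M ≤ N)
    (hMn : NormBy N M) (hMs : Group.IsSolvable M) : M ≤ Z := by
  have hne : {K : Subgroup G | K ≤ N ∧ NormBy N K ∧ Group.IsSolvable K}.Nonempty :=
    ⟨M, hMN, hMn, hMs⟩
  obtain ⟨R, ⟨hR1, hR2, hR3⟩, hmax⟩ := (Set.toFinite _).exists_maximal hne
  have hall : ∀ K : Subgroup G, K ≤ N → NormBy N K → Group.IsSolvable K → K ≤ R := by
    intro K h1 h2 h3
    have h4 : K ⊔ R ≤ R := hmax ⟨sup_le h1 hR1, ag5_normBy_sup h2 hR2,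
      ag2_isSolvable_sup h3 hR3 (hR1.trans ((ag5_normBy_iff N K).1 h2))⟩ le_sup_right
    exact le_sup_left.trans h4
  have hZR : Z ≤ R := by
    apply hall Z hm.lt.le (ag5_normBy_central N Z hZc)
    apply Group.isSolvable_of_comm
    intro a b
    exact Subtype.ext (hZc b.1 b.2 a.1)
  have hRH : NormBy H R := by
    rw [ag5_normBy_map]
    intro h hh
    exact hall _ (ag2_conj_le hm.norm hR1 hh) (ag2_conj_normBy hm.norm hR2 hh)
      (ag2_conj_solvable hR3 h)
  rcases hm.min R hZR hR1 hRH with h | h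
  · exact h ▸ hall M hMN hMn hMs
  · exfalso
    rw [h] at hR3
    have hp := (perfect_core H Z N hZc hm hnab).1
    have hs : Group.IsSolvable (⁅N, N⁆ : Subgroup G) :=
      Group.isSolvable_of_isSolvable_injective
        (f := Subgroup.inclusion (ag5_commutator_le_self N)) (Subgroup.inclusion_injective _)
    have := ag2_perfect_solvable _ hp hs
    exact hnab (this ▸ bot_le)

/-- AG2. -/
theorem simple_of_minOver (H Z N : Subgroup G) (hZc : ∀ z ∈ Z, ∀ g : G, g * z = z * g)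
    (hm : MinOver H Z N) (hnab : ¬ ⁅N, N⁆ ≤ Z)
    (hL : ∀ M : Subgroup G, M ≤ N → NormBy N M →
      Group.IsSolvable M ∨ ∀ a ∈ N, ∀ b ∈ N, (∀ y ∈ M, a * y = y * a) → (∀ y ∈ M, b * y = y * b) → a * b = b * a) :
    ∀ M : Subgroup G, Z ≤ M → M ≤ N → NormBy N M → M = Z ∨ M = N := by
  intro M₀ hZM hMN hMn
  by_contra hcon
  push Not at hcon
  obtain ⟨hne1, hne2⟩ := hcon
  have hlt : Z < M₀ := lt_of_le_of_ne hZM (Ne.symm hne1)
  obtain ⟨M, hZltM, hMM₀, hMnorm, hMmin⟩ := ag0_exists_min N Z M₀ hlt hMn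
  have hMleN : M ≤ N := hMM₀.trans hMN
  have hnotH : ¬ NormBy H M := by
    intro hH
    rcases hm.min M hZltM.le hMleN hH with h | h
    · exact hZltM.ne h.symm
    · exact hne2 (le_antisymm hMN (h ▸ hMM₀))
  unfold NormBy at hnotH
  push Not at hnotH
  obtain ⟨h, hh, x, hx, hxM⟩ := hnotH
  have hMhN : M.map (MulAut.conj h).toMonoidHom ≤ N := ag2_conj_le hm.norm hMleN hh
  have hMhn : NormBy N (M.map (MulAut.conj h).toMonoidHom) := ag2_conj_normBy hm.norm hMnorm hh
  have hxMh : h * x * h⁻¹ ∈ M.map (MulAut.conj h).toMonoidHom := ⟨x, hx, rfl⟩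
  have hZMh : Z ≤ M.map (MulAut.conj h).toMonoidHom := by
    intro z hz
    refine ⟨z, hZltM.le hz, ?_⟩
    simp only [MulEquiv.coe_toMonoidHom, MulAut.conj_apply]
    rw [hZc z hz h, mul_inv_cancel_right]
  have hcard : Nat.card (M.map (MulAut.conj h).toMonoidHom) = Nat.card M :=
    Subgroup.card_map_of_injective (MulAut.conj h).injective
  generalize M.map (MulAut.conj h).toMonoidHom = Mh at *
  have hD : M ⊓ Mh = Z := by
    rcases hMmin (M ⊓ Mh) (le_inf hZltM.le hZMh) inf_le_left (ag5_normBy_inf hMnorm hMhn) with h1 | h1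
    · exact h1
    · exfalso
      have hle : M ≤ Mh := inf_eq_left.1 h1
      have heq : M = Mh := Subgroup.eq_of_le_of_card_ge hle hcard.le
      exact hxM (heq ▸ hxMh)
  have hcomm : ⁅M, Mh⁆ ≤ Z := by
    rw [← hD, Subgroup.commutator_le]
    intro a ha b hb
    rw [Subgroup.mem_inf]
    constructor
    · have h1 : b * a⁻¹ * b⁻¹ ∈ M := hMnorm b (hMhN hb) a⁻¹ (inv_mem ha)
      have h2 : ⁅a, b⁆ = a * (b * a⁻¹ * b⁻¹) := by
        rw [commutatorElement_def]; group
      rw [h2]; exact mul_mem ha h1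
    · have h1 : a * b * a⁻¹ ∈ Mh := hMhn a (hMleN ha) b hb
      rw [commutatorElement_def]
      exact mul_mem h1 (inv_mem hb)
  have hZcent : ∀ K : Subgroup G, Z ≤ centralizer (K : Set G) := by
    intro K z hz
    rw [Subgroup.mem_centralizer_iff]
    intro k _
    exact hZc z hz k
  have h1 : ⁅⁅M, Mh⁆, M⁆ = ⊥ := by
    rw [Subgroup.commutator_eq_bot_iff_le_centralizer]
    exact hcomm.trans (hZcent M)
  have h2 : ⁅⁅Mh, M⁆, M⁆ = ⊥ := by
    rw [Subgroup.commutator_comm Mh M]; exact h1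
  have h3 : ⁅⁅M, M⁆, Mh⁆ = ⊥ := Subgroup.commutator_commutator_eq_bot_of_rotate h1 h2
  rw [Subgroup.commutator_eq_bot_iff_le_centralizer] at h3
  rcases hL Mh hMhN hMhn with hs | hs
  · exact hxM (hZltM.le (ag2_alpha H Z N hZc hm hnab Mh hMhN hMhn hs hxMh))
  · have hsol : Group.IsSolvable M := by
      apply ag2_solvable_of_comm_derived
      intro a ha b hb
      apply hs a (hMleN (ag5_commutator_le_self M ha)) b (hMleN (ag5_commutator_le_self M hb))
      · intro y hy
        exact ((Subgroup.mem_centralizer_iff.1 (h3 ha)) y hy).symm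
      · intro y hy
        exact ((Subgroup.mem_centralizer_iff.1 (h3 hb)) y hy).symm
    exact hZltM.not_ge (ag2_alpha H Z N hZc hm hnab M hMleN hMnorm hsol)

end abstract

end Cfsg.Agent.Lib.Helper77.Asch
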