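import Cfsg.Agent.Lib.Helper77.Asch.AG5

set_option autoImplicit false

/-! Ladder ASCH, rung AG4 (helper41). -/

namespace Cfsg.Agent.Lib.Helper77.Asch

open Subgroup
open scoped commutatorElement

section abstract
variable {G : Type*} [Group G] [Finite G]

/-- AG4. -/
theorem simple_quot (Z N P : Subgroup G) [Z.Normal] (hPZ : P ⊔ Z = N) (hlt : Z < N)
    (hs : ∀ M : Subgroup G, Z ≤ M → M ≤ N → NormBy N M → M = Z ∨ M = N) :
    IsSimpleGroup (P ⧸ Z.subgroupOf P) := by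
  have hnle : ¬ P ≤ Z := by
    intro h
    have : N ≤ Z := hPZ ▸ sup_le h le_rfl
    exact hlt.not_ge this
  have hnt : Nontrivial (P ⧸ Z.subgroupOf P) := by
    obtain ⟨p, hp, hpZ⟩ := SetLike.not_le_iff_exists.1 hnle
    refine ⟨⟨((⟨p, hp⟩ : P) : P ⧸ Z.subgroupOf P), 1, ?_⟩⟩
    intro h
    rw [QuotientGroup.eq_one_iff, mem_subgroupOf] at h
    exact hpZ h
  refine { exists_pair_ne := hnt.exists_pair_ne, eq_bot_or_eq_top_of_normal := ?_ }
  intro Kb hKb
  set K : Subgroup P := Kb.comap (QuotientGroup.mk' (Z.subgroupOf P)) with hK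
  have hKn : K.Normal := hKb.comap _
  have hZK : Z.subgroupOf P ≤ K := by
    intro z hz
    rw [hK, mem_comap]
    have : QuotientGroup.mk' (Z.subgroupOf P) z = 1 := by
      rw [QuotientGroup.mk'_apply, QuotientGroup.eq_one_iff]; exact hz
    rw [this]; exact one_mem _
  have hKbK : Kb = K.map (QuotientGroup.mk' (Z.subgroupOf P)) := by
    rw [hK, map_comap_eq_self_of_surjective (QuotientGroup.mk'_surjective _)]
  have hPK : NormBy P (K.map P.subtype) := by
    rintro p hp _ ⟨k, hk, rfl⟩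
    exact ⟨⟨p, hp⟩ * k * ⟨p, hp⟩⁻¹, hKn.conj_mem k hk _, rfl⟩
  have hGZ : ∀ A : Subgroup G, NormBy A Z := by
    intro A a _ z hz
    exact ‹Z.Normal›.conj_mem z hz a
  have hM : NormBy N (K.map P.subtype ⊔ Z) := by
    rw [← hPZ]
    apply ag5_normBy_sup_left
    · exact ag5_normBy_sup hPK (hGZ P)
    · intro z hz x hx
      have hz' : z ∈ K.map P.subtype ⊔ Z := (le_sup_right : Z ≤ _) hz
      exact mul_mem (mul_mem hz' hx) (inv_mem hz')
  have hKP : K.map P.subtype ≤ P := by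
    rintro _ ⟨k, _, rfl⟩
    exact k.2
  rcases hs _ le_sup_right (hPZ ▸ sup_le_sup_right hKP Z) hM with h | h
  · left
    have hKZ : K ≤ Z.subgroupOf P := by
      intro k hk
      rw [mem_subgroupOf]
      have : (k : G) ∈ K.map P.subtype ⊔ Z := (le_sup_left : K.map P.subtype ≤ _) ⟨k, hk, rfl⟩
      rw [h] at this
      exact this
    rw [hKbK, eq_bot_iff]
    rintro _ ⟨k, hk, rfl⟩
    rw [mem_bot, QuotientGroup.mk'_apply, QuotientGroup.eq_one_iff]
    exact hKZ hk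
  · right
    have hKtop : K = ⊤ := by
      rw [eq_top_iff]
      intro p _
      have hp : (p : G) ∈ K.map P.subtype ⊔ Z := by
        rw [h, ← hPZ]; exact (le_sup_left : P ≤ _) p.2
      obtain ⟨k', ⟨k, hk, rfl⟩, z, hz, hkz⟩ := Subgroup.mem_sup_of_normal_right.1 hp
      have hzP : z ∈ P := by
        have : z = (k : G)⁻¹ * p := by
          rw [← hkz]; simp
        rw [this]; exact mul_mem (inv_mem k.2) p.2
      have hzK : (⟨z, hzP⟩ : P) ∈ K := hZK (by rw [mem_subgroupOf]; exact hz)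
      have : p = k * ⟨z, hzP⟩ := Subtype.ext hkz.symm
      rw [this]; exact mul_mem hk hzK
    rw [hKbK, hKtop, ← MonoidHom.range_eq_map, MonoidHom.range_eq_top]
    exact QuotientGroup.mk'_surjective _

/-- AG4 (easy). -/
theorem nonabelian_quot (Z P : Subgroup G) [Z.Normal] (h : ¬ ⁅P, P⁆ ≤ Z) :
    ¬ IsMulCommutative (P ⧸ Z.subgroupOf P) := by
  intro hc
  apply h
  rw [Subgroup.commutator_le]
  intro a ha b hb
  have h1 : (((⟨a, ha⟩ : P) : P ⧸ Z.subgroupOf P)) * ((⟨b, hb⟩ : P) : P ⧸ Z.subgroupOf P)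
      = ((⟨b, hb⟩ : P) : P ⧸ Z.subgroupOf P) * ((⟨a, ha⟩ : P) : P ⧸ Z.subgroupOf P) :=
    hc.is_comm.comm _ _
  have h2 : ((⁅(⟨a, ha⟩ : P), (⟨b, hb⟩ : P)⁆ : P) : P ⧸ Z.subgroupOf P) = 1 := by
    rw [commutatorElement_def, QuotientGroup.mk_mul, QuotientGroup.mk_mul, QuotientGroup.mk_mul,
      QuotientGroup.mk_inv, QuotientGroup.mk_inv, h1]
    group
  rw [QuotientGroup.eq_one_iff, mem_subgroupOf] at h2
  exact h2

end abstract

end Cfsg.Agent.Lib.Helper77.Asch
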