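import Cfsg.Agent.Lib.Helper77.Asch.Defs

set_option autoImplicit false

/-! Ladder ASCH, rung AG5 (helper41), with the small toolkit on `NormBy` used by AG2, AG3, AG4. -/

namespace Cfsg.Agent.Lib.Helper77.Asch

open scoped commutatorElement

section abstract
variable {G : Type*} [Group G]

theorem ag5_normal_of_central (Z : Subgroup G) (hZc : ∀ z ∈ Z, ∀ g : G, g * z = z * g) :
    Z.Normal := by
  constructor
  intro z hz g
  rw [hZc z hz g, mul_inv_cancel_right]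
  exact hz

theorem ag5_mem_sup (H Z : Subgroup G) (hZc : ∀ z ∈ Z, ∀ g : G, g * z = z * g) {g : G}
    (hg : g ∈ H ⊔ Z) : ∃ h ∈ H, ∃ z ∈ Z, h * z = g := by
  have := ag5_normal_of_central Z hZc
  exact Subgroup.mem_sup_of_normal_right.1 hg

theorem ag5_comm_central {z w : G} (hz : ∀ g : G, g * z = z * g) (hw : ∀ g : G, g * w = w * g)
    (a b : G) : ⁅a * z, b * w⁆ = ⁅a, b⁆ := by
  rw [commutatorElement_def, commutatorElement_def]
  have e1 : a * z * (b * w) = a * b * w * z := by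
    rw [mul_assoc a z, ← hz (b * w)]
    simp only [mul_assoc]
  have e2 : (a * z)⁻¹ = z⁻¹ * a⁻¹ := mul_inv_rev _ _
  have e3 : (b * w)⁻¹ = w⁻¹ * b⁻¹ := mul_inv_rev _ _
  have e4 : w * a⁻¹ = a⁻¹ * w := (hw a⁻¹).symm
  rw [e1, e2, e3]
  calc a * b * w * z * (z⁻¹ * a⁻¹) * (w⁻¹ * b⁻¹) = a * b * (w * a⁻¹) * w⁻¹ * b⁻¹ := by group
    _ = a * b * (a⁻¹ * w) * w⁻¹ * b⁻¹ := by rw [e4]
    _ = a * b * a⁻¹ * b⁻¹ := by group

theorem ag5_commutator_sup (H Z : Subgroup G) (hZc : ∀ z ∈ Z, ∀ g : G, g * z = z * g) :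
    ⁅H ⊔ Z, H ⊔ Z⁆ ≤ ⁅H, H⁆ := by
  rw [Subgroup.commutator_le]
  intro g₁ h₁ g₂ h₂
  obtain ⟨a, ha, z, hz, rfl⟩ := ag5_mem_sup H Z hZc h₁
  obtain ⟨b, hb, w, hw, rfl⟩ := ag5_mem_sup H Z hZc h₂
  rw [ag5_comm_central (hZc z hz) (hZc w hw)]
  exact Subgroup.commutator_mem_commutator ha hb

theorem ag5_commutator_le_self (H : Subgroup G) : ⁅H, H⁆ ≤ H := by
  rw [Subgroup.commutator_le]
  intro a ha b hb
  rw [commutatorElement_def]
  exact mul_mem (mul_mem (mul_mem ha hb) (inv_mem ha)) (inv_mem hb)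

theorem ag5_normBy_iff (H N : Subgroup G) :
    NormBy H N ↔ H ≤ Subgroup.normalizer (N : Set G) := by
  constructor
  · intro h g hg
    rw [Subgroup.mem_normalizer_iff]
    intro x
    constructor
    · exact h g hg x
    · intro hx
      have := h g⁻¹ (inv_mem hg) _ hx
      simpa [mul_assoc] using this
  · intro h g hg x hx
    exact (Subgroup.mem_normalizer_iff.1 (h hg) x).1 hx

theorem ag5_normBy_map (H N : Subgroup G) :
    NormBy H N ↔ ∀ h ∈ H, N.map (MulAut.conj h).toMonoidHom ≤ N := by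
  constructor
  · rintro h g hg _ ⟨x, hx, rfl⟩
    exact h g hg x hx
  · intro h g hg x hx
    exact h g hg ⟨x, hx, rfl⟩

theorem ag5_normBy_sup {H A B : Subgroup G} (hA : NormBy H A) (hB : NormBy H B) :
    NormBy H (A ⊔ B) := by
  rw [ag5_normBy_map] at *
  intro h hh
  rw [Subgroup.map_sup]
  exact sup_le_sup (hA h hh) (hB h hh)

theorem ag5_normBy_commutator {H A B : Subgroup G} (hA : NormBy H A) (hB : NormBy H B) :
    NormBy H ⁅A, B⁆ := by
  rw [ag5_normBy_map] at *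
  intro h hh
  rw [Subgroup.map_commutator]
  exact Subgroup.commutator_mono (hA h hh) (hB h hh)

theorem ag5_normBy_inf {H A B : Subgroup G} (hA : NormBy H A) (hB : NormBy H B) :
    NormBy H (A ⊓ B) := by
  intro h hh x hx
  exact Subgroup.mem_inf.2 ⟨hA h hh x (Subgroup.mem_inf.1 hx).1, hB h hh x (Subgroup.mem_inf.1 hx).2⟩

theorem ag5_normBy_central (H Z : Subgroup G) (hZc : ∀ z ∈ Z, ∀ g : G, g * z = z * g) :
    NormBy H Z := by
  intro h _ z hz
  rw [hZc z hz h, mul_inv_cancel_right]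
  exact hz

theorem ag5_normBy_self (H : Subgroup G) : NormBy H H := by
  intro h hh x hx
  exact mul_mem (mul_mem hh hx) (inv_mem hh)

theorem ag5_normBy_mono {H K N : Subgroup G} (hKH : K ≤ H) (h : NormBy H N) : NormBy K N :=
  fun k hk x hx => h k (hKH hk) x hx

theorem ag5_normBy_sup_left {A B N : Subgroup G} (hA : NormBy A N) (hB : NormBy B N) :
    NormBy (A ⊔ B) N := by
  rw [ag5_normBy_iff] at *
  exact sup_le hA hB

/-- AG5 (easy). -/
theorem commutator_sup_le (H Z : Subgroup G) (hZc : ∀ z ∈ Z, ∀ g : G, g * z = z * g) :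
    ⁅H ⊔ Z, H ⊔ Z⁆ ≤ H :=
  (ag5_commutator_sup H Z hZc).trans (ag5_commutator_le_self H)

/-- AG5.  x ↦ h x h⁻¹ x⁻¹ is a hom P → Z (Z central), Z abelian, P perfect. -/
theorem centralizes_of_perfect (Z P : Subgroup G) (hZc : ∀ z ∈ Z, ∀ g : G, g * z = z * g)
    (hP : ⁅P, P⁆ = P) (h : G) (hh : ∀ x ∈ P, h * x * h⁻¹ * x⁻¹ ∈ Z) : ∀ x ∈ P, h * x = x * h := by
  have key : ⁅P, P⁆ ≤ Subgroup.centralizer {h} := by
    rw [Subgroup.commutator_le]
    intro x hx y hy
    rw [Subgroup.mem_centralizer_singleton_iff]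
    have ex : h * x * h⁻¹ = x * (h * x * h⁻¹ * x⁻¹) := by
      rw [hZc _ (hh x hx) x]
      group
    have ey : h * y * h⁻¹ = y * (h * y * h⁻¹ * y⁻¹) := by
      rw [hZc _ (hh y hy) y]
      group
    have e1 : h * ⁅x, y⁆ * h⁻¹ = ⁅h * x * h⁻¹, h * y * h⁻¹⁆ := by
      simp only [commutatorElement_def]
      group
    rw [ex, ey, ag5_comm_central (hZc _ (hh x hx)) (hZc _ (hh y hy))] at e1
    calc ⁅x, y⁆ * h = (h * ⁅x, y⁆ * h⁻¹) * h := by rw [e1]
      _ = h * ⁅x, y⁆ := by group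
  intro x hx
  rw [← hP] at hx
  have := key hx
  rw [Subgroup.mem_centralizer_singleton_iff] at this
  exact this.symm

end abstract

end Cfsg.Agent.Lib.Helper77.Asch
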