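import Cfsg.Agent.Lib.Helper77.Asch.Defs
import Cfsg.Agent.Lib.Helper99.AltDerange

/-! Ladder ASCH, rung ODD: no non-degenerate alternating form in odd dimension. -/

set_option autoImplicit false

namespace Cfsg.Agent.Lib.Helper77.Asch

open Cfsg Cfsg.Geo
open scoped MatrixGroups Matrix

variable {n : ℕ} {F : Type*} [Field F]

/-- ODD. -/
theorem no_symplectic_odd (hn : Odd n) (f : (Fin n → F) → (Fin n → F) → F) (hf : IsSymplecticForm f) :
    False := by
  set B : LinearMap.BilinForm F (Fin n → F) := LinearMap.mk₂ F f hf.bilinear.add_left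
    (fun c x v => by simpa using hf.bilinear.smul_left c x v) hf.bilinear.add_right
    (fun c v x => by simpa using hf.bilinear.smul_right c v x) with hBdef
  have hB : B.IsAlt := fun v => hf.alternating v
  have hnd : Cfsg.Agent.Lib.Helper99.NondegOn B ⊤ := by
    intro v _ hv
    obtain ⟨_, y, hy⟩ := hf.nondegenerate v hv
    exact ⟨y, trivial, hy⟩
  have h := Cfsg.Agent.Lib.Helper99.even_finrank_of_nondegOn hB hnd
  rw [finrank_top, Module.finrank_fin_fun] at h
  exact (Nat.not_even_iff_odd.2 hn) h

end Cfsg.Agent.Lib.Helper77.Asch
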