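import Cfsg.Agent.Lib.Helper77.Asch.HB

/-! Ladder ASCH, rung HC: order and centre of the Heisenberg group. -/

set_option autoImplicit false

namespace Cfsg.Agent.Lib.Helper77.Asch

open Cfsg Cfsg.Geo
open scoped MatrixGroups Matrix

section abs

variable {G : Type*} [Group G] {x y z : G}

theorem hc_l1 (hz : ∀ g, Commute z g) (hc : x * y = z * (y * x)) (a : ℕ) :
    x ^ a * y = z ^ a * (y * x ^ a) := by
  induction a with
  | zero => simp
  | succ a ih =>
    calc x ^ (a + 1) * y = x * (x ^ a * y) := by rw [pow_succ', mul_assoc]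
      _ = x * (z ^ a * (y * x ^ a)) := by rw [ih]
      _ = z ^ a * (x * (y * x ^ a)) := ((hz x).pow_left a).symm.left_comm _
      _ = z ^ a * ((x * y) * x ^ a) := by rw [mul_assoc]
      _ = z ^ a * ((z * (y * x)) * x ^ a) := by rw [hc]
      _ = z ^ (a + 1) * (y * x ^ (a + 1)) := by simp only [pow_succ z, pow_succ' x, mul_assoc]

theorem hc_l2 (hz : ∀ g, Commute z g) (hc : x * y = z * (y * x)) (b : ℕ) :
    x * y ^ b = z ^ b * (y ^ b * x) := by
  induction b with
  | zero => simp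
  | succ b ih =>
    calc x * y ^ (b + 1) = (x * y ^ b) * y := by rw [pow_succ, mul_assoc]
      _ = (z ^ b * (y ^ b * x)) * y := by rw [ih]
      _ = z ^ b * (y ^ b * (x * y)) := by simp only [mul_assoc]
      _ = z ^ b * (y ^ b * (z * (y * x))) := by rw [hc]
      _ = z ^ b * (z * (y ^ b * (y * x))) := by rw [((hz (y ^ b))).symm.left_comm]
      _ = z ^ (b + 1) * (y ^ (b + 1) * x) := by simp only [pow_succ, mul_assoc]

theorem hc_l3 (hz : ∀ g, Commute z g) (hc : x * y = z * (y * x)) (a b c : ℕ) :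
    (z ^ c * (x ^ a * y ^ b)) * y = z ^ a * (y * (z ^ c * (x ^ a * y ^ b))) := by
  calc (z ^ c * (x ^ a * y ^ b)) * y = z ^ c * (x ^ a * (y ^ b * y)) := by simp only [mul_assoc]
    _ = z ^ c * (x ^ a * (y * y ^ b)) := by rw [pow_mul_comm']
    _ = z ^ c * ((x ^ a * y) * y ^ b) := by rw [mul_assoc]
    _ = z ^ c * ((z ^ a * (y * x ^ a)) * y ^ b) := by rw [hc_l1 hz hc]
    _ = z ^ c * (z ^ a * (y * (x ^ a * y ^ b))) := by simp only [mul_assoc]
    _ = z ^ a * (z ^ c * (y * (x ^ a * y ^ b))) := ((hz (z ^ a)).pow_left c).left_comm _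
    _ = z ^ a * (y * (z ^ c * (x ^ a * y ^ b))) := by rw [((hz y).pow_left c).left_comm]

theorem hc_l4 (hz : ∀ g, Commute z g) (hc : x * y = z * (y * x)) (a b c : ℕ) :
    x * (z ^ c * (x ^ a * y ^ b)) = z ^ b * ((z ^ c * (x ^ a * y ^ b)) * x) := by
  calc x * (z ^ c * (x ^ a * y ^ b)) = z ^ c * (x * (x ^ a * y ^ b)) :=
        ((hz x).pow_left c).symm.left_comm _
    _ = z ^ c * ((x * x ^ a) * y ^ b) := by rw [mul_assoc]
    _ = z ^ c * ((x ^ a * x) * y ^ b) := by rw [pow_mul_comm']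
    _ = z ^ c * (x ^ a * (x * y ^ b)) := by rw [mul_assoc]
    _ = z ^ c * (x ^ a * (z ^ b * (y ^ b * x))) := by rw [hc_l2 hz hc]
    _ = z ^ c * (z ^ b * (x ^ a * (y ^ b * x))) := by rw [((hz (x ^ a)).pow_left b).symm.left_comm]
    _ = z ^ b * (z ^ c * (x ^ a * (y ^ b * x))) := ((hz (z ^ b)).pow_left c).left_comm _
    _ = z ^ b * ((z ^ c * (x ^ a * y ^ b)) * x) := by simp only [mul_assoc]

end abs

variable {n : ℕ} {F : Type*} [Field F]

theorem hc_sc_comm (w : Fˣ) (g : GL (Fin n) F) : Commute (sc w : GL (Fin n) F) g := by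
  apply Units.ext
  rw [Units.val_mul, Units.val_mul, hb_sc_coe]
  simp

theorem hc_sc_pow (w : Fˣ) (k : ℕ) : (sc w : GL (Fin n) F) ^ k = sc (w ^ k) := by
  unfold sc
  rw [map_pow]

theorem hc_sc_eq_one (hn0 : 0 < n) (u : Fˣ) (h : (sc u : GL (Fin n) F) = 1) : u = 1 := by
  have h1 := congrArg (fun g : GL (Fin n) F => (g : Matrix (Fin n) (Fin n) F) ⟨0, hn0⟩ ⟨0, hn0⟩) h
  simp only [hb_sc_coe] at h1
  apply Units.ext
  simpa using h1

theorem hc_sc_orderOf (hn0 : 0 < n) (w : Fˣ) : orderOf (sc w : GL (Fin n) F) = orderOf w := by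
  apply orderOf_eq_orderOf_iff.mpr
  intro k
  rw [hc_sc_pow]
  constructor
  · intro h; exact hc_sc_eq_one hn0 _ h
  · intro h
    rw [h]
    unfold sc
    rw [map_one]

/-- HC -/
theorem heis_card (hn : n.Prime) (R : Subgroup (GL (Fin n) F)) (x y : GL (Fin n) F) (w : Fˣ)
    (h : Heis R x y w) : Nat.card R = n ^ (1 + 2 * 1) ∧ Nat.card (Subgroup.center R) = n := by
  classical
  have hn0 : 0 < n := hn.pos
  set z : GL (Fin n) F := sc w with hzdef
  have hz : ∀ g, Commute z g := hc_sc_comm w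
  have hzo : orderOf z = n := by rw [hzdef, hc_sc_orderOf hn0, h.w_ord]
  have hzn : z ^ n = 1 := by
    have := pow_orderOf_eq_one z
    rwa [hzo] at this
  have hinjz : ∀ a b : ℕ, a < n → b < n → z ^ a = z ^ b → a = b := by
    intro a b ha hb hab
    exact pow_injOn_Iio_orderOf (by rw [hzo]; exact ha) (by rw [hzo]; exact hb) hab
  have hc := h.comm
  constructor
  · let Φ : Fin n × Fin n × Fin n → R := fun t =>
      ⟨z ^ (t.2.2 : ℕ) * (x ^ (t.1 : ℕ) * y ^ (t.2.1 : ℕ)),
        R.mul_mem (R.pow_mem h.w_mem _) (R.mul_mem (R.pow_mem h.x_mem _) (R.pow_mem h.y_mem _))⟩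
    have hbij : Function.Bijective Φ := by
      constructor
      · rintro ⟨a, b, c⟩ ⟨a', b', c'⟩ hΦ
        have he : z ^ (c : ℕ) * (x ^ (a : ℕ) * y ^ (b : ℕ)) = z ^ (c' : ℕ) * (x ^ (a' : ℕ) * y ^ (b' : ℕ)) :=
          congrArg Subtype.val hΦ
        have h3 := hc_l3 hz hc a b c
        have h3' := hc_l3 hz hc a' b' c'
        rw [he, h3'] at h3
        have ha : a = a' := Fin.ext (hinjz _ _ a.2 a'.2 (mul_right_cancel h3).symm)
        have h4 := hc_l4 hz hc a b c
        have h4' := hc_l4 hz hc a' b' c'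
        rw [he, h4'] at h4
        have hb : b = b' := Fin.ext (hinjz _ _ b.2 b'.2 (mul_right_cancel h4).symm)
        subst ha hb
        have hc' : c = c' := Fin.ext (hinjz _ _ c.2 c'.2 (mul_right_cancel he))
        subst hc'
        rfl
      · rintro ⟨g, hg⟩
        obtain ⟨a, b, c, rfl⟩ := h.gen g hg
        refine ⟨(⟨a % n, Nat.mod_lt _ hn0⟩, ⟨b % n, Nat.mod_lt _ hn0⟩, ⟨c % n, Nat.mod_lt _ hn0⟩), ?_⟩
        apply Subtype.ext
        show z ^ (c % n) * (x ^ (a % n) * y ^ (b % n)) = z ^ c * (x ^ a * y ^ b)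
        rw [← pow_eq_pow_mod c hzn, ← pow_eq_pow_mod a h.x_pow, ← pow_eq_pow_mod b h.y_pow]
    rw [← Nat.card_congr (Equiv.ofBijective Φ hbij)]
    simp only [Nat.card_eq_fintype_card, Fintype.card_prod, Fintype.card_fin]
    ring
  · have hcen : Subgroup.center R = Subgroup.zpowers (⟨z, h.w_mem⟩ : R) := by
      apply le_antisymm
      · rintro ⟨g, hg⟩ hgc
        rw [Subgroup.mem_center_iff] at hgc
        obtain ⟨a, b, c, rfl⟩ := h.gen g hg
        have e1 : y * (z ^ c * (x ^ a * y ^ b)) = (z ^ c * (x ^ a * y ^ b)) * y :=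
          congrArg Subtype.val (hgc ⟨y, h.y_mem⟩)
        have e2 : x * (z ^ c * (x ^ a * y ^ b)) = (z ^ c * (x ^ a * y ^ b)) * x :=
          congrArg Subtype.val (hgc ⟨x, h.x_mem⟩)
        have h3 := hc_l3 hz hc a b c
        rw [← e1] at h3
        have ha : z ^ a = 1 := (mul_eq_right.mp h3.symm)
        have h4 := hc_l4 hz hc a b c
        rw [e2] at h4
        have hb : z ^ b = 1 := (mul_eq_right.mp h4.symm)
        have ha' : n ∣ a := by rw [← hzo]; exact orderOf_dvd_of_pow_eq_one ha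
        have hb' : n ∣ b := by rw [← hzo]; exact orderOf_dvd_of_pow_eq_one hb
        obtain ⟨a', rfl⟩ := ha'
        obtain ⟨b', rfl⟩ := hb'
        rw [Subgroup.mem_zpowers_iff]
        refine ⟨c, ?_⟩
        apply Subtype.ext
        rw [zpow_natCast]
        show z ^ c = z ^ c * (x ^ (n * a') * y ^ (n * b'))
        rw [pow_mul, pow_mul, h.x_pow, h.y_pow, one_pow, one_pow, mul_one, mul_one]
      · rw [Subgroup.zpowers_le, Subgroup.mem_center_iff]
        intro g
        apply Subtype.ext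
        exact (hz g).eq.symm
    rw [hcen, Nat.card_zpowers, ← Subgroup.orderOf_coe]
    exact hzo

end Cfsg.Agent.Lib.Helper77.Asch
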