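import Cfsg.Agent.Lib.Helper77.Asch.HB

/-! Ladder ASCH, rung HCM: the commutant of a Heisenberg pair. -/

set_option autoImplicit false

namespace Cfsg.Agent.Lib.Helper77.Asch

open Cfsg Cfsg.Geo
open scoped MatrixGroups Matrix

variable {n : ℕ} {F : Type*} [Field F]

/-- a matrix commuting with `diag (w^i)` and with the shift is scalar -/
theorem hcm_scalar (hn0 : 0 < n) {w : F} (hprim : IsPrimitiveRoot w n) (G : Matrix (Fin n) (Fin n) F)
    (e1 : G * Matrix.diagonal (fun i : Fin n => w ^ (i : ℕ)) =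
      Matrix.diagonal (fun i : Fin n => w ^ (i : ℕ)) * G)
    (e2 : G * shiftM n F = shiftM n F * G) :
    G = (G ⟨0, hn0⟩ ⟨0, hn0⟩) • 1 := by
  classical
  have hoff : ∀ i j : Fin n, i ≠ j → G i j = 0 := by
    intro i j hij
    have h := congrFun (congrFun e1 i) j
    rw [Matrix.mul_diagonal, Matrix.diagonal_mul] at h
    have h3 : G i j * (w ^ (j : ℕ) - w ^ (i : ℕ)) = 0 := by
      rw [mul_sub, h]; ring
    rcases mul_eq_zero.mp h3 with h4 | h4
    · exact h4
    · exact absurd (Fin.ext (hprim.pow_inj j.2 i.2 (sub_eq_zero.mp h4))).symm hij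
  have hsh : ∀ i : Fin n, G ⟨((i : ℕ) + 1) % n, Nat.mod_lt _ hn0⟩ ⟨((i : ℕ) + 1) % n, Nat.mod_lt _ hn0⟩
      = G i i := by
    intro i
    have h := congrFun (congrFun e2 ⟨((i : ℕ) + 1) % n, Nat.mod_lt _ hn0⟩) i
    rw [Matrix.mul_apply, Matrix.mul_apply,
      Finset.sum_eq_single (⟨((i : ℕ) + 1) % n, Nat.mod_lt _ hn0⟩ : Fin n),
      Finset.sum_eq_single i] at h
    · simpa [shiftM] using h
    · intro b _ hb
      rw [hoff b i hb, mul_zero]
    · intro h'
      exact absurd (Finset.mem_univ _) h'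
    · intro b _ hb
      have : ¬ ((b : ℕ) = ((i : ℕ) + 1) % n) := fun h => hb (Fin.ext h)
      simp [shiftM, this]
    · intro h'
      exact absurd (Finset.mem_univ _) h'
  have hdiag : ∀ (k : ℕ) (hk : k < n), G ⟨k, hk⟩ ⟨k, hk⟩ = G ⟨0, hn0⟩ ⟨0, hn0⟩ := by
    intro k
    induction k with
    | zero => intro _; rfl
    | succ k ih =>
      intro hk
      have h := hsh ⟨k, by omega⟩
      simp only [Nat.mod_eq_of_lt hk] at h
      rw [h, ih]
  ext i j
  by_cases hij : i = j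
  · subst hij
    rw [Matrix.smul_apply, Matrix.one_apply_eq, smul_eq_mul, mul_one]
    exact hdiag i i.2
  · rw [hoff i j hij, Matrix.smul_apply, Matrix.one_apply_ne hij, smul_zero]

/-- HCM -/
theorem heis_commutant (hn : n.Prime) (x y : GL (Fin n) F) (w : Fˣ) (hx : x ^ n = 1) (hy : y ^ n = 1)
    (hw : orderOf w = n) (hc : x * y = sc w * (y * x)) (g : GL (Fin n) F) (h1 : g * x = x * g) (h2 : g * y = y * g) :
    g ∈ scalars (Fin n) F := by
  classical
  have hn0 : 0 < n := hn.pos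
  have hprim : IsPrimitiveRoot (w : F) n := by
    rw [IsPrimitiveRoot.coe_units_iff, ← hw]; exact IsPrimitiveRoot.orderOf w
  obtain ⟨B, hBx, hBy⟩ := heis_basis hn x y w hx hy hw hc
  set g' : GL (Fin n) F := B * g * B⁻¹ with hg'
  have e1 : g' * (B * x * B⁻¹) = (B * x * B⁻¹) * g' := by
    rw [hg']
    calc B * g * B⁻¹ * (B * x * B⁻¹) = B * (g * x) * B⁻¹ := by group
      _ = B * (x * g) * B⁻¹ := by rw [h1]
      _ = _ := by group
  have e2 : g' * (B * y * B⁻¹) = (B * y * B⁻¹) * g' := by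
    rw [hg']
    calc B * g * B⁻¹ * (B * y * B⁻¹) = B * (g * y) * B⁻¹ := by group
      _ = B * (y * g) * B⁻¹ := by rw [h2]
      _ = _ := by group
  have e1' : (g' : Matrix (Fin n) (Fin n) F) * ((B * x * B⁻¹ : GL (Fin n) F) : Matrix (Fin n) (Fin n) F)
      = ((B * x * B⁻¹ : GL (Fin n) F) : Matrix (Fin n) (Fin n) F) * (g' : Matrix (Fin n) (Fin n) F) := by
    rw [← Units.val_mul, ← Units.val_mul, e1]
  have e2' : (g' : Matrix (Fin n) (Fin n) F) * ((B * y * B⁻¹ : GL (Fin n) F) : Matrix (Fin n) (Fin n) F)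
      = ((B * y * B⁻¹ : GL (Fin n) F) : Matrix (Fin n) (Fin n) F) * (g' : Matrix (Fin n) (Fin n) F) := by
    rw [← Units.val_mul, ← Units.val_mul, e2]
  rw [hBx] at e1'
  rw [hBy] at e2'
  have hsc := hcm_scalar hn0 hprim _ e1' e2'
  set c : F := (g' : Matrix (Fin n) (Fin n) F) ⟨0, hn0⟩ ⟨0, hn0⟩ with hcdef
  have hc0 : c ≠ 0 := by
    intro h0
    have h3 : (g' : Matrix (Fin n) (Fin n) F) * ((g'⁻¹ : GL (Fin n) F) : Matrix (Fin n) (Fin n) F) = 1 :=
      Units.mul_inv g'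
    rw [hsc, h0, zero_smul, zero_mul] at h3
    have := congrFun (congrFun h3 ⟨0, hn0⟩) ⟨0, hn0⟩
    simp at this
  have hg'mem : g' ∈ scalars (Fin n) F := (mem_scalars_iff g').mpr ⟨Units.mk0 c hc0, hsc⟩
  have := (scalars_normal (ι := Fin n) (F := F)).conj_mem g' hg'mem B⁻¹
  have h4 : B⁻¹ * g' * B⁻¹⁻¹ = g := by rw [hg']; group
  rwa [h4] at this

end Cfsg.Agent.Lib.Helper77.Asch
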