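import Cfsg.Agent.Lib.Helper77.Asch.Defs

set_option autoImplicit false

namespace Cfsg.Agent.Lib.Helper77.Asch

open Cfsg Cfsg.Geo
open scoped MatrixGroups Matrix

variable {n : ℕ} {F : Type*} [Field F]

theorem span_eq_top (hn : 0 < n) (P : Subgroup (GL (Fin n) F))
    (hP : ActsAbsolutelyIrreducibly (matrixSet P)) :
    Submodule.span F (matrixSet P) = ⊤ := by
  classical
  obtain ⟨hirr, hcomm⟩ := hP
  have : Nonempty (Fin n) := ⟨⟨0, hn⟩⟩
  let φ : GL (Fin n) F →* Module.End F (Fin n → F) :=
    ((Matrix.toLinAlgEquiv' : Matrix (Fin n) (Fin n) F ≃ₐ[F] _) :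
      Matrix (Fin n) (Fin n) F →* Module.End F (Fin n → F)).comp (Units.coeHom _)
  have hφ : ∀ g : GL (Fin n) F, φ g = Matrix.toLin' (g : Matrix (Fin n) (Fin n) F) := fun g => rfl
  let S' : Submonoid (Module.End F (Fin n → F)) := P.toSubmonoid.map φ
  let A : Subalgebra F (Module.End F (Fin n → F)) := Algebra.adjoin F (S' : Set _)
  have hmemA : ∀ x ∈ P, Matrix.toLin' (x : Matrix (Fin n) (Fin n) F) ∈ A := fun x hx =>
    Algebra.subset_adjoin ⟨x, hx, rfl⟩
  have : IsSimpleOrder (Submodule A (Fin n → F)) :=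
    { eq_bot_or_eq_top := fun W => by
        have h := hirr (W.restrictScalars F) (by
          rintro _ ⟨x, hx, rfl⟩
          rintro _ ⟨v, hv, rfl⟩
          exact W.smul_mem ⟨_, hmemA x hx⟩ hv)
        rcases h with h | h
        · left
          exact (Submodule.restrictScalars_eq_bot_iff _ _ _).1 h
        · right
          exact (Submodule.restrictScalars_eq_top_iff _ _ _).1 h }
  have : IsSimpleModule A (Fin n → F) := {}
  -- every `A`-endomorphism is a scalar
  have hsc : ∀ ψ : Module.End A (Fin n → F), ∃ c : F, ∀ v, ψ v = c • v := by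
    intro ψ
    let ψF : Module.End F (Fin n → F) := ψ.restrictScalars F
    obtain ⟨c, hc⟩ := hcomm (LinearMap.toMatrix' ψF) (by
      rintro _ ⟨x, hx, rfl⟩
      apply Matrix.toLin'.injective
      rw [Matrix.toLin'_mul, Matrix.toLin'_mul, Matrix.toLin'_toMatrix']
      refine LinearMap.ext fun v => ?_
      have := ψ.map_smul (⟨_, hmemA x hx⟩ : A) v
      exact this)
    refine ⟨c, fun v => ?_⟩
    have h1 : ψF = Matrix.toLin' (c • (1 : Matrix (Fin n) (Fin n) F)) := by
      rw [← hc, Matrix.toLin'_toMatrix']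
    have h2 : ψ v = ψF v := rfl
    rw [h2, h1]
    simp
  have htop : A = ⊤ := by
    rw [eq_top_iff]
    intro g _
    let f : Module.End (Module.End A (Fin n → F)) (Fin n → F) :=
      { toFun := g
        map_add' := g.map_add
        map_smul' := fun ψ v => by
          obtain ⟨c, hc⟩ := hsc ψ
          change g (ψ v) = ψ (g v)
          rw [hc, hc, g.map_smul] }
    obtain ⟨r, hr⟩ := jacobson_density (R := A) (M := Fin n → F) f (Finset.univ.image (fun i : Fin n => Pi.single i (1 : F)))
    have : g = r.1 := by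
      apply LinearMap.pi_ext'
      intro i
      ext1
      have := hr (Pi.single i 1) (Finset.mem_image_of_mem _ (Finset.mem_univ i))
      simp only [LinearMap.coe_comp, LinearMap.coe_single, Function.comp_apply]
      exact this
    rw [this]
    exact r.2
  have hspan : Submodule.span F ((S' : Set (Module.End F (Fin n → F)))) = ⊤ := by
    have h1 := Algebra.adjoin_eq_span F (S' : Set (Module.End F (Fin n → F)))
    rw [Submonoid.closure_eq] at h1
    rw [← h1]
    change Subalgebra.toSubmodule A = ⊤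
    rw [htop]
    simp
  have himg : (S' : Set (Module.End F (Fin n → F))) =
      (Matrix.toLin' : Matrix (Fin n) (Fin n) F ≃ₗ[F] _) '' (matrixSet P) := by
    ext g
    constructor
    · rintro ⟨x, hx, rfl⟩
      exact ⟨_, ⟨x, hx, rfl⟩, rfl⟩
    · rintro ⟨_, ⟨x, hx, rfl⟩, rfl⟩
      exact ⟨x, hx, rfl⟩
  rw [himg] at hspan
  have h2 : (Submodule.span F (matrixSet P)).map
      (Matrix.toLin' : Matrix (Fin n) (Fin n) F ≃ₗ[F] _).toLinearMap = ⊤ := by
    rw [Submodule.map_span]
    exact hspan
  rw [eq_top_iff]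
  intro M _
  have h3 : Matrix.toLin' M ∈ (Submodule.span F (matrixSet P)).map
      (Matrix.toLin' : Matrix (Fin n) (Fin n) F ≃ₗ[F] _).toLinearMap := by
    rw [h2]; trivial
  obtain ⟨M', hM', he⟩ := h3
  have : M' = M := Matrix.toLin'.injective he
  exact this ▸ hM'

end Cfsg.Agent.Lib.Helper77.Asch
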