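import Cfsg.Agent.Lib.Helper77.Asch.Defs

set_option autoImplicit false

namespace Cfsg.Agent.Lib.Helper77.Asch

open Cfsg Cfsg.Geo
open scoped MatrixGroups Matrix

variable {n : ℕ} {F : Type*} [Field F]

/-- the linear map of an element of `GL` -/
noncomputable def cl1T (g : GL (Fin n) F) : (Fin n → F) →ₗ[F] (Fin n → F) :=
  Matrix.toLin' (g : Matrix (Fin n) (Fin n) F)

theorem cl1T_apply (g : GL (Fin n) F) (v : Fin n → F) :
    cl1T g v = (g : Matrix (Fin n) (Fin n) F) *ᵥ v := rfl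

theorem cl1T_mul (g h : GL (Fin n) F) (v : Fin n → F) : cl1T (g * h) v = cl1T g (cl1T h v) := by
  simp [cl1T, Matrix.toLin'_mul]

theorem cl1T_one (v : Fin n → F) : cl1T (1 : GL (Fin n) F) v = v := by
  simp [cl1T]

theorem cl1T_inv_apply (g : GL (Fin n) F) (v : Fin n → F) : cl1T g⁻¹ (cl1T g v) = v := by
  rw [← cl1T_mul, inv_mul_cancel, cl1T_one]

theorem cl1T_apply_inv (g : GL (Fin n) F) (v : Fin n → F) : cl1T g (cl1T g⁻¹ v) = v := by
  rw [← cl1T_mul, mul_inv_cancel, cl1T_one]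

theorem cl1T_injective (g : GL (Fin n) F) : Function.Injective (cl1T g) := by
  intro v w h
  rw [← cl1T_inv_apply g v, h, cl1T_inv_apply]

/-- invariance of a subspace under a subgroup -/
def cl1Inv (K : Subgroup (GL (Fin n) F)) (W : Submodule F (Fin n → F)) : Prop :=
  ∀ x ∈ K, ∀ w ∈ W, cl1T x w ∈ W

theorem cl1_irr_iff (K : Subgroup (GL (Fin n) F)) :
    ActsIrreducibly (matrixSet K) ↔ ∀ W : Submodule F (Fin n → F), cl1Inv K W → W = ⊥ ∨ W = ⊤ := by
  constructor
  · intro h W hW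
    apply h W
    rintro _ ⟨x, hx, rfl⟩
    rintro _ ⟨w, hw, rfl⟩
    exact hW x hx w hw
  · intro h W hW
    apply h W
    intro x hx w hw
    exact hW _ ⟨x, hx, rfl⟩ ⟨w, hw, rfl⟩

theorem cl1Inv_map (H N : Subgroup (GL (Fin n) F)) (hnorm : NormBy H N) (W : Submodule F (Fin n → F))
    (hW : cl1Inv N W) (h : GL (Fin n) F) (hh : h ∈ H) : cl1Inv N (W.map (cl1T h)) := by
  rintro x hx _ ⟨w, hw, rfl⟩
  refine ⟨cl1T (h⁻¹ * x * h) w, hW _ ?_ w hw, ?_⟩
  · have := hnorm h⁻¹ (H.inv_mem hh) x hx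
    simpa using this
  · rw [← cl1T_mul, ← cl1T_mul]
    congr 1
    group

theorem cl1Inv_inf (N : Subgroup (GL (Fin n) F)) (W W' : Submodule F (Fin n → F))
    (hW : cl1Inv N W) (hW' : cl1Inv N W') : cl1Inv N (W ⊓ W') :=
  fun x hx w hw => ⟨hW x hx w hw.1, hW' x hx w hw.2⟩

theorem cl1Inv_sup (N : Subgroup (GL (Fin n) F)) (W W' : Submodule F (Fin n → F))
    (hW : cl1Inv N W) (hW' : cl1Inv N W') : cl1Inv N (W ⊔ W') := by
  intro x hx w hw
  obtain ⟨a, ha, b, hb, rfl⟩ := Submodule.mem_sup.mp hw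
  rw [map_add]
  exact Submodule.add_mem _ (Submodule.mem_sup_left (hW x hx a ha)) (Submodule.mem_sup_right (hW' x hx b hb))

theorem cl1_finrank_map (W : Submodule F (Fin n → F)) (h : GL (Fin n) F) :
    Module.finrank F (W.map (cl1T h)) = Module.finrank F W :=
  (LinearEquiv.finrank_eq (Submodule.equivMapOfInjective (cl1T h) (cl1T_injective h) W)).symm

/-- an invariant subspace of minimal positive dimension -/
theorem cl1_exists_min (hn : 0 < n) (N : Subgroup (GL (Fin n) F)) :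
    ∃ W : Submodule F (Fin n → F), cl1Inv N W ∧ W ≠ ⊥ ∧
      ∀ W' : Submodule F (Fin n → F), cl1Inv N W' → W' ≠ ⊥ → Module.finrank F W ≤ Module.finrank F W' := by
  classical
  have hne : Nonempty (Fin n) := ⟨⟨0, hn⟩⟩
  let P : ℕ → Prop := fun d => ∃ W : Submodule F (Fin n → F), cl1Inv N W ∧ W ≠ ⊥ ∧ Module.finrank F W = d
  have hex : ∃ d, P d := ⟨_, ⊤, fun _ _ _ _ => trivial, top_ne_bot, rfl⟩
  obtain ⟨W, hW, hW0, hWd⟩ := Nat.find_spec hex
  refine ⟨W, hW, hW0, ?_⟩
  intro W' hW' hW'0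
  rw [hWd]
  exact Nat.find_min' hex ⟨W', hW', hW'0, rfl⟩

theorem cl1_step (H N : Subgroup (GL (Fin n) F)) (hnorm : NormBy H N)
    (hH : ActsIrreducibly (matrixSet H)) (W : Submodule F (Fin n → F)) (hW : cl1Inv N W) (hW0 : W ≠ ⊥)
    (hmin : ∀ W' : Submodule F (Fin n → F), cl1Inv N W' → W' ≠ ⊥ →
      Module.finrank F W ≤ Module.finrank F W')
    (U : Submodule F (Fin n → F)) (hU : cl1Inv N U) (hUt : U ≠ ⊤) :
    ∃ U' : Submodule F (Fin n → F), cl1Inv N U' ∧
      Module.finrank F U' = Module.finrank F U + Module.finrank F W := by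
  classical
  -- some translate is not inside U
  have h1 : ∃ h ∈ H, ¬ W.map (cl1T h) ≤ U := by
    by_contra hcon
    push Not at hcon
    let S : Submodule F (Fin n → F) := ⨆ h : H, W.map (cl1T (h : GL (Fin n) F))
    have hSinv : cl1Inv H S := by
      intro g hg w hw
      induction hw using Submodule.iSup_induction' with
      | mem h x hx =>
        obtain ⟨y, hy, rfl⟩ := hx
        rw [← cl1T_mul]
        exact Submodule.mem_iSup_of_mem (⟨g * h, H.mul_mem hg h.2⟩ : H) ⟨y, hy, rfl⟩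
      | zero => rw [map_zero]; exact Submodule.zero_mem _
      | add x y _ _ hx hy => rw [map_add]; exact Submodule.add_mem _ hx hy
    have hWS : W ≤ S := by
      intro w hw
      exact Submodule.mem_iSup_of_mem (1 : H) ⟨w, hw, cl1T_one w⟩
    rcases (cl1_irr_iff H).mp hH S hSinv with h2 | h2
    · apply hW0
      rw [eq_bot_iff, ← h2]
      exact hWS
    · apply hUt
      rw [eq_top_iff, ← h2]
      exact iSup_le fun h => hcon h h.2
  obtain ⟨h, hh, hnot⟩ := h1
  have hWh : cl1Inv N (W.map (cl1T h)) := cl1Inv_map H N hnorm W hW h hh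
  have hinf : W.map (cl1T h) ⊓ U = ⊥ := by
    by_contra hne
    have h3 := hmin _ (cl1Inv_inf N _ _ hWh hU) hne
    rw [← cl1_finrank_map W h] at h3
    have h4 : W.map (cl1T h) ⊓ U = W.map (cl1T h) := Submodule.eq_of_le_of_finrank_le inf_le_left h3
    apply hnot
    rw [← h4]
    exact inf_le_right
  refine ⟨U ⊔ W.map (cl1T h), cl1Inv_sup N _ _ hU hWh, ?_⟩
  have h5 := Submodule.finrank_sup_add_finrank_inf_eq U (W.map (cl1T h))
  rw [inf_comm, hinf, finrank_bot, add_zero, cl1_finrank_map] at h5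
  exact h5

theorem cl1_dvd (hn : 0 < n) (H N : Subgroup (GL (Fin n) F)) (hnorm : NormBy H N)
    (hH : ActsIrreducibly (matrixSet H)) (W : Submodule F (Fin n → F)) (hW : cl1Inv N W) (hW0 : W ≠ ⊥)
    (hmin : ∀ W' : Submodule F (Fin n → F), cl1Inv N W' → W' ≠ ⊥ →
      Module.finrank F W ≤ Module.finrank F W') : Module.finrank F W ∣ n := by
  classical
  by_contra hnd
  have hd : 0 < Module.finrank F W := by
    rw [Module.finrank_pos_iff, Submodule.nontrivial_iff_ne_bot]
    exact hW0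
  have key : ∀ m : ℕ, ∃ U : Submodule F (Fin n → F), cl1Inv N U ∧
      Module.finrank F U = m * Module.finrank F W := by
    intro m
    induction m with
    | zero => exact ⟨⊥, fun x _ w hw => by rw [(Submodule.mem_bot F).mp hw, map_zero]; exact Submodule.zero_mem _, by simp⟩
    | succ m ih =>
      obtain ⟨U, hU, hUm⟩ := ih
      have hUt : U ≠ ⊤ := by
        intro ht
        apply hnd
        rw [ht, finrank_top, Module.finrank_fin_fun] at hUm
        exact ⟨m, hUm.trans (mul_comm _ _)⟩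
      obtain ⟨U', hU', hU'm⟩ := cl1_step H N hnorm hH W hW hW0 hmin U hU hUt
      exact ⟨U', hU', by rw [hU'm, hUm]; ring⟩
  obtain ⟨U, _, hUm⟩ := key (n + 1)
  have h1 : Module.finrank F U ≤ n := by
    have := Submodule.finrank_le U
    rwa [Module.finrank_fin_fun] at this
  have h2 : n + 1 ≤ (n + 1) * Module.finrank F W := Nat.le_mul_of_pos_right _ hd
  omega

theorem cliff_line (hn : n.Prime) (H N : Subgroup (GL (Fin n) F)) (hN : N ≤ H) (hnorm : NormBy H N)
    (hH : ActsIrreducibly (matrixSet H)) :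
    ActsIrreducibly (matrixSet N) ∨
      ∃ v : Fin n → F, v ≠ 0 ∧ ∀ x ∈ N, ∃ c : F, (x : Matrix (Fin n) (Fin n) F) *ᵥ v = c • v := by
  classical
  obtain ⟨W, hW, hW0, hmin⟩ := cl1_exists_min hn.pos N
  have hd := cl1_dvd hn.pos H N hnorm hH W hW hW0 hmin
  rcases (Nat.dvd_prime hn).mp hd with h1 | h1
  · right
    obtain ⟨v, hv, hspan⟩ := finrank_eq_one_iff'.mp h1
    refine ⟨v, fun h0 => hv (Subtype.ext h0), ?_⟩
    intro x hx
    obtain ⟨c, hc⟩ := hspan ⟨cl1T x v, hW x hx v v.2⟩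
    exact ⟨c, (congrArg Subtype.val hc).symm⟩
  · left
    rw [cl1_irr_iff]
    intro W' hW'
    by_cases h0 : W' = ⊥
    · exact Or.inl h0
    right
    have h2 := hmin W' hW' h0
    rw [h1] at h2
    apply Submodule.eq_top_of_finrank_eq
    rw [Module.finrank_fin_fun]
    have := Submodule.finrank_le W'
    rw [Module.finrank_fin_fun] at this
    omega

end Cfsg.Agent.Lib.Helper77.Asch
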