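import Cfsg.Agent.Lib.Helper77.Asch.Defs

set_option autoImplicit false

namespace Cfsg.Agent.Lib.Helper77.Asch

open Cfsg Cfsg.Geo
open scoped MatrixGroups Matrix

variable {n : ℕ} {F : Type*} [Field F]

/-- Schur: a nonzero element of the commutant of an irreducible set is invertible there. -/
theorem comm_inv (S : Set (Matrix (Fin n) (Fin n) F)) (hS : ActsIrreducibly S)
    (x : Matrix (Fin n) (Fin n) F) (hx : x ∈ Subalgebra.centralizer F S) (hx0 : x ≠ 0) :
    ∃ y ∈ Subalgebra.centralizer F S, x * y = 1 ∧ y * x = 1 := by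
  rw [Subalgebra.mem_centralizer_iff] at hx
  have hker : LinearMap.ker (Matrix.toLin' x) = ⊥ := by
    rcases hS (LinearMap.ker (Matrix.toLin' x)) (by
      rintro s hs _ ⟨v, hv, rfl⟩
      have hv' : x *ᵥ v = 0 := by simpa [Matrix.toLin'_apply] using hv
      show Matrix.toLin' x (Matrix.toLin' s v) = 0
      rw [Matrix.toLin'_apply, Matrix.toLin'_apply, Matrix.mulVec_mulVec, ← hx s hs,
        ← Matrix.mulVec_mulVec, hv', Matrix.mulVec_zero]) with h | h
    · exact h
    · exfalso
      apply hx0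
      have : Matrix.toLin' x = 0 := LinearMap.ker_eq_top.1 h
      exact (Matrix.toLin' : Matrix (Fin n) (Fin n) F ≃ₗ[F] _).injective (by rw [this, map_zero])
  have hu : IsUnit x := by
    rw [← Matrix.isUnit_toLin'_iff]
    exact (LinearMap.isUnit_iff_ker_eq_bot _).2 hker
  have hdet : IsUnit x.det := (Matrix.isUnit_iff_isUnit_det x).1 hu
  have e1 : x * x⁻¹ = 1 := Matrix.mul_nonsing_inv x hdet
  have e2 : x⁻¹ * x = 1 := Matrix.nonsing_inv_mul x hdet
  refine ⟨x⁻¹, ?_, e1, e2⟩
  rw [Subalgebra.mem_centralizer_iff]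
  intro s hs
  calc s * x⁻¹ = x⁻¹ * (x * s) * x⁻¹ := by
        rw [← mul_assoc, e2, one_mul]
    _ = x⁻¹ * (s * x) * x⁻¹ := by rw [hx s hs]
    _ = x⁻¹ * s := by rw [mul_assoc, mul_assoc, e1, mul_one]

theorem comm_field [Finite F] (hn : 0 < n) (S : Set (Matrix (Fin n) (Fin n) F)) (hS : ActsIrreducibly S) :
    IsFieldSubalgebra (Module.finrank F (Subalgebra.centralizer F S)) (Subalgebra.centralizer F S) := by
  haveI : NeZero n := ⟨hn.ne'⟩
  refine ⟨?_, ?_, rfl⟩
  · haveI : Nontrivial (Subalgebra.centralizer F S) := ⟨0, 1, fun h => by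
      have h1 : (0 : Matrix (Fin n) (Fin n) F) = 1 := congrArg Subtype.val h
      exact zero_ne_one h1⟩
    haveI : NoZeroDivisors (Subalgebra.centralizer F S) := ⟨by
      intro a b hab
      by_cases ha : a = 0
      · exact Or.inl ha
      · right
        obtain ⟨y, -, -, hy⟩ := comm_inv S hS a.1 a.2 (fun h => ha (Subtype.ext h))
        have h1 : a.1 * b.1 = 0 := congrArg Subtype.val hab
        apply Subtype.ext
        show b.1 = 0
        calc b.1 = y * a.1 * b.1 := by rw [hy, one_mul]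
          _ = 0 := by rw [mul_assoc, h1, mul_zero]⟩
    haveI : IsDomain (Subalgebra.centralizer F S) := NoZeroDivisors.to_isDomain _
    have hf := Finite.isDomain_to_isField (Subalgebra.centralizer F S)
    intro x hx y hy
    exact congrArg Subtype.val (hf.mul_comm ⟨x, hx⟩ ⟨y, hy⟩)
  · intro x hx hx0
    obtain ⟨y, hy, h1, -⟩ := comm_inv S hS x hx hx0
    exact ⟨y, hy, h1⟩

end Cfsg.Agent.Lib.Helper77.Asch
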