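import Cfsg.Agent.Lib.Helper77.Asch.Defs

set_option autoImplicit false

namespace Cfsg.Agent.Lib.Helper77.Asch

open Cfsg Cfsg.Geo
open scoped MatrixGroups Matrix

variable {n : ℕ} {F : Type*} [Field F]

theorem deg_aux {K' : Type*} [Field K'] [Algebra F K'] (φ : K' →ₐ[F] Module.End F (Fin n → F)) :
    Module.finrank F K' ∣ n := by
  letI : Module K' (Fin n → F) := Module.compHom _ φ.toRingHom
  haveI : IsScalarTower F K' (Fin n → F) := ⟨fun c k v => by
    show φ (c • k) v = c • φ k v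
    rw [map_smul]; rfl⟩
  have := Module.finrank_mul_finrank F K' (Fin n → F)
  rw [Module.finrank_fin_fun] at this
  exact ⟨_, this.symm⟩

theorem deg_dvd (hn : 0 < n) (r : ℕ) (K : Subalgebra F (Matrix (Fin n) (Fin n) F))
    (hK : IsFieldSubalgebra r K) : r ∣ n := by
  haveI : NeZero n := ⟨hn.ne'⟩
  have hf : IsField K :=
    { exists_pair_ne := ⟨0, 1, fun h => by
        have h1 : (0 : Matrix (Fin n) (Fin n) F) = 1 := congrArg Subtype.val h
        exact zero_ne_one h1⟩
      mul_comm := fun x y => Subtype.ext (hK.comm x.1 x.2 y.1 y.2)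
      mul_inv_cancel := fun {x} hx => by
        obtain ⟨y, hy, hxy⟩ := hK.inv x.1 x.2 (fun h => hx (Subtype.ext h))
        exact ⟨⟨y, hy⟩, Subtype.ext hxy⟩ }
  have h := @deg_aux n F _ K hf.toField K.algebra
    ((Matrix.toLinAlgEquiv' : Matrix (Fin n) (Fin n) F ≃ₐ[F] _).toAlgHom.comp K.val)
  rw [← hK.finrank_eq]
  exact h

end Cfsg.Agent.Lib.Helper77.Asch
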