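import Cfsg.Agent.Lib.Helper77.Asch.Defs

set_option autoImplicit false

namespace Cfsg.Agent.Lib.Helper77.Asch

open Cfsg Cfsg.Geo
open scoped MatrixGroups Matrix commutatorElement

variable {n : ℕ} {F : Type*} [Field F]

theorem ex1_sc_mem (c : Fˣ) : (sc c : GL (Fin n) F) ∈ scalars (Fin n) F := ⟨c, rfl⟩

theorem ex1_sc_comm (c : Fˣ) (g : GL (Fin n) F) : g * sc c = sc c * g := by
  apply Units.ext
  exact (Matrix.scalar_commute (c : F) (fun r => mul_comm _ r) g.1).eq.symm

theorem ex1_central (z : GL (Fin n) F) (hz : z ∈ scalars (Fin n) F) (g : GL (Fin n) F) :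
    g * z = z * g := by
  obtain ⟨c, rfl⟩ := hz
  exact ex1_sc_comm c g

theorem ex1_sc_pow (c : Fˣ) (k : ℕ) : (sc c : GL (Fin n) F) ^ k = sc (c ^ k) := by
  unfold sc
  rw [map_pow]

theorem ex1_sc_one : (sc (1 : Fˣ) : GL (Fin n) F) = 1 := by
  unfold sc
  rw [map_one]

theorem ex1_det_sc (c : Fˣ) : Matrix.GeneralLinearGroup.det (sc c : GL (Fin n) F) = c ^ n := by
  apply Units.ext
  simp [sc, Matrix.scalar_apply]

theorem ex1_mem_scalars (hn0 : 0 < n) (g : GL (Fin n) F) (c : F)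
    (h : (g : Matrix (Fin n) (Fin n) F) = c • (1 : Matrix (Fin n) (Fin n) F)) :
    g ∈ scalars (Fin n) F := by
  have hc : c ≠ 0 := by
    rintro rfl
    have h1 : (g : Matrix (Fin n) (Fin n) F) * ((g⁻¹ : GL (Fin n) F) : Matrix (Fin n) (Fin n) F) = 1 := by
      rw [← Units.val_mul, mul_inv_cancel, Units.val_one]
    rw [h, zero_smul, zero_mul] at h1
    have h2 := congrFun (congrFun h1 ⟨0, hn0⟩) ⟨0, hn0⟩
    simp at h2
  rw [mem_scalars_iff]
  exact ⟨Units.mk0 c hc, h⟩

theorem ex1_comm (N : Subgroup (GL (Fin n) F)) (hab : ⁅N, N⁆ ≤ scalars (Fin n) F)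
    {x y : GL (Fin n) F} (hx : x ∈ N) (hy : y ∈ N) :
    ∃ c : Fˣ, c ^ n = 1 ∧ y * x = sc c * (x * y) := by
  have h1 : ⁅y, x⁆ ∈ scalars (Fin n) F := hab (Subgroup.commutator_mem_commutator hy hx)
  obtain ⟨c, hc⟩ := h1
  have hc' : (sc c : GL (Fin n) F) = ⁅y, x⁆ := hc
  refine ⟨c, ?_, ?_⟩
  · have h2 := congrArg Matrix.GeneralLinearGroup.det hc'
    rw [ex1_det_sc, map_commutatorElement] at h2
    rw [h2]
    exact commutatorElement_eq_one_iff_mul_comm.2 (mul_comm _ _)
  · rw [hc', commutatorElement_def]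
    group

section abstract
variable {G : Type*} [Group G]

theorem ex1_pow_left (x y z : G) (hz : ∀ g : G, Commute g z) (h : y * x = z * (x * y)) (k : ℕ) :
    y ^ k * x = z ^ k * (x * y ^ k) := by
  induction k with
  | zero => simp
  | succ k ih =>
    calc y ^ (k + 1) * x = y * (y ^ k * x) := by rw [pow_succ', mul_assoc]
      _ = y * (z ^ k * (x * y ^ k)) := by rw [ih]
      _ = z ^ k * ((y * x) * y ^ k) := by
        rw [← mul_assoc y, ((hz y).pow_right k).eq, mul_assoc, mul_assoc]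
      _ = z ^ k * ((z * (x * y)) * y ^ k) := by rw [h]
      _ = z ^ (k + 1) * (x * y ^ (k + 1)) := by
        rw [pow_succ, pow_succ' y]; simp only [mul_assoc]

theorem ex1_pow_right (x y z : G) (hz : ∀ g : G, Commute g z) (h : y * x = z * (x * y)) (k : ℕ) :
    y * x ^ k = z ^ k * (x ^ k * y) := by
  induction k with
  | zero => simp
  | succ k ih =>
    calc y * x ^ (k + 1) = (y * x ^ k) * x := by rw [pow_succ, mul_assoc]
      _ = z ^ k * (x ^ k * y) * x := by rw [ih]
      _ = z ^ k * (x ^ k * (y * x)) := by simp only [mul_assoc]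
      _ = z ^ k * (x ^ k * (z * (x * y))) := by rw [h]
      _ = z ^ k * (z * (x ^ k * (x * y))) := by
        rw [← mul_assoc (x ^ k) z, (hz (x ^ k)).eq, mul_assoc]
      _ = z ^ (k + 1) * (x ^ (k + 1) * y) := by
        rw [pow_succ, pow_succ x]; simp only [mul_assoc]

theorem ex1_mul_pow (x y z : G) (hz : ∀ g : G, Commute g z) (h : y * x = z * (x * y)) (k : ℕ) :
    (x * y) ^ k = z ^ (∑ i ∈ Finset.range k, i) * (x ^ k * y ^ k) := by
  induction k with
  | zero => simp
  | succ k ih =>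
    calc (x * y) ^ (k + 1) = (x * y) ^ k * (x * y) := pow_succ _ _
      _ = z ^ (∑ i ∈ Finset.range k, i) * (x ^ k * y ^ k) * (x * y) := by rw [ih]
      _ = z ^ (∑ i ∈ Finset.range k, i) * (x ^ k * ((y ^ k * x) * y)) := by simp only [mul_assoc]
      _ = z ^ (∑ i ∈ Finset.range k, i) * (x ^ k * ((z ^ k * (x * y ^ k)) * y)) := by
        rw [ex1_pow_left x y z hz h k]
      _ = z ^ (∑ i ∈ Finset.range k, i) * (z ^ k * (x ^ k * ((x * y ^ k) * y))) := by
        rw [mul_assoc (z ^ k), ← mul_assoc (x ^ k) (z ^ k), ((hz (x ^ k)).pow_right k).eq, mul_assoc]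
      _ = z ^ (∑ i ∈ Finset.range (k + 1), i) * (x ^ (k + 1) * y ^ (k + 1)) := by
        rw [Finset.sum_range_succ, pow_add, pow_succ x, pow_succ y]; simp only [mul_assoc]

end abstract

theorem ex1_dvd_sum (hodd : Odd n) : n ∣ ∑ i ∈ Finset.range n, i := by
  obtain ⟨j, hj⟩ := hodd
  refine ⟨j, ?_⟩
  have h := Finset.sum_range_id_mul_two n
  have h1 : n - 1 = 2 * j := by omega
  rw [h1] at h
  have h2 : (∑ i ∈ Finset.range n, i) * 2 = (n * j) * 2 := by rw [h]; ring
  exact Nat.eq_of_mul_eq_mul_right (by norm_num) h2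

/-- EX1 -/
theorem exists_expSub [Finite F] (hn : n.Prime) (h2 : n ≠ 2) (H N : Subgroup (GL (Fin n) F))
    (hm : MinOver H (scalars (Fin n) F) N) (hab : ⁅N, N⁆ ≤ scalars (Fin n) F)
    (hN : ActsAbsolutelyIrreducibly (matrixSet N)) :
    ∃ R : Subgroup (GL (Fin n) F), R ⊔ scalars (Fin n) F = N ∧ (∀ g ∈ R, g ^ n = 1) ∧ NormBy H R := by
  have hZN : scalars (Fin n) F ≤ N := hm.lt.le
  have hodd : Odd n := hn.odd_of_ne_two h2
  have hpow : ∀ x ∈ N, ∀ y ∈ N, (x * y) ^ n = x ^ n * y ^ n := by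
    intro x hx y hy
    obtain ⟨c, hc, hxy⟩ := ex1_comm N hab hx hy
    rw [ex1_mul_pow x y (sc c) (fun g => ex1_sc_comm c g) hxy n]
    obtain ⟨j, hj⟩ := ex1_dvd_sum hodd
    rw [hj, pow_mul, ex1_sc_pow, hc, ex1_sc_one, one_pow, one_mul]
  have hscal : ∀ x : GL (Fin n) F, (∀ y ∈ N, y * x = x * y) → x ∈ scalars (Fin n) F := by
    intro x hx
    obtain ⟨c, hc⟩ := hN.2 (x : Matrix (Fin n) (Fin n) F) (by
      rintro s ⟨g, hg, rfl⟩
      have := congrArg Units.val (hx g hg)
      simpa using this.symm)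
    exact ex1_mem_scalars hn.pos x c hc
  have hZn : ∀ x ∈ N, x ^ n ∈ scalars (Fin n) F := by
    intro x hx
    apply hscal
    intro y hy
    obtain ⟨c, hc, hxy⟩ := ex1_comm N hab hx hy
    rw [ex1_pow_right x y (sc c) (fun g => ex1_sc_comm c g) hxy n, ex1_sc_pow, hc, ex1_sc_one,
      one_mul]
  let R : Subgroup (GL (Fin n) F) :=
    { carrier := {x | x ∈ N ∧ x ^ n = 1}
      mul_mem' := fun {a b} ha hb => ⟨N.mul_mem ha.1 hb.1, by
        rw [hpow a ha.1 b hb.1, ha.2, hb.2, one_mul]⟩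
      one_mem' := ⟨N.one_mem, one_pow n⟩
      inv_mem' := fun {a} ha => ⟨N.inv_mem ha.1, by rw [inv_pow, ha.2, inv_one]⟩ }
  have hRN : R ≤ N := fun x hx => hx.1
  have hRnorm : NormBy H R := fun h hh x hx =>
    ⟨hm.norm h hh x hx.1, by rw [conj_pow, hx.2]; simp⟩
  have hsupnorm : NormBy H (R ⊔ scalars (Fin n) F) := by
    intro h hh x hx
    have h1 : (R ⊔ scalars (Fin n) F).map (MulAut.conj h).toMonoidHom ≤ R ⊔ scalars (Fin n) F := by
      rw [Subgroup.map_sup]
      apply sup_le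
      · rintro _ ⟨r, hr, rfl⟩
        exact (le_sup_left : R ≤ _) (hRnorm h hh r hr)
      · rintro _ ⟨z, hz, rfl⟩
        apply (le_sup_right : scalars (Fin n) F ≤ R ⊔ scalars (Fin n) F)
        have : (MulAut.conj h).toMonoidHom z = z := by
          simp only [MulEquiv.coe_toMonoidHom, MulAut.conj_apply]
          rw [ex1_central z hz h, mul_assoc, mul_inv_cancel, mul_one]
        rw [this]
        exact hz
    exact h1 ⟨x, hx, rfl⟩
  rcases hm.min (R ⊔ scalars (Fin n) F) le_sup_right (sup_le hRN hZN) hsupnorm with h | h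
  · exfalso
    have hRZ : R ≤ scalars (Fin n) F := le_sup_left.trans h.le
    have hcyc : IsCyclic ↥(scalars (Fin n) F) :=
      isCyclic_of_surjective
        (Units.map (Matrix.scalar (Fin n) : F →+* Matrix (Fin n) (Fin n) F).toMonoidHom).rangeRestrict
        (MonoidHom.rangeRestrict_surjective _)
    let f : ↥N →* ↥(scalars (Fin n) F) :=
      { toFun := fun x => ⟨(x : GL (Fin n) F) ^ n, hZn x x.2⟩
        map_one' := Subtype.ext (one_pow n)
        map_mul' := fun a b => Subtype.ext (hpow a a.2 b b.2) }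
    have hker : f.ker ≤ Subgroup.center ↥N := by
      intro x hx
      rw [MonoidHom.mem_ker] at hx
      have h1 : (x : GL (Fin n) F) ^ n = 1 := congrArg Subtype.val hx
      have hxZ : (x : GL (Fin n) F) ∈ scalars (Fin n) F := hRZ ⟨x.2, h1⟩
      rw [Subgroup.mem_center_iff]
      intro g
      exact Subtype.ext (ex1_central _ hxZ g)
    have hcommN' := MonoidHom.isMulCommutative_of_isCyclic_of_ker_le_center f hker
    have hcommN : ∀ a b : ↥N, a * b = b * a := fun a b => hcommN'.is_comm.comm a b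
    have hNZ : N ≤ scalars (Fin n) F := by
      intro x hx
      apply hscal
      intro y hy
      exact congrArg Subtype.val (hcommN ⟨y, hy⟩ ⟨x, hx⟩)
    exact absurd hNZ hm.lt.not_ge
  · exact ⟨R, h, fun g hg => hg.2, hRnorm⟩

end Cfsg.Agent.Lib.Helper77.Asch
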