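import Cfsg.Agent.Lib.Helper77.Asch.Defs

/-! Ladder ASCH, rung HB: the standard basis of a Heisenberg pair. -/

set_option autoImplicit false

namespace Cfsg.Agent.Lib.Helper77.Asch

open Cfsg Cfsg.Geo
open scoped MatrixGroups Matrix

variable {n : ℕ} {F : Type*} [Field F]

theorem hb_sc_coe (w : Fˣ) : ((sc w : GL (Fin n) F) : Matrix (Fin n) (Fin n) F) = (w : F) • 1 := by
  simp [sc, Matrix.smul_one_eq_diagonal]

theorem hb_eig {V : Type*} [AddCommGroup V] [Module F V] (f : Module.End F V) (s : Finset F) (u : V)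
    (hu : u ≠ 0)
    (h : Polynomial.aeval f (∏ ζ ∈ s, (Polynomial.X - Polynomial.C ζ)) u = 0) :
    ∃ ζ ∈ s, ∃ v : V, v ≠ 0 ∧ f v = ζ • v := by
  classical
  induction s using Finset.induction_on generalizing u with
  | empty =>
    simp at h
    exact absurd h hu
  | insert a s ha ih =>
    rw [Finset.prod_insert ha, map_mul, Module.End.mul_apply] at h
    by_cases h0 : Polynomial.aeval f (∏ ζ ∈ s, (Polynomial.X - Polynomial.C ζ)) u = 0
    · obtain ⟨ζ, hζ, v, hv, hfv⟩ := ih u hu h0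
      exact ⟨ζ, Finset.mem_insert_of_mem hζ, v, hv, hfv⟩
    · refine ⟨a, Finset.mem_insert_self a s, _, h0, ?_⟩
      simpa [sub_eq_zero] using h

/-- the relation on vectors -/
theorem hb_rel {X Y : Matrix (Fin n) (Fin n) F} {w : F} (hXY : X * Y = w • (Y * X)) (j : ℕ)
    (v : Fin n → F) (l : F) (hv : X *ᵥ v = l • v) :
    X *ᵥ ((Y ^ j) *ᵥ v) = (w ^ j * l) • ((Y ^ j) *ᵥ v) := by
  induction j with
  | zero => simpa using hv
  | succ j ih =>
    rw [pow_succ', ← Matrix.mulVec_mulVec, Matrix.mulVec_mulVec _ X Y, hXY, Matrix.smul_mulVec,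
      ← Matrix.mulVec_mulVec, ih, Matrix.mulVec_smul, smul_smul, pow_succ']
    congr 1
    ring

theorem hb_ne (y : GL (Fin n) F) (j : ℕ) (v : Fin n → F) (hv : v ≠ 0) :
    ((y : Matrix (Fin n) (Fin n) F) ^ j) *ᵥ v ≠ 0 := by
  intro h
  apply hv
  have h1 : (((y ^ j)⁻¹ : GL (Fin n) F) : Matrix (Fin n) (Fin n) F) * ((y : Matrix (Fin n) (Fin n) F) ^ j) = 1 := by
    rw [← Units.val_pow_eq_pow_val, Units.inv_mul]
  calc v = (1 : Matrix (Fin n) (Fin n) F) *ᵥ v := (Matrix.one_mulVec v).symm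
    _ = 0 := by rw [← h1, ← Matrix.mulVec_mulVec, h, Matrix.mulVec_zero]

/-- HB -/
theorem heis_basis (hn : n.Prime) (x y : GL (Fin n) F) (w : Fˣ) (hx : x ^ n = 1) (hy : y ^ n = 1)
    (hw : orderOf w = n) (hc : x * y = sc w * (y * x)) :
    ∃ B : GL (Fin n) F,
      ((B * x * B⁻¹ : GL (Fin n) F) : Matrix (Fin n) (Fin n) F) = Matrix.diagonal (fun i : Fin n => (w : F) ^ (i : ℕ)) ∧
      ((B * y * B⁻¹ : GL (Fin n) F) : Matrix (Fin n) (Fin n) F) = shiftM n F := by
  classical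
  have hn0 : 0 < n := hn.pos
  haveI : NeZero n := ⟨hn0.ne'⟩
  set X : Matrix (Fin n) (Fin n) F := (x : Matrix (Fin n) (Fin n) F) with hX
  set Y : Matrix (Fin n) (Fin n) F := (y : Matrix (Fin n) (Fin n) F) with hY
  have hXn : X ^ n = 1 := by rw [hX, ← Units.val_pow_eq_pow_val, hx]; rfl
  have hYn : Y ^ n = 1 := by rw [hY, ← Units.val_pow_eq_pow_val, hy]; rfl
  have hprim : IsPrimitiveRoot (w : F) n := by
    rw [IsPrimitiveRoot.coe_units_iff, ← hw]; exact IsPrimitiveRoot.orderOf w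
  have hXY : X * Y = (w : F) • (Y * X) := by
    have := congrArg (fun g : GL (Fin n) F => (g : Matrix (Fin n) (Fin n) F)) hc
    simp only [Units.val_mul, hb_sc_coe] at this
    rw [hX, hY, this, Matrix.smul_mul, Matrix.one_mul]
  -- an eigenvector
  obtain ⟨ζ, hζ, v, hv, hfv⟩ : ∃ ζ ∈ Polynomial.nthRootsFinset n (1 : F), ∃ v : Fin n → F, v ≠ 0 ∧
      Matrix.toLin' X v = ζ • v := by
    have hu : (Pi.single (0 : Fin n) (1 : F) : Fin n → F) ≠ 0 := by
      intro h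
      have := congrFun h 0
      simp at this
    apply hb_eig (Matrix.toLin' X) _ _ hu
    rw [← Polynomial.X_pow_sub_one_eq_prod hn0 hprim]
    simp only [map_sub, map_pow, Polynomial.aeval_X, map_one]
    rw [← Matrix.toLin'_pow, hXn, Matrix.toLin'_one]
    simp
  rw [Matrix.toLin'_apply] at hfv
  have hζn : ζ ^ n = 1 := ((Polynomial.mem_nthRootsFinset hn0 1).mp hζ)
  obtain ⟨a, ha, rfl⟩ := hprim.eq_pow_of_pow_eq_one hζn
  -- eigenvalue one
  set v₀ : Fin n → F := (Y ^ (n - a)) *ᵥ v with hv₀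
  have hv₀ne : v₀ ≠ 0 := hb_ne y (n - a) v hv
  have hv₀1 : X *ᵥ v₀ = (1 : F) • v₀ := by
    rw [hv₀, hb_rel hXY (n - a) v _ hfv, ← pow_add, Nat.sub_add_cancel ha.le, hprim.pow_eq_one]
  set vv : Fin n → (Fin n → F) := fun i => (Y ^ (i : ℕ)) *ᵥ v₀ with hvv
  have hvvX : ∀ i, X *ᵥ vv i = ((w : F) ^ (i : ℕ)) • vv i := by
    intro i
    rw [hvv]
    simp only
    rw [hb_rel hXY i v₀ 1 hv₀1, mul_one]
  have hvvne : ∀ i, vv i ≠ 0 := fun i => hb_ne y i v₀ hv₀ne
  have hinjμ : Function.Injective (fun i : Fin n => (w : F) ^ (i : ℕ)) := by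
    intro i j hij
    exact Fin.ext (hprim.pow_inj i.2 j.2 hij)
  have hli : LinearIndependent F vv := by
    apply Module.End.eigenvectors_linearIndependent' (Matrix.toLin' X) _ hinjμ
    intro i
    refine ⟨?_, hvvne i⟩
    rw [Module.End.mem_eigenspace_iff, Matrix.toLin'_apply]
    exact hvvX i
  have hunit : IsUnit ((Matrix.of vv)ᵀ) := by
    rw [Matrix.isUnit_transpose]
    exact Matrix.linearIndependent_rows_iff_isUnit.mp hli
  obtain ⟨Cu, hCu⟩ := hunit
  have hcol : ∀ (M : Matrix (Fin n) (Fin n) F) (i k : Fin n), (M * (Matrix.of vv)ᵀ) k i = (M *ᵥ vv i) k := by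
    intro M i k
    rfl
  have h1 : X * (Cu : Matrix (Fin n) (Fin n) F) =
      (Cu : Matrix (Fin n) (Fin n) F) * Matrix.diagonal (fun i : Fin n => (w : F) ^ (i : ℕ)) := by
    rw [hCu]
    ext k i
    rw [hcol, hvvX, Matrix.mul_diagonal]
    simp [mul_comm]
  have h2 : Y * (Cu : Matrix (Fin n) (Fin n) F) = (Cu : Matrix (Fin n) (Fin n) F) * shiftM n F := by
    rw [hCu]
    ext k i
    rw [hcol, Matrix.mul_apply]
    have hlt : ((i : ℕ) + 1) % n < n := Nat.mod_lt _ hn0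
    rw [Finset.sum_eq_single (⟨((i : ℕ) + 1) % n, hlt⟩ : Fin n)]
    · simp only [shiftM, if_true, mul_one, Matrix.transpose_apply, Matrix.of_apply]
      rw [hvv]
      simp only
      rw [Matrix.mulVec_mulVec, ← pow_succ']
      by_cases hi : (i : ℕ) + 1 < n
      · rw [Nat.mod_eq_of_lt hi]
      · have hi' : (i : ℕ) + 1 = n := by have := i.2; omega
        rw [hi', Nat.mod_self, hYn, pow_zero]
    · intro b _ hb
      have : ¬ ((b : ℕ) = ((i : ℕ) + 1) % n) := fun h => hb (Fin.ext h)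
      simp [shiftM, this]
    · intro h
      exact absurd (Finset.mem_univ _) h
  refine ⟨Cu⁻¹, ?_, ?_⟩
  · rw [inv_inv, Units.val_mul, Units.val_mul, mul_assoc, ← hX, h1, ← mul_assoc, Units.inv_mul, one_mul]
  · rw [inv_inv, Units.val_mul, Units.val_mul, mul_assoc, ← hY, h2, ← mul_assoc, Units.inv_mul, one_mul]

end Cfsg.Agent.Lib.Helper77.Asch
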