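import Cfsg.Agent.Lib.Helper77.Asch.EX1
import Cfsg.Agent.Lib.Helper77.Asch.HB

set_option autoImplicit false

namespace Cfsg.Agent.Lib.Helper77.Asch

open Cfsg Cfsg.Geo
open scoped MatrixGroups Matrix

variable {n : ℕ} {F : Type*} [Field F]

theorem hs_sc_eq_one (hn0 : 0 < n) (c : Fˣ) (h : (sc c : GL (Fin n) F) = 1) : c = 1 := by
  have h1 := congrArg Units.val h
  rw [hb_sc_coe] at h1
  have h2 := congrFun (congrFun h1 ⟨0, hn0⟩) ⟨0, hn0⟩
  apply Units.ext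
  simpa using h2

theorem hs_cancel {G : Type*} [Group G] {p q r : G} (h1 : Commute r p) (h : Commute r (p * q)) :
    Commute r q := by
  have := (h1.inv_right).mul_right h
  simpa using this

theorem hs_conj_formula (w : Fˣ) (u p q : GL (Fin n) F) (c : ℕ) :
    u * (sc w ^ c * (p * q)) * u⁻¹ = sc w ^ c * ((u * p * u⁻¹) * (u * q * u⁻¹)) := by
  have hz : u * sc w ^ c = sc w ^ c * u := by rw [ex1_sc_pow]; exact ex1_sc_comm _ u
  calc u * (sc w ^ c * (p * q)) * u⁻¹ = (u * sc w ^ c) * (p * q) * u⁻¹ := by group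
    _ = sc w ^ c * u * (p * q) * u⁻¹ := by rw [hz]
    _ = sc w ^ c * ((u * p * u⁻¹) * (u * q * u⁻¹)) := by group

theorem hs_d (hodd : Odd n) (w : Fˣ) (hw : w ^ n = 1) (i j : Fin n)
    (hj : (j : ℕ) = ((i : ℕ) + 1) % n) :
    w ^ (∑ k ∈ Finset.range (j : ℕ), k) = w ^ (i : ℕ) * w ^ (∑ k ∈ Finset.range (i : ℕ), k) := by
  rw [← pow_add, add_comm, ← Finset.sum_range_succ]
  by_cases h : (i : ℕ) + 1 < n
  · rw [Nat.mod_eq_of_lt h] at hj
    rw [hj]
  · have h1 : (i : ℕ) + 1 = n := by have := i.2; omega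
    rw [h1, Nat.mod_self] at hj
    rw [hj, h1]
    obtain ⟨m, hm⟩ := ex1_dvd_sum hodd
    rw [hm, pow_mul, hw]
    simp

/-- a matrix fixing `x` and mapping `y` to `y * x` by conjugation. -/
theorem hs_conj (hn : n.Prime) (h2 : n ≠ 2) (x y : GL (Fin n) F) (w : Fˣ) (hx : x ^ n = 1)
    (hy : y ^ n = 1) (hw : orderOf w = n) (hc : x * y = sc w * (y * x)) :
    ∃ u : GL (Fin n) F, u * x * u⁻¹ = x ∧ u * y * u⁻¹ = y * x := by
  obtain ⟨B, hBx, hBy⟩ := heis_basis hn x y w hx hy hw hc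
  have hodd : Odd n := hn.odd_of_ne_two h2
  have hwn : w ^ n = 1 := by rw [← hw]; exact pow_orderOf_eq_one w
  let d : Fin n → Fˣ := fun i => w ^ (∑ k ∈ Finset.range (i : ℕ), k)
  let D : GL (Fin n) F :=
    ⟨Matrix.diagonal (fun i => (d i : F)), Matrix.diagonal (fun i => ((d i)⁻¹ : Fˣ)),
      by rw [Matrix.diagonal_mul_diagonal]; simp, by rw [Matrix.diagonal_mul_diagonal]; simp⟩
  have hDX : D * (B * x * B⁻¹) = (B * x * B⁻¹) * D := by
    apply Units.ext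
    rw [Units.val_mul D, Units.val_mul _ D, hBx]
    show Matrix.diagonal _ * Matrix.diagonal _ = Matrix.diagonal _ * Matrix.diagonal _
    rw [Matrix.diagonal_mul_diagonal, Matrix.diagonal_mul_diagonal]
    congr 1
    ext i
    exact mul_comm _ _
  have hDY : D * (B * y * B⁻¹) = (B * y * B⁻¹) * (B * x * B⁻¹) * D := by
    apply Units.ext
    rw [Units.val_mul D, Units.val_mul _ D, Units.val_mul (B * y * B⁻¹) (B * x * B⁻¹), hBx, hBy]
    show Matrix.diagonal _ * shiftM n F = shiftM n F * Matrix.diagonal _ * Matrix.diagonal _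
    ext j i
    rw [Matrix.diagonal_mul, Matrix.mul_diagonal, Matrix.mul_diagonal]
    unfold shiftM
    by_cases hj : (j : ℕ) = ((i : ℕ) + 1) % n
    · rw [if_pos hj]
      have := congrArg Units.val (hs_d hodd w hwn i j hj)
      simp only [d]
      rw [this]
      push_cast
      ring
    · rw [if_neg hj]
      simp
  refine ⟨B⁻¹ * D * B, ?_, ?_⟩
  · rw [mul_inv_eq_iff_eq_mul]
    have e1 : B⁻¹ * D * B * x = B⁻¹ * (D * (B * x * B⁻¹)) * B := by group
    rw [e1, hDX]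
    group
  · rw [mul_inv_eq_iff_eq_mul]
    have e1 : B⁻¹ * D * B * y = B⁻¹ * (D * (B * y * B⁻¹)) * B := by group
    rw [e1, hDY]
    group

theorem hs_conj_mem {R : Subgroup (GL (Fin n) F)} {x y : GL (Fin n) F} {w : Fˣ} (h : Heis R x y w)
    (u : GL (Fin n) F) (hx : u * x * u⁻¹ ∈ R) (hy : u * y * u⁻¹ ∈ R) :
    ∀ g ∈ R, u * g * u⁻¹ ∈ R := by
  intro g hg
  obtain ⟨a, b, c, rfl⟩ := h.gen g hg
  rw [hs_conj_formula, ← conj_pow, ← conj_pow]
  exact R.mul_mem (R.pow_mem h.w_mem c) (R.mul_mem (R.pow_mem hx a) (R.pow_mem hy b))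

theorem hs_xy_pow {x y : GL (Fin n) F} {w : Fˣ} (hc : x * y = sc w * (y * x)) (k j : ℕ) :
    x ^ k * y ^ j = sc w ^ (k * j) * (y ^ j * x ^ k) := by
  have h1 := ex1_pow_left y x (sc w) (fun g => ex1_sc_comm w g) hc k
  have h3 := ex1_pow_right y (x ^ k) (sc w ^ k)
    (fun g => by rw [ex1_sc_pow]; exact ex1_sc_comm _ g) h1 j
  rw [h3, ← pow_mul]

theorem hs_key (hn : n.Prime) (h2 : n ≠ 2) {R : Subgroup (GL (Fin n) F)} {x y : GL (Fin n) F}
    {w : Fˣ} (h : Heis R x y w) (A : Subgroup R) (hA : A.Characteristic) (hAc : IsMulCommutative A)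
    (a : R) (ha : a ∈ A) (c i j : ℕ) (e : (a : GL (Fin n) F) = sc w ^ c * (x ^ i * y ^ j)) :
    n ∣ j := by
  obtain ⟨u, hux, huy⟩ := hs_conj hn h2 x y w h.x_pow h.y_pow h.w_ord h.comm
  have hmem := hs_conj_mem h u (by rw [hux]; exact h.x_mem)
    (by rw [huy]; exact R.mul_mem h.y_mem h.x_mem)
  have hux' : u⁻¹ * x * u⁻¹⁻¹ = x := by
    rw [inv_inv]
    have : x = u⁻¹ * (u * x * u⁻¹) * u := by group
    rw [hux] at this
    exact this.symm
  have huy' : u⁻¹ * y * u⁻¹⁻¹ = y * x⁻¹ := by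
    rw [inv_inv]
    have e1 : u * (y * x⁻¹) * u⁻¹ = (u * y * u⁻¹) * (u * x * u⁻¹)⁻¹ := by group
    rw [hux, huy] at e1
    have e2 : y * x⁻¹ = u⁻¹ * (u * (y * x⁻¹) * u⁻¹) * u := by group
    rw [e1] at e2
    rw [e2]
    group
  have hmem' := hs_conj_mem h u⁻¹ (by rw [hux']; exact h.x_mem)
    (by rw [huy']; exact R.mul_mem h.y_mem (R.inv_mem h.x_mem))
  let τ : ↥R ≃* ↥R :=
    { toFun := fun g => ⟨u * g * u⁻¹, hmem g g.2⟩
      invFun := fun g => ⟨u⁻¹ * g * u⁻¹⁻¹, hmem' g g.2⟩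
      left_inv := fun g => Subtype.ext (by simp only; group)
      right_inv := fun g => Subtype.ext (by simp only; group)
      map_mul' := fun g g' => Subtype.ext (by
        simp only [Subgroup.coe_mul]
        group) }
  have hτa : τ a ∈ A := by
    have h1 := hA.fixed τ
    rw [← h1] at ha
    exact ha
  have hcm : (a : GL (Fin n) F) * (u * a * u⁻¹) = (u * a * u⁻¹) * a := by
    have h1 := hAc.is_comm.comm ⟨a, ha⟩ ⟨τ a, hτa⟩
    exact congrArg (fun t : ↥A => ((t : ↥R) : GL (Fin n) F)) h1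
  have hzc : ∀ (k : ℕ) (g : GL (Fin n) F), Commute g (sc w ^ k) := fun k g => by
    rw [ex1_sc_pow]; exact ex1_sc_comm _ g
  set T := ∑ k ∈ Finset.range j, k with hT
  have ha' : u * (a : GL (Fin n) F) * u⁻¹ = (a : GL (Fin n) F) * (sc w ^ T * x ^ j) := by
    rw [e, hs_conj_formula, ← conj_pow, ← conj_pow, hux, huy,
      ex1_mul_pow y x (sc w) (fun g => ex1_sc_comm w g) h.comm j]
    have h3 := (hzc T (y ^ j)).eq
    calc sc w ^ c * (x ^ i * (sc w ^ T * (y ^ j * x ^ j)))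
        = sc w ^ c * (x ^ i * ((sc w ^ T * y ^ j) * x ^ j)) := by simp only [mul_assoc]
      _ = sc w ^ c * (x ^ i * ((y ^ j * sc w ^ T) * x ^ j)) := by rw [h3]
      _ = sc w ^ c * (x ^ i * y ^ j) * (sc w ^ T * x ^ j) := by simp only [mul_assoc]
  have c1 : Commute (a : GL (Fin n) F) ((a : GL (Fin n) F) * (sc w ^ T * x ^ j)) := by
    rw [← ha']; exact hcm
  have c2 : Commute (a : GL (Fin n) F) (sc w ^ T * x ^ j) := hs_cancel (Commute.refl _) c1
  have c3 : Commute (a : GL (Fin n) F) (x ^ j) := hs_cancel (hzc T _) c2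
  have c4 : Commute (x ^ j) (sc w ^ c * (x ^ i * y ^ j)) := by rw [← e]; exact c3.symm
  have c5 : Commute (x ^ j) (x ^ i * y ^ j) := hs_cancel (hzc c _) c4
  have c6 : Commute (x ^ j) (y ^ j) := hs_cancel (Commute.pow_pow_self x j i) c5
  have h5 := hs_xy_pow h.comm j j
  rw [c6.eq] at h5
  have h6 : (sc w : GL (Fin n) F) ^ (j * j) = 1 := by
    have := mul_right_cancel (a := (1 : GL (Fin n) F)) (b := y ^ j * x ^ j) (c := sc w ^ (j * j))
      (by rw [one_mul]; exact h5)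
    exact this.symm
  rw [ex1_sc_pow] at h6
  have h7 := hs_sc_eq_one hn.pos _ h6
  have h8 : n ∣ j * j := by rw [← h.w_ord]; exact orderOf_dvd_of_pow_eq_one h7
  rcases (Nat.Prime.dvd_mul hn).1 h8 with h9 | h9 <;> exact h9

theorem hs_inv_pow (hn0 : 0 < n) (w : Fˣ) (hw : w ^ n = 1) (m : ℕ) :
    (w⁻¹) ^ ((n - 1) * m) = w ^ m := by
  rw [inv_pow, inv_eq_iff_mul_eq_one, ← pow_add]
  have : (n - 1) * m + m = n * m := by
    obtain ⟨k, rfl⟩ : ∃ k, n = k + 1 := ⟨n - 1, by omega⟩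
    simp only [Nat.add_sub_cancel]
    ring
  rw [this, pow_mul, hw, one_pow]

theorem hs_swap (hn0 : 0 < n) {R : Subgroup (GL (Fin n) F)} {x y : GL (Fin n) F} {w : Fˣ}
    (h : Heis R x y w) : Heis R y x w⁻¹ := by
  have hwn : w ^ n = 1 := by rw [← h.w_ord]; exact pow_orderOf_eq_one w
  have hinv : (sc w⁻¹ : GL (Fin n) F) = (sc w)⁻¹ := by
    unfold sc; rw [map_inv]
  refine ⟨h.y_mem, h.x_mem, by rw [hinv]; exact R.inv_mem h.w_mem, h.y_pow, h.x_pow,
    by rw [orderOf_inv]; exact h.w_ord, ?_, ?_⟩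
  · rw [hinv, h.comm]; group
  · intro g hg
    obtain ⟨a, b, c, rfl⟩ := h.gen g hg
    refine ⟨b, a, (n - 1) * (c + a * b), ?_⟩
    rw [ex1_sc_pow w⁻¹, hs_inv_pow hn0 w hwn, hs_xy_pow h.comm a b, ← ex1_sc_pow, pow_add, mul_assoc]

theorem hs_pow (hn : n.Prime) (h2 : n ≠ 2) {R : Subgroup (GL (Fin n) F)} {x y : GL (Fin n) F}
    {w : Fˣ} (h : Heis R x y w) (g : GL (Fin n) F) (hg : g ∈ R) : g ^ n = 1 := by
  have hwn : w ^ n = 1 := by rw [← h.w_ord]; exact pow_orderOf_eq_one w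
  obtain ⟨a, b, c, rfl⟩ := h.gen g hg
  have hzc : ∀ (k : ℕ) (g : GL (Fin n) F), Commute g (sc w ^ k) := fun k g => by
    rw [ex1_sc_pow]; exact ex1_sc_comm _ g
  rw [((hzc c (x ^ a * y ^ b)).symm).mul_pow, ← pow_mul, mul_comm c n, pow_mul, ex1_sc_pow, hwn,
    ex1_sc_one, one_pow, one_mul]
  have h1 : y ^ b * x ^ a = (sc w ^ (a * b))⁻¹ * (x ^ a * y ^ b) := by
    rw [hs_xy_pow h.comm a b]; group
  rw [ex1_mul_pow (x ^ a) (y ^ b) ((sc w ^ (a * b))⁻¹) (fun g => (hzc _ g).inv_right) h1 n]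
  obtain ⟨m, hm⟩ := ex1_dvd_sum (hn.odd_of_ne_two h2)
  rw [← pow_mul x, ← pow_mul y, mul_comm a n, mul_comm b n, pow_mul x, pow_mul y, h.x_pow, h.y_pow,
    one_pow, one_pow, mul_one, mul_one, hm, inv_pow, ← pow_mul, mul_comm n m, ← mul_assoc, pow_mul,
    ex1_sc_pow, ex1_sc_pow, ← pow_mul, mul_comm _ n, pow_mul, hwn, one_pow, ex1_sc_one, inv_one]

/-- HS -/
theorem heis_symplecticType (hn : n.Prime) (h2 : n ≠ 2) (R : Subgroup (GL (Fin n) F))
    (x y : GL (Fin n) F) (w : Fˣ) (h : Heis R x y w) : IsSymplecticTypeGroup n R := by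
  have hwn : w ^ n = 1 := by rw [← h.w_ord]; exact pow_orderOf_eq_one w
  have hpow : ∀ g : ↥R, g ^ n = 1 := fun g => Subtype.ext (hs_pow hn h2 h g g.2)
  refine ⟨hn, fun g => ⟨1, by rw [pow_one]; exact hpow g⟩, ?_, ?_⟩
  · intro A hA hAc
    let z0 : ↥R := ⟨sc w, h.w_mem⟩
    have hle : A ≤ Subgroup.zpowers z0 := by
      intro a ha
      obtain ⟨i, j, c, e⟩ := h.gen a a.2
      obtain ⟨j', rfl⟩ := hs_key hn h2 h A hA hAc a ha c i j e
      rw [pow_mul, h.y_pow, one_pow, mul_one] at e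
      have e' : (a : GL (Fin n) F) = sc w⁻¹ ^ ((n - 1) * c) * (y ^ 0 * x ^ i) := by
        rw [e, ex1_sc_pow w⁻¹, hs_inv_pow hn.pos w hwn, ← ex1_sc_pow, pow_zero, one_mul]
      obtain ⟨i', rfl⟩ := hs_key hn h2 (hs_swap hn.pos h) A hA hAc a ha _ 0 i e'
      rw [pow_mul, h.x_pow, one_pow, mul_one] at e
      rw [Subgroup.mem_zpowers_iff]
      exact ⟨c, Subtype.ext (by rw [e]; simp [z0])⟩
    exact isCyclic_of_injective (Subgroup.inclusion hle) (Subgroup.inclusion_injective hle)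
  · have hg : Nat.gcd 2 n = 1 := (Nat.coprime_primes Nat.prime_two hn).2 (Ne.symm h2)
    rw [hg, mul_one]
    have h1 : Monoid.exponent ↥R ∣ n := Monoid.exponent_dvd_of_forall_pow_eq_one hpow
    rcases (Nat.dvd_prime hn).1 h1 with h3 | h3
    · exfalso
      rw [Monoid.exp_eq_one_iff] at h3
      have h4 : (⟨sc w, h.w_mem⟩ : ↥R) = 1 := Subsingleton.elim _ _
      have h5 := hs_sc_eq_one hn.pos w (congrArg Subtype.val h4)
      have h6 := h.w_ord
      rw [h5, orderOf_one] at h6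
      exact hn.one_lt.ne h6
    · exact h3

end Cfsg.Agent.Lib.Helper77.Asch
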