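import Cfsg.Agent.Lib.Helper77.Asch.EX1
import Cfsg.Agent.Lib.Helper77.Asch.HS
import Cfsg.Agent.Lib.Helper77.Asch.HCM

set_option autoImplicit false

namespace Cfsg.Agent.Lib.Helper77.Asch

open Cfsg Cfsg.Geo
open scoped MatrixGroups Matrix

variable {n : ℕ} {F : Type*} [Field F]

theorem ex2_comm {G : Type*} [Group G] (X g t z : G) (hz : ∀ a : G, Commute a z)
    (h1 : X * g = z * (g * X)) (h2 : X * t = z * (t * X)) : (g * t⁻¹) * X = X * (g * t⁻¹) := by
  apply mul_right_cancel (b := t)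
  calc (g * t⁻¹) * X * t = g * t⁻¹ * (X * t) := by group
    _ = g * t⁻¹ * (z * (t * X)) := by rw [h2]
    _ = g * (t⁻¹ * z) * (t * X) := by group
    _ = g * (z * t⁻¹) * (t * X) := by rw [(hz t⁻¹).eq]
    _ = (g * z) * X := by group
    _ = z * (g * X) := by rw [(hz g).eq, mul_assoc]
    _ = X * g := h1.symm
    _ = X * (g * t⁻¹) * t := by group

theorem ex2_root (hn : n.Prime) (w c : Fˣ) (hw : orderOf w = n) (hc : c ^ n = 1) :
    ∃ k : ℕ, c = w ^ k := by
  have : NeZero n := ⟨hn.ne_zero⟩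
  have hprim : IsPrimitiveRoot (w : F) n := by
    rw [IsPrimitiveRoot.coe_units_iff, ← hw]
    exact IsPrimitiveRoot.orderOf w
  obtain ⟨i, -, hi⟩ := hprim.eq_pow_of_pow_eq_one (ξ := (c : F)) (by
    rw [← Units.val_pow_eq_pow_val, hc, Units.val_one])
  exact ⟨i, Units.ext (by rw [Units.val_pow_eq_pow_val, hi])⟩

/-- EX2 -/
theorem heis_of_exp (hn : n.Prime) (R : Subgroup (GL (Fin n) F)) (hexp : ∀ g ∈ R, g ^ n = 1)
    (hab : ⁅R, R⁆ ≤ scalars (Fin n) F) (hR : ActsAbsolutelyIrreducibly (matrixSet R)) :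
    ∃ (x y : GL (Fin n) F) (w : Fˣ), Heis R x y w := by
  have hn2 : 2 ≤ n := hn.two_le
  -- a non-scalar element
  have h1 : ∃ x ∈ R, x ∉ scalars (Fin n) F := by
    by_contra hcon
    push Not at hcon
    let i0 : Fin n := ⟨0, by omega⟩
    let i1 : Fin n := ⟨1, by omega⟩
    obtain ⟨c, hc⟩ := hR.2 (Matrix.diagonal (fun i : Fin n => if i = i0 then (1 : F) else 0)) (by
      rintro s ⟨g, hg, rfl⟩
      obtain ⟨e, he⟩ := (mem_scalars_iff g).1 (hcon g hg)
      simp only [he]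
      simp)
    have e0 := congrFun (congrFun hc i0) i0
    have e1 := congrFun (congrFun hc i1) i1
    have hne : i1 ≠ i0 := by
      intro h
      have := congrArg Fin.val h
      simp [i0, i1] at this
    simp [hne] at e0 e1
    rw [← e1] at e0
    exact one_ne_zero e0
  obtain ⟨Y, hY, hYs⟩ := h1
  have h3 : ∃ X ∈ R, X * Y ≠ Y * X := by
    by_contra hcon
    push Not at hcon
    apply hYs
    obtain ⟨c, hc⟩ := hR.2 (Y : Matrix (Fin n) (Fin n) F) (by
      rintro s ⟨g, hg, rfl⟩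
      have := congrArg Units.val (hcon g hg)
      simpa using this.symm)
    exact ex1_mem_scalars hn.pos Y c hc
  obtain ⟨X, hX, hXY⟩ := h3
  obtain ⟨w, hwn, hc⟩ := ex1_comm R hab hY hX
  have hw1 : w ≠ 1 := by
    rintro rfl
    rw [ex1_sc_one, one_mul] at hc
    exact hXY hc
  have hw : orderOf w = n := by
    have := Fact.mk hn
    exact orderOf_eq_prime hwn hw1
  have hwR : (sc w : GL (Fin n) F) ∈ R := by
    have : (sc w : GL (Fin n) F) = X * Y * (Y * X)⁻¹ := by rw [hc]; group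
    rw [this]
    exact R.mul_mem (R.mul_mem hX hY) (R.inv_mem (R.mul_mem hY hX))
  have hzc : ∀ (k : ℕ) (g : GL (Fin n) F), Commute g (sc w ^ k) := fun k g => by
    rw [ex1_sc_pow]; exact ex1_sc_comm _ g
  refine ⟨X, Y, w, hX, hY, hwR, hexp X hX, hexp Y hY, hw, hc, ?_⟩
  intro g hg
  obtain ⟨c1, hc1, e1⟩ := ex1_comm R hab hg hX
  obtain ⟨c2, hc2, e2⟩ := ex1_comm R hab hg hY
  obtain ⟨α, rfl⟩ := ex2_root hn w c1 hw hc1
  obtain ⟨β, rfl⟩ := ex2_root hn w c2 hw hc2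
  rw [← ex1_sc_pow] at e1 e2
  set i := (n - 1) * β with hi
  set t := X ^ i * Y ^ α with ht
  have htR : t ∈ R := R.mul_mem (R.pow_mem hX i) (R.pow_mem hY α)
  have t1 : X * t = sc w ^ α * (t * X) := by
    have h5 := hs_xy_pow hc 1 α
    rw [pow_one, one_mul] at h5
    calc X * t = X ^ i * (X * Y ^ α) := by
          rw [ht, ← mul_assoc, ← mul_assoc, ← pow_succ', ← pow_succ]
      _ = X ^ i * (sc w ^ α * (Y ^ α * X)) := by rw [h5]
      _ = (X ^ i * sc w ^ α) * (Y ^ α * X) := by rw [mul_assoc]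
      _ = (sc w ^ α * X ^ i) * (Y ^ α * X) := by rw [(hzc α (X ^ i)).eq]
      _ = sc w ^ α * (t * X) := by rw [ht]; simp only [mul_assoc]
  have t2 : Y * t = sc w ^ β * (t * Y) := by
    have h5 := hs_xy_pow hc i 1
    rw [pow_one, mul_one] at h5
    have h6 : (sc w : GL (Fin n) F) ^ β * sc w ^ i = 1 := by
      rw [← pow_add, hi, ex1_sc_pow]
      have : β + (n - 1) * β = n * β := by
        obtain ⟨k, rfl⟩ : ∃ k, n = k + 1 := ⟨n - 1, by omega⟩
        simp only [Nat.add_sub_cancel]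
        ring
      rw [this, pow_mul, hwn, one_pow, ex1_sc_one]
    calc Y * t = (Y * X ^ i) * Y ^ α := by rw [ht, mul_assoc]
      _ = (sc w ^ β * sc w ^ i) * (Y * X ^ i) * Y ^ α := by rw [h6, one_mul]
      _ = sc w ^ β * (sc w ^ i * (Y * X ^ i)) * Y ^ α := by simp only [mul_assoc]
      _ = sc w ^ β * (X ^ i * Y) * Y ^ α := by rw [← h5]
      _ = sc w ^ β * (t * Y) := by
        rw [ht]
        simp only [mul_assoc]
        rw [← pow_succ', ← pow_succ]
  have s1 := ex2_comm X g t (sc w ^ α) (hzc α) e1 t1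
  have s2 := ex2_comm Y g t (sc w ^ β) (hzc β) e2 t2
  have hs := heis_commutant hn X Y w (hexp X hX) (hexp Y hY) hw hc (g * t⁻¹) s1 s2
  obtain ⟨e, he⟩ := hs
  have he' : (sc e : GL (Fin n) F) = g * t⁻¹ := he
  have hen : e ^ n = 1 := by
    apply hs_sc_eq_one hn.pos
    rw [← ex1_sc_pow, he']
    exact hexp _ (R.mul_mem hg (R.inv_mem htR))
  obtain ⟨γ, rfl⟩ := ex2_root hn w e hw hen
  refine ⟨i, α, γ, ?_⟩
  rw [ex1_sc_pow, he', ← ht]
  group

end Cfsg.Agent.Lib.Helper77.Asch
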