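import Cfsg.Agent.Lib.Helper77.Asch.Defs

set_option autoImplicit false
set_option linter.style.haveILetI false

namespace Cfsg.Agent.Lib.Helper77.Asch

open Cfsg Cfsg.Geo
open scoped MatrixGroups Matrix

variable {n : ℕ} {F : Type*} [Field F]

/-- in a field with `p ^ e` elements not every element satisfies `a ^ p ^ d = a` when `0 < d < e`. -/
theorem fc_exists_ne [Fintype F] (p e d : ℕ) (hp : p.Prime) (hcard : Fintype.card F = p ^ e)
    (hd0 : 0 < d) (hde : d < e) : ∃ a : F, a ^ p ^ d ≠ a := by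
  classical
  by_contra hcon
  push Not at hcon
  obtain ⟨u, hu⟩ := IsCyclic.exists_generator (α := Fˣ)
  have hord : orderOf u = Fintype.card Fˣ := by
    rw [← Nat.card_eq_fintype_card]; exact orderOf_eq_card_of_forall_mem_zpowers hu
  rw [Fintype.card_units, hcard] at hord
  have h1 : (u : F) ^ p ^ d = u := hcon u
  have hpd : 1 < p ^ d := Nat.one_lt_pow hd0.ne' hp.one_lt
  have h2 : u ^ (p ^ d - 1) = 1 := by
    apply Units.ext
    have h3 : (u : F) ^ (p ^ d - 1) * u = 1 * u := by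
      rw [← pow_succ, Nat.sub_add_cancel hpd.le, h1, one_mul]
    have := mul_right_cancel₀ u.ne_zero h3
    simpa using this
  have h4 : p ^ e - 1 ∣ p ^ d - 1 := hord ▸ orderOf_dvd_of_pow_eq_one h2
  have h5 : p ^ e - 1 ≤ p ^ d - 1 := Nat.le_of_dvd (by omega) h4
  have h6 : p ^ d < p ^ e := Nat.pow_lt_pow_right hp.one_lt hde
  omega

/-- FC. -/
theorem field_cases [Fintype F] (hn : n.Prime) (w : Fˣ) (hw : orderOf w = n) :
    (∃ F₀ : Subfield F, F₀ ≠ ⊤ ∧ (w : F) ∈ F₀) ∨
    (∃ p e : ℕ, n ≠ p ∧ IsMinimalFieldFor n p e F ∧ Odd e) ∨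
    (∃ σ : F ≃+* F, σ ≠ RingEquiv.refl F ∧ (∀ a, σ (σ a) = a) ∧ σ (w : F) = (w : F)⁻¹) := by
  classical
  obtain ⟨p, hchar⟩ := CharP.exists F
  obtain ⟨e, hp, hcard⟩ := FiniteField.card F p
  haveI : Fact p.Prime := ⟨hp⟩
  have he0 : 0 < (e : ℕ) := e.pos
  have hpe : 1 < p ^ (e : ℕ) := Nat.one_lt_pow he0.ne' hp.one_lt
  have hdvd : n ∣ p ^ (e : ℕ) - 1 := by
    rw [← hw, ← hcard, ← Fintype.card_units]
    exact orderOf_dvd_card
  have hnp : n ≠ p := by
    rintro rfl
    have h1 : n ∣ n ^ (e : ℕ) := dvd_pow_self n he0.ne'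
    have h2 : n ∣ 1 := by
      have := (Nat.dvd_sub h1 hdvd)
      rwa [Nat.sub_sub_self hpe.le] at this
    exact hn.one_lt.ne' (Nat.dvd_one.1 h2)
  by_cases hex : ∃ d : ℕ, 0 < d ∧ d < e ∧ n ∣ p ^ d - 1
  · left
    obtain ⟨d, hd0, hde, hd⟩ := hex
    refine ⟨(iterateFrobenius F p d).eqLocusField (RingHom.id F), ?_, ?_⟩
    · intro htop
      obtain ⟨a, ha⟩ := fc_exists_ne (F := F) p e d hp hcard hd0 hde
      apply ha
      have : a ∈ (iterateFrobenius F p d).eqLocusField (RingHom.id F) := htop ▸ Subfield.mem_top a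
      exact this
    · change (w : F) ^ p ^ d = w
      have hpd : 1 ≤ p ^ d := Nat.one_le_pow _ _ hp.pos
      have h1 : w ^ (p ^ d - 1) = 1 := orderOf_dvd_iff_pow_eq_one.1 (hw ▸ hd)
      have h2 : w ^ p ^ d = w := by
        conv_lhs => rw [← Nat.sub_add_cancel hpd, pow_succ, h1, one_mul]
      exact_mod_cast congrArg Units.val h2
  · right
    push Not at hex
    have hmin : IsMinimalFieldFor n p e F := ⟨hp, hchar, hcard, hdvd, fun d h0 h1 => hex d h0 h1⟩
    rcases Nat.even_or_odd (e : ℕ) with hev | hodd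
    · right
      obtain ⟨k, hk⟩ := hev
      have hk0 : 0 < k := by omega
      have hke : k < e := by omega
      refine ⟨iterateFrobeniusEquiv F p k, ?_, ?_, ?_⟩
      · intro hrefl
        obtain ⟨a, ha⟩ := fc_exists_ne (F := F) p e k hp hcard hk0 hke
        apply ha
        have := congrArg (fun f : F ≃+* F => f a) hrefl
        exact this
      · intro a
        rw [iterateFrobeniusEquiv_def, iterateFrobeniusEquiv_def, ← pow_mul, ← pow_add, ← hk, ← hcard]
        exact FiniteField.pow_card a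
      · rw [iterateFrobeniusEquiv_def]
        have hpk : 1 ≤ p ^ k := Nat.one_le_pow _ _ hp.pos
        have hfac : p ^ (e : ℕ) - 1 = (p ^ k - 1) * (p ^ k + 1) := by
          rw [hk, pow_add]
          obtain ⟨m, hm⟩ : ∃ m, p ^ k = m + 1 := ⟨p ^ k - 1, by omega⟩
          rw [hm]
          simp only [Nat.add_sub_cancel]
          have : (m + 1) * (m + 1) = m * (m + 1 + 1) + 1 := by ring
          omega
        have h1 : n ∣ p ^ k + 1 := by
          rw [hfac] at hdvd
          rcases (Nat.Prime.dvd_mul hn).1 hdvd with h | h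
          · exact absurd h (hex k hk0 hke)
          · exact h
        have h2 : w ^ (p ^ k + 1) = 1 := orderOf_dvd_iff_pow_eq_one.1 (hw ▸ h1)
        have h3 : w ^ p ^ k = w⁻¹ := by
          rw [pow_succ] at h2
          exact eq_inv_of_mul_eq_one_left h2
        have := congrArg Units.val h3
        simpa using this
    · left
      exact ⟨p, e, hnp, hmin, hodd⟩

end Cfsg.Agent.Lib.Helper77.Asch
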