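import Cfsg.Agent.Lib.Helper77.Asch.FORMU
import Cfsg.Agent.Lib.Helper77.Asch.ODD

/-! Ladder ASCH, rung FORMQ: quadratic forms. -/

set_option autoImplicit false

namespace Cfsg.Agent.Lib.Helper77.Asch

open Cfsg Cfsg.Geo
open scoped MatrixGroups Matrix

variable {n : ℕ} {F : Type*} [Field F]

theorem formq_polar_self (Q : (Fin n → F) → F) (hQ : IsNondegenerateQuadraticForm Q) (v : Fin n → F) :
    QuadraticMap.polar Q v v = 2 * Q v := by
  have h : v + v = (2 : F) • v := (two_smul F v).symm
  simp only [QuadraticMap.polar, h, hQ.smul]; ring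

/-- FORMQ. -/
theorem normalizer_le_quadSim (h2 : (2 : F) ≠ 0) (P : Subgroup (GL (Fin n) F))
    (hP : ActsAbsolutelyIrreducibly (matrixSet P)) (Q : (Fin n → F) → F)
    (hQ : IsNondegenerateQuadraticForm Q) (hfix : FixesQuadForm (matrixSet P) Q) :
    subgroupNormalizer P ≤ quadSimilarityGroup Q := by
  have hfix' : FixesForm (matrixSet P) (QuadraticMap.polar Q) := by
    intro s hs u v
    simp only [QuadraticMap.polar, ← Matrix.mulVec_add, hfix s hs]
  have key := formu_key P hP (RingEquiv.refl F) (QuadraticMap.polar Q) hQ.polar_bilinear.add_left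
    hQ.polar_bilinear.smul_left hQ.polar_bilinear.add_right
    (fun c v x => by simpa using hQ.polar_bilinear.smul_right c v x) hQ.nondegenerate hfix'
  intro h hh
  obtain ⟨c, hc⟩ := key hh
  refine ⟨c, fun v => ?_⟩
  have h3 := hc v v
  rw [formq_polar_self Q hQ, formq_polar_self Q hQ] at h3
  apply mul_left_cancel₀ h2
  rw [h3]; ring

/-- FORMQ. -/
theorem no_quad_char_two (hn : Odd n) (h2 : (2 : F) = 0) (Q : (Fin n → F) → F)
    (hQ : IsNondegenerateQuadraticForm Q) : False := by
  refine no_symplectic_odd hn (QuadraticMap.polar Q) ⟨hQ.polar_bilinear, ?_, ?_, hQ.nondegenerate⟩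
  · intro v w
    rw [QuadraticMap.polar_comm Q v w, eq_neg_iff_add_eq_zero, ← two_mul, h2, zero_mul]
  · intro v
    rw [formq_polar_self Q hQ, h2, zero_mul]

end Cfsg.Agent.Lib.Helper77.Asch
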