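import Cfsg.Agent.Lib.Helper77.Asch.HC

/-! Ladder ASCH, rung HR: the Heisenberg group is realisable over any subfield containing `w`. -/

set_option autoImplicit false

namespace Cfsg.Agent.Lib.Helper77.Asch

open Cfsg Cfsg.Geo
open scoped MatrixGroups Matrix

variable {n : ℕ} {F : Type*} [Field F]

/-- the standard form of the elements of a Heisenberg group -/
theorem hr_conj (hn : n.Prime) (R : Subgroup (GL (Fin n) F)) (x y : GL (Fin n) F) (w : Fˣ)
    (h : Heis R x y w) : ∃ B : GL (Fin n) F, ∀ g ∈ R, ∃ a b c : ℕ,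
      (B : Matrix (Fin n) (Fin n) F) * (g : Matrix (Fin n) (Fin n) F) *
        ((B⁻¹ : GL (Fin n) F) : Matrix (Fin n) (Fin n) F) =
      ((w : F) • (1 : Matrix (Fin n) (Fin n) F)) ^ c *
        ((Matrix.diagonal (fun i : Fin n => (w : F) ^ (i : ℕ))) ^ a * (shiftM n F) ^ b) := by
  obtain ⟨B, hBx, hBy⟩ := heis_basis hn x y w h.x_pow h.y_pow h.w_ord h.comm
  refine ⟨B, fun g hg => ?_⟩
  obtain ⟨a, b, c, rfl⟩ := h.gen g hg
  refine ⟨a, b, c, ?_⟩
  have e1 : B * (sc w ^ c * (x ^ a * y ^ b)) * B⁻¹ =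
      (sc w) ^ c * ((B * x * B⁻¹) ^ a * (B * y * B⁻¹) ^ b) := by
    rw [conj_pow, conj_pow, conj_mul]
    have h1 : B * (sc w ^ c * (x ^ a * y ^ b)) = sc w ^ c * (B * (x ^ a * y ^ b)) :=
      ((hc_sc_comm w B).pow_left c).symm.left_comm _
    rw [h1, mul_assoc]
  have e2 := congrArg (fun u : GL (Fin n) F => (u : Matrix (Fin n) (Fin n) F)) e1
  simp only [Units.val_mul, Units.val_pow_eq_pow_val] at e2
  simp only [Units.val_mul] at hBx hBy
  rw [hBx, hBy, hb_sc_coe] at e2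
  simp only [Units.val_mul, Units.val_pow_eq_pow_val, hb_sc_coe]
  exact e2

theorem hr_mul (F₀ : Subfield F) {M N : Matrix (Fin n) (Fin n) F} (hM : ∀ i j, M i j ∈ F₀)
    (hN : ∀ i j, N i j ∈ F₀) : ∀ i j, (M * N) i j ∈ F₀ := by
  intro i j
  rw [Matrix.mul_apply]
  exact F₀.sum_mem fun k _ => F₀.mul_mem (hM i k) (hN k j)

theorem hr_one (F₀ : Subfield F) : ∀ i j, (1 : Matrix (Fin n) (Fin n) F) i j ∈ F₀ := by
  intro i j
  by_cases hij : i = j
  · subst hij; rw [Matrix.one_apply_eq]; exact F₀.one_mem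
  · rw [Matrix.one_apply_ne hij]; exact F₀.zero_mem

theorem hr_pow (F₀ : Subfield F) {M : Matrix (Fin n) (Fin n) F} (hM : ∀ i j, M i j ∈ F₀) (k : ℕ) :
    ∀ i j, (M ^ k) i j ∈ F₀ := by
  induction k with
  | zero => rw [pow_zero]; exact hr_one F₀
  | succ k ih => rw [pow_succ]; exact hr_mul F₀ ih hM

/-- HR -/
theorem heis_realisable (hn : n.Prime) (R : Subgroup (GL (Fin n) F)) (x y : GL (Fin n) F) (w : Fˣ)
    (h : Heis R x y w) (F₀ : Subfield F) (hw : (w : F) ∈ F₀) :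
    ∃ B : GL (Fin n) F, ∀ s ∈ matrixSet R, ∀ i j,
      ((B : Matrix (Fin n) (Fin n) F) * s * ((B⁻¹ : GL (Fin n) F) : Matrix (Fin n) (Fin n) F)) i j ∈ F₀ := by
  obtain ⟨B, hB⟩ := hr_conj hn R x y w h
  refine ⟨B, ?_⟩
  rintro s ⟨g, hg, rfl⟩
  obtain ⟨a, b, c, he⟩ := hB g hg
  simp only
  rw [he]
  refine hr_mul F₀ (hr_pow F₀ ?_ c) (hr_mul F₀ (hr_pow F₀ ?_ a) (hr_pow F₀ ?_ b))
  · intro i j
    rw [Matrix.smul_apply, smul_eq_mul]
    exact F₀.mul_mem hw (hr_one F₀ i j)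
  · intro i j
    by_cases hij : i = j
    · subst hij; rw [Matrix.diagonal_apply_eq]; exact F₀.pow_mem hw _
    · rw [Matrix.diagonal_apply_ne _ hij]; exact F₀.zero_mem
  · intro i j
    unfold shiftM
    split_ifs
    · exact F₀.one_mem
    · exact F₀.zero_mem

end Cfsg.Agent.Lib.Helper77.Asch
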