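import Cfsg.Agent.Lib.Helper77.Asch.SUBF0
import Cfsg.Agent.Lib.Helper77.Asch.BURN

/-! Ladder ASCH, rung SUBF. -/

set_option autoImplicit false

namespace Cfsg.Agent.Lib.Helper77.Asch

open Cfsg Cfsg.Geo
open scoped MatrixGroups Matrix

variable {n : ℕ} {F : Type*} [Field F]

theorem normalizer_le_subfield (hn : 0 < n) (P : Subgroup (GL (Fin n) F))
    (hP : ActsAbsolutelyIrreducibly (matrixSet P)) (F₀ : Subfield F) (B : GL (Fin n) F)
    (hB : ∀ s ∈ matrixSet P, ∀ i j,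
      ((B : Matrix (Fin n) (Fin n) F) * s * ((B⁻¹ : GL (Fin n) F) : Matrix (Fin n) (Fin n) F)) i j ∈ F₀) :
    subgroupNormalizer P ≤ subfieldSubgroup F₀ B⁻¹ :=
  subf_core P (span_eq_top hn P hP) F₀ B hB

end Cfsg.Agent.Lib.Helper77.Asch
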