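import Cfsg.Agent.Lib.Helper77.Asch.RED
import Cfsg.Agent.Lib.Helper77.Asch.COMM
import Cfsg.Agent.Lib.Helper77.Asch.DEG
import Cfsg.Agent.Lib.Helper77.Asch.NORMC
import Cfsg.Agent.Lib.Helper77.Asch.CL1
import Cfsg.Agent.Lib.Helper77.Asch.CL2
import Cfsg.Agent.Lib.Helper77.Asch.BURN
import Cfsg.Agent.Lib.Helper77.Asch.SUBF
import Cfsg.Agent.Lib.Helper77.Asch.SUBF2
import Cfsg.Agent.Lib.Helper77.Asch.ODD
import Cfsg.Agent.Lib.Helper77.Asch.FORMQ
import Cfsg.Agent.Lib.Helper77.Asch.FORMU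
import Cfsg.Agent.Lib.Helper77.Asch.ABSR
import Cfsg.Agent.Lib.Helper77.Asch.AG0
import Cfsg.Agent.Lib.Helper77.Asch.AG2
import Cfsg.Agent.Lib.Helper77.Asch.AG3
import Cfsg.Agent.Lib.Helper77.Asch.AG4
import Cfsg.Agent.Lib.Helper77.Asch.AG5
import Cfsg.Agent.Lib.Helper77.Asch.EX1
import Cfsg.Agent.Lib.Helper77.Asch.EX2
import Cfsg.Agent.Lib.Helper77.Asch.HC
import Cfsg.Agent.Lib.Helper77.Asch.HS
import Cfsg.Agent.Lib.Helper77.Asch.HR
import Cfsg.Agent.Lib.Helper77.Asch.HU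
import Cfsg.Agent.Lib.Helper77.Asch.FC

set_option autoImplicit false

namespace Cfsg.Agent.Lib.Helper77.Asch

open Cfsg Cfsg.Geo
open scoped MatrixGroups Matrix

variable {n : ℕ} {F : Type*} [Field F]

theorem irr_dichotomy [Finite F] (hn : n.Prime) (S : Set (Matrix (Fin n) (Fin n) F))
    (hS : ActsIrreducibly S) :
    ActsAbsolutelyIrreducibly S ∨ IsFieldSubalgebra n (Subalgebra.centralizer F S) := by
  have h := comm_field hn.pos S hS
  have hd := deg_dvd hn.pos _ _ h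
  rcases (Nat.dvd_prime hn).1 hd with h1 | h1
  · left
    refine ⟨hS, fun M hM => ?_⟩
    have hb : Subalgebra.centralizer F S = ⊥ := Subalgebra.eq_bot_of_finrank_one h1
    have hM' : M ∈ Subalgebra.centralizer F S := by
      rw [Subalgebra.mem_centralizer_iff]
      intro s hs
      exact (hM s hs).symm
    rw [hb] at hM'
    obtain ⟨c, hc⟩ := Algebra.mem_bot.1 hM'
    exact ⟨c, by rw [← hc, Algebra.algebraMap_eq_smul_one]⟩
  · right
    rw [h1] at h
    exact h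

theorem normBy_iff {G : Type*} [Group G] {H N : Subgroup G} (h : NormBy H N) {g : G} (hg : g ∈ H) (x : G) :
    x ∈ N ↔ g * x * g⁻¹ ∈ N := by
  refine ⟨fun hx => h g hg x hx, fun hx => ?_⟩
  have := h g⁻¹ (H.inv_mem hg) _ hx
  simpa [mul_assoc] using this

theorem le_normalizer_of_normBy {H R : Subgroup (GL (Fin n) F)} (h : NormBy H R) :
    H ≤ subgroupNormalizer R := by
  intro g hg
  unfold subgroupNormalizer
  rw [Subgroup.mem_normalizer_iff]
  intro x
  exact normBy_iff h hg x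

theorem normBy_of_le_normalizer {H R : Subgroup (GL (Fin n) F)} (h : H ≤ subgroupNormalizer R) :
    NormBy H R := by
  intro g hg x hx
  have := h hg
  unfold subgroupNormalizer at this
  rw [Subgroup.mem_normalizer_iff] at this
  exact (this x).1 hx

theorem scalars_central (z : GL (Fin n) F) (hz : z ∈ scalars (Fin n) F) (g : GL (Fin n) F) :
    g * z = z * g := by
  obtain ⟨c, hc⟩ := (mem_scalars_iff z).1 hz
  apply Units.ext
  rw [Units.val_mul, Units.val_mul, hc]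
  simp

theorem matrixSet_mono {H K : Subgroup (GL (Fin n) F)} (h : H ≤ K) : matrixSet H ⊆ matrixSet K := by
  rintro _ ⟨g, hg, rfl⟩
  exact ⟨g, h hg, rfl⟩

theorem irr_mono {S T : Set (Matrix (Fin n) (Fin n) F)} (h : S ⊆ T) (hS : ActsIrreducibly S) :
    ActsIrreducibly T := fun W hW => hS W (fun s hs => hW s (h hs))

theorem absIrr_mono {S T : Set (Matrix (Fin n) (Fin n) F)} (h : S ⊆ T) (hS : ActsAbsolutelyIrreducibly S) :
    ActsAbsolutelyIrreducibly T :=
  ⟨irr_mono h hS.1, fun M hM => hS.2 M (fun s hs => hM s (h hs))⟩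

theorem not_irr_of_le_scalars (h2 : 2 ≤ n) (H : Subgroup (GL (Fin n) F)) (hH : H ≤ scalars (Fin n) F) :
    ¬ ActsIrreducibly (matrixSet H) := by
  intro hirr
  have hinv : ∀ W : Submodule F (Fin n → F), ∀ s ∈ matrixSet H, W.map (Matrix.toLin' s) ≤ W := by
    rintro W _ ⟨g, hg, rfl⟩
    obtain ⟨c, hc⟩ := (mem_scalars_iff g).1 (hH hg)
    rintro _ ⟨v, hv, rfl⟩
    simp only [hc, Matrix.toLin'_apply, Matrix.smul_mulVec, Matrix.one_mulVec]
    exact W.smul_mem _ hv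
  let e : Fin n → F := Pi.single ⟨0, by omega⟩ 1
  have he : e ≠ 0 := by
    intro h
    have := congrFun h ⟨0, by omega⟩
    simp [e] at this
  rcases hirr (Submodule.span F {e}) (hinv _) with h | h
  · rw [Submodule.span_singleton_eq_bot] at h
    exact he h
  · have h1 := finrank_span_singleton (K := F) he
    rw [h, finrank_top, Module.finrank_fin_fun] at h1
    omega

theorem InGeo.mono [Fintype F] {H K : Subgroup (GL (Fin n) F)} (h : H ≤ K) (hK : InGeo K) : InGeo H := by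
  rcases hK with ⟨W, h0, h1, h2⟩ | ⟨D, h1, h2⟩ | ⟨A, h1, h2⟩ | ⟨F₀, r, P, h1, h2, h3⟩ | ⟨R, h1, h2⟩ |
    ⟨h0, Q, h1, h2⟩ | ⟨σ, f, h1, h2⟩
  · exact Or.inl ⟨W, h0, h1, h.trans h2⟩
  · exact Or.inr (Or.inl ⟨D, h1, h.trans h2⟩)
  · exact Or.inr (Or.inr (Or.inl ⟨A, h1, h.trans h2⟩))
  · exact Or.inr (Or.inr (Or.inr (Or.inl ⟨F₀, r, P, h1, h2, h.trans h3⟩)))
  · exact Or.inr (Or.inr (Or.inr (Or.inr (Or.inl ⟨R, h1, h.trans h2⟩))))
  · exact Or.inr (Or.inr (Or.inr (Or.inr (Or.inr (Or.inl ⟨h0, Q, h1, h.trans h2⟩)))))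
  · exact Or.inr (Or.inr (Or.inr (Or.inr (Or.inr (Or.inr ⟨σ, f, h1, h.trans h2⟩)))))

theorem normal_cases [Fintype F] (hn : n.Prime) (H N : Subgroup (GL (Fin n) F)) (hN : N ≤ H)
    (hnorm : NormBy H N) (hH : ActsIrreducibly (matrixSet H)) :
    InGeo H ∨ N ≤ scalars (Fin n) F ∨ ActsAbsolutelyIrreducibly (matrixSet N) := by
  rcases cliff_line hn H N hN hnorm hH with h | ⟨v, hv, hev⟩
  · rcases irr_dichotomy hn _ h with h | h
    · exact Or.inr (Or.inr h)
    · left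
      refine Or.inr (Or.inr (Or.inl ⟨_, h, fun g hg => ?_⟩))
      exact normalizer_centralizer N g (normBy_iff hnorm hg)
  · rcases cliff_decomp hn H N hN hnorm hH v hv hev with h | ⟨-, D, hD, hle⟩
    · exact Or.inr (Or.inl h)
    · exact Or.inl (Or.inr (Or.inl ⟨D, hD, hle⟩))

theorem lin_L [Finite F] (hn : n.Prime) (N : Subgroup (GL (Fin n) F)) (hN : ActsIrreducibly (matrixSet N))
    (M : Subgroup (GL (Fin n) F)) (hM : M ≤ N) (hnorm : NormBy N M) :
    Group.IsSolvable M ∨ ∀ a ∈ N, ∀ b ∈ N, (∀ y ∈ M, a * y = y * a) → (∀ y ∈ M, b * y = y * b) → a * b = b * a := by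
  have hcomm : (∀ x ∈ M, ∀ y ∈ M, x * y = y * x) → Group.IsSolvable M := by
    intro h
    exact Group.isSolvable_of_comm (fun a b => Subtype.ext (h a a.2 b b.2))
  rcases cliff_line hn N M hM hnorm hN with h | ⟨v, hv, hev⟩
  · right
    intro a _ b _ ha hb
    have hK := comm_field hn.pos _ h
    have ha' : (a : Matrix (Fin n) (Fin n) F) ∈ Subalgebra.centralizer F (matrixSet M) := by
      rw [Subalgebra.mem_centralizer_iff]
      rintro _ ⟨y, hy, rfl⟩
      rw [← Units.val_mul, ← Units.val_mul, ha y hy]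
    have hb' : (b : Matrix (Fin n) (Fin n) F) ∈ Subalgebra.centralizer F (matrixSet M) := by
      rw [Subalgebra.mem_centralizer_iff]
      rintro _ ⟨y, hy, rfl⟩
      rw [← Units.val_mul, ← Units.val_mul, hb y hy]
    apply Units.ext
    rw [Units.val_mul, Units.val_mul]
    exact hK.comm _ ha' _ hb'
  · left
    rcases cliff_decomp hn N M hM hnorm hN v hv hev with h | ⟨h, -⟩
    · exact hcomm (fun x hx y _ => (scalars_central x (h hx) y).symm)
    · exact hcomm h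

theorem normBy_commutator {G : Type*} [Group G] {H N : Subgroup G} (h : NormBy H N) : NormBy H ⁅N, N⁆ := by
  intro g hg x hx
  have h1 : (⁅N, N⁆).map (MulAut.conj g).toMonoidHom ≤ ⁅N, N⁆ := by
    rw [Subgroup.map_commutator]
    have h2 : N.map (MulAut.conj g).toMonoidHom ≤ N := by
      rintro _ ⟨y, hy, rfl⟩
      exact h g hg y hy
    exact Subgroup.commutator_mono h2 h2
  exact h1 ⟨x, hx, rfl⟩

theorem mem_scalars_of_commute (hn : 0 < n) (P : Subgroup (GL (Fin n) F))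
    (hP : ActsAbsolutelyIrreducibly (matrixSet P)) (g : GL (Fin n) F) (hg : ∀ x ∈ P, g * x = x * g) :
    g ∈ scalars (Fin n) F := by
  obtain ⟨c, hc⟩ := hP.2 (g : Matrix (Fin n) (Fin n) F) (by
    rintro _ ⟨x, hx, rfl⟩
    rw [← Units.val_mul, ← Units.val_mul, hg x hx])
  have hc0 : c ≠ 0 := by
    rintro rfl
    have h1 : (g : Matrix (Fin n) (Fin n) F) = 0 := by rw [hc, zero_smul]
    have h2 := g.isUnit
    rw [h1] at h2
    have : Nonempty (Fin n) := ⟨⟨0, hn⟩⟩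
    exact not_isUnit_zero h2
  exact (mem_scalars_iff g).2 ⟨Units.mk0 c hc0, hc⟩

theorem odd_card_of_two_ne_zero [Fintype F] (h : (2 : F) ≠ 0) : Odd (Fintype.card F) := by
  rw [Nat.odd_iff]
  apply FiniteField.odd_card_of_char_ne_two
  intro h2
  apply h
  have := ringChar.Nat.cast_ringChar (R := F)
  rw [h2] at this
  exact_mod_cast this

theorem main [Fintype F] (hn : n.Prime) (h2 : n ≠ 2) (H : Subgroup (GL (Fin n) F)) :
    InGeo H ∨ InLinearResidualClass H := by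
  classical
  have hodd : Odd n := hn.odd_of_ne_two h2
  have h2n : 2 ≤ n := hn.two_le
  by_cases hirr : ActsIrreducibly (matrixSet H)
  swap
  · obtain ⟨W, h0, h1, hle⟩ := red H hirr
    exact Or.inl (Or.inl ⟨W, h0, h1, hle⟩)
  obtain ⟨Z, hZ⟩ : ∃ Z, Z = scalars (Fin n) F := ⟨_, rfl⟩
  have hZc : ∀ z ∈ Z, ∀ g : GL (Fin n) F, g * z = z * g := by
    intro z hz g
    exact scalars_central z (hZ ▸ hz) g
  obtain ⟨Hh, hHh⟩ : ∃ Hh, Hh = H ⊔ Z := ⟨_, rfl⟩
  have hHle : H ≤ Hh := hHh ▸ le_sup_left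
  have hZle : Z ≤ Hh := hHh ▸ le_sup_right
  have hirr' : ActsIrreducibly (matrixSet Hh) := irr_mono (matrixSet_mono hHle) hirr
  have hZlt : Z < Hh := by
    refine lt_of_le_of_ne hZle (fun h => ?_)
    exact not_irr_of_le_scalars h2n H (hZ ▸ h ▸ hHle) hirr
  obtain ⟨N, hm⟩ := exists_minOver Hh Z hZlt
  suffices InGeo Hh ∨ InLinearResidualClass H by
    rcases this with h | h
    · exact Or.inl (h.mono hHle)
    · exact Or.inr h
  rcases normal_cases hn Hh N hm.le hm.norm hirr' with h | h | hNabs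
  · exact Or.inl h
  · exact absurd (hZ ▸ h) (not_le_of_gt hm.lt)
  by_cases hab : ⁅N, N⁆ ≤ Z
  · left
    obtain ⟨R, hRZ, hexp, hRn⟩ := exists_expSub hn h2 Hh N (hZ ▸ hm) (hZ ▸ hab) hNabs
    have hRabs : ActsAbsolutelyIrreducibly (matrixSet R) := absIrr_of_sup R (by rw [hRZ]; exact hNabs)
    have hRN : R ≤ N := hRZ ▸ le_sup_left
    have hRab : ⁅R, R⁆ ≤ scalars (Fin n) F := (Subgroup.commutator_mono hRN hRN).trans (hZ ▸ hab)
    obtain ⟨x, y, w, hh⟩ := heis_of_exp hn R hexp hRab hRabs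
    have hle : Hh ≤ subgroupNormalizer R := le_normalizer_of_normBy hRn
    rcases field_cases hn w hh.w_ord with ⟨F₀, hF₀, hw⟩ | ⟨p, e, hnp, hmin, he⟩ | ⟨σ, h1, h2', h3⟩
    · obtain ⟨B, hB⟩ := heis_realisable hn R x y w hh F₀ hw
      obtain ⟨F₁, r, hle1, hr, hcard⟩ := exists_prime_subfield F₀ hF₀
      exact Or.inr (Or.inr (Or.inr (Or.inl ⟨F₁, r, B⁻¹, hr, hcard,
        hle.trans ((normalizer_le_subfield hn.pos R hRabs F₀ B hB).trans (subfieldSubgroup_mono hle1 _))⟩)))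
    · obtain ⟨hc1, hc2⟩ := heis_card hn R x y w hh
      refine Or.inr (Or.inr (Or.inr (Or.inr (Or.inl ⟨R, ⟨heis_symplecticType hn h2 R x y w hh, hRabs,
        ⟨p, e, hnp, by rw [hc2]; exact hmin, Or.inl ⟨hodd, he, hc2, 1, le_refl 1, hc1⟩⟩⟩, hle⟩))))
    · obtain ⟨f, hf, hfix⟩ := heis_unitary hn R x y w hh σ h1 h2' h3
      exact Or.inr (Or.inr (Or.inr (Or.inr (Or.inr (Or.inr ⟨σ, f, hf,
        hle.trans (normalizer_le_unitarySim R hRabs σ f hf hfix)⟩)))))
  · obtain ⟨P, hP⟩ : ∃ P, P = ⁅N, N⁆ := ⟨_, rfl⟩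
    obtain ⟨hperf, hPZ⟩ := perfect_core Hh Z N hZc hm hab
    rw [← hP] at hperf hPZ hab
    have hPnorm : NormBy Hh P := hP ▸ normBy_commutator hm.norm
    have hPN : P ≤ N := hPZ ▸ le_sup_left
    have hPle : P ≤ Hh := hPN.trans hm.le
    rcases normal_cases hn Hh P hPle hPnorm hirr' with h | h | hPabs
    · exact Or.inl h
    · exact absurd (hZ ▸ h) hab
    have hsimple := simple_of_minOver Hh Z N hZc hm (hP ▸ hab)
      (fun M hM hMn => lin_L hn N hNabs.1 M hM hMn)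
    have hnormH : Hh ≤ subgroupNormalizer P := le_normalizer_of_normBy hPnorm
    by_cases hsub : ∃ F₀ : Subfield F, F₀ ≠ ⊤ ∧ RealisableOver F₀ (matrixSet P)
    · left
      obtain ⟨F₀, hF₀, B, hB⟩ := hsub
      obtain ⟨F₁, r, hle1, hr, hcard⟩ := exists_prime_subfield F₀ hF₀
      exact Or.inr (Or.inr (Or.inr (Or.inl ⟨F₁, r, B⁻¹, hr, hcard,
        hnormH.trans ((normalizer_le_subfield hn.pos P hPabs F₀ B hB).trans (subfieldSubgroup_mono hle1 _))⟩)))
    by_cases hq : ∃ Q : (Fin n → F) → F, IsNondegenerateQuadraticForm Q ∧ FixesQuadForm (matrixSet P) Q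
    · obtain ⟨Q, hQ, hfix⟩ := hq
      by_cases h2F : (2 : F) = 0
      · exact (no_quad_char_two hodd h2F Q hQ).elim
      · left
        exact Or.inr (Or.inr (Or.inr (Or.inr (Or.inr (Or.inl ⟨odd_card_of_two_ne_zero h2F, Q, hQ,
          hnormH.trans (normalizer_le_quadSim h2F P hPabs Q hQ hfix)⟩)))))
    by_cases hu : ∃ (σ : F ≃+* F) (f : (Fin n → F) → (Fin n → F) → F),
        IsUnitaryForm σ f ∧ FixesForm (matrixSet P) f
    · left
      obtain ⟨σ, f, hf, hfix⟩ := hu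
      exact Or.inr (Or.inr (Or.inr (Or.inr (Or.inr (Or.inr ⟨σ, f, hf,
        hnormH.trans (normalizer_le_unitarySim P hPabs σ f hf hfix)⟩)))))
    right
    subst hZ
    refine ⟨P, ⟨?_, ?_, hperf, ?_, ?_, ?_, hPabs, ?_⟩, hq, ?_, hu⟩
    · calc P ≤ ⁅Hh, Hh⁆ := hP ▸ Subgroup.commutator_mono hm.le hm.le
        _ ≤ H := hHh ▸ commutator_sup_le H _ hZc
    · intro h hh x hx
      exact hPnorm h (hHle hh) x hx
    · exact simple_quot _ N P hPZ hm.lt hsimple
    · exact nonabelian_quot _ P (by rw [hperf]; exact hab)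
    · intro h _ hx
      exact mem_scalars_of_commute hn.pos P hPabs h (centralizes_of_perfect _ P hZc hperf h hx)
    · intro F₀ hF₀ hr
      exact hsub ⟨F₀, hF₀, hr⟩
    · rintro ⟨f, hf, -⟩
      exact no_symplectic_odd hodd f hf

end Cfsg.Agent.Lib.Helper77.Asch
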