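import Cfsg.Agent.Lib.Helper77.Asch.Defs

/-! Ladder ASCH, rung FORMU: the normaliser of an absolutely irreducible group fixing a non-degenerate
sesquilinear form consists of similarities of the form. -/

set_option autoImplicit false

namespace Cfsg.Agent.Lib.Helper77.Asch

open Cfsg Cfsg.Geo
open scoped MatrixGroups Matrix

variable {n : ℕ} {F : Type*} [Field F]

/-- coordinatewise twist by the inverse automorphism. -/
def formuTw (σ : F ≃+* F) (v : Fin n → F) : Fin n → F := fun i => σ.symm (v i)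

theorem formu_tw_add (σ : F ≃+* F) (x y : Fin n → F) :
    formuTw σ (x + y) = formuTw σ x + formuTw σ y := by
  funext i; simp [formuTw]

theorem formu_tw_smul (σ : F ≃+* F) (c : F) (x : Fin n → F) :
    formuTw σ (c • x) = σ.symm c • formuTw σ x := by
  funext i; simp [formuTw]

theorem formu_tw_surj (σ : F ≃+* F) (w : Fin n → F) : ∃ v, formuTw σ v = w :=
  ⟨fun i => σ (w i), by funext i; simp [formuTw]⟩

theorem formu_tw_ne_zero (σ : F ≃+* F) (v : Fin n → F) (hv : v ≠ 0) : formuTw σ v ≠ 0 := by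
  intro h
  apply hv
  funext i
  have := congrFun h i
  simpa [formuTw] using this

/-- the bilinear form attached to a sesquilinear function. -/
noncomputable def formuBil (σ : F ≃+* F) (k : (Fin n → F) → (Fin n → F) → F)
    (hal : ∀ x y v, k (x + y) v = k x v + k y v)
    (hsl : ∀ (c : F) (x v : Fin n → F), k (c • x) v = c * k x v)
    (har : ∀ v x y, k v (x + y) = k v x + k v y)
    (hsr : ∀ (c : F) (v x : Fin n → F), k v (c • x) = σ c * k v x) :
    LinearMap.BilinForm F (Fin n → F) :=
  LinearMap.mk₂ F (fun u v => k u (formuTw σ v))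
    (fun x y v => hal x y _)
    (fun c x v => by simpa using hsl c x _)
    (fun v x y => by rw [formu_tw_add, har])
    (fun c v x => by rw [formu_tw_smul, hsr]; simp)

theorem formu_bil_apply (σ : F ≃+* F) (k : (Fin n → F) → (Fin n → F) → F)
    (hal : ∀ x y v, k (x + y) v = k x v + k y v)
    (hsl : ∀ (c : F) (x v : Fin n → F), k (c • x) v = c * k x v)
    (har : ∀ v x y, k v (x + y) = k v x + k v y)
    (hsr : ∀ (c : F) (v x : Fin n → F), k v (c • x) = σ c * k v x) (u v : Fin n → F) :
    formuBil σ k hal hsl har hsr u v = k u (formuTw σ v) := rfl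

/-- The general statement, for a form linear in the first and `σ`-semilinear in the second argument. -/
theorem formu_key (P : Subgroup (GL (Fin n) F))
    (hP : ActsAbsolutelyIrreducibly (matrixSet P)) (σ : F ≃+* F) (f : (Fin n → F) → (Fin n → F) → F)
    (hal : ∀ x y v, f (x + y) v = f x v + f y v)
    (hsl : ∀ (c : F) (x v : Fin n → F), f (c • x) v = c * f x v)
    (har : ∀ v x y, f v (x + y) = f v x + f v y)
    (hsr : ∀ (c : F) (v x : Fin n → F), f v (c • x) = σ c * f v x)
    (hnd : IsNondegenerateForm f)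
    (hfix : FixesForm (matrixSet P) f) :
    subgroupNormalizer P ≤ similarityGroup f := by
  intro h hh
  set H : Matrix (Fin n) (Fin n) F := (h : Matrix (Fin n) (Fin n) F) with hH
  set f' : (Fin n → F) → (Fin n → F) → F := fun u v => f (H *ᵥ u) (H *ᵥ v) with hf'
  have hal' : ∀ x y v, f' (x + y) v = f' x v + f' y v := fun x y v => by
    simp only [hf', Matrix.mulVec_add, hal]
  have hsl' : ∀ (c : F) (x v : Fin n → F), f' (c • x) v = c * f' x v := fun c x v => by
    simp only [hf', Matrix.mulVec_smul, hsl]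
  have har' : ∀ v x y, f' v (x + y) = f' v x + f' v y := fun v x y => by
    simp only [hf', Matrix.mulVec_add, har]
  have hsr' : ∀ (c : F) (v x : Fin n → F), f' v (c • x) = σ c * f' v x := fun c v x => by
    simp only [hf', Matrix.mulVec_smul, hsr]
  have hg : (formuBil σ f hal hsl har hsr).Nondegenerate := by
    constructor
    · intro x hx
      by_contra hx0
      obtain ⟨_, y, hy⟩ := hnd x hx0
      obtain ⟨v, rfl⟩ := formu_tw_surj σ y
      exact hy (hx v)
    · intro y hy
      by_contra hy0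
      obtain ⟨⟨x, hx⟩, _⟩ := hnd _ (formu_tw_ne_zero σ y hy0)
      exact hx (hy x)
  set A : (Fin n → F) →ₗ[F] (Fin n → F) :=
    (formuBil σ f' hal' hsl' har' hsr').symmCompOfNondegenerate (formuBil σ f hal hsl har hsr) hg with hAdef
  have hA : ∀ u w, f (A u) w = f' u w := by
    intro u w
    obtain ⟨v, rfl⟩ := formu_tw_surj σ w
    exact LinearMap.BilinForm.symmCompOfNondegenerate_left_apply
      (formuBil σ f' hal' hsl' har' hsr') hg v u
  -- invariance of `f'`
  have hinv : ∀ x ∈ P, ∀ u v, f' ((x : Matrix (Fin n) (Fin n) F) *ᵥ u)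
      ((x : Matrix (Fin n) (Fin n) F) *ᵥ v) = f' u v := by
    intro x hx u v
    have hx' : h * x * h⁻¹ ∈ P := (Subgroup.mem_normalizer_iff.1 hh x).1 hx
    have h1 := hfix _ ⟨_, hx', rfl⟩ (H *ᵥ u) (H *ᵥ v)
    have h2 : ∀ z : Fin n → F, ((h * x * h⁻¹ : GL (Fin n) F) : Matrix (Fin n) (Fin n) F) *ᵥ (H *ᵥ z)
        = H *ᵥ ((x : Matrix (Fin n) (Fin n) F) *ᵥ z) := by
      intro z
      rw [Matrix.mulVec_mulVec, Matrix.mulVec_mulVec, hH, ← Units.val_mul, ← Units.val_mul]
      congr 2
      group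
    rw [h2, h2] at h1
    exact h1
  have hsub : ∀ a b w, f (a - b) w = f a w - f b w := by
    intro a b w
    have : a - b = a + (-1 : F) • b := by rw [neg_one_smul, sub_eq_add_neg]
    rw [this, hal, hsl]; ring
  have hcommv : ∀ x ∈ P, ∀ u, A ((x : Matrix (Fin n) (Fin n) F) *ᵥ u)
      = (x : Matrix (Fin n) (Fin n) F) *ᵥ (A u) := by
    intro x hx u
    by_contra hne
    obtain ⟨_, w, hw⟩ := hnd _ (sub_ne_zero.2 hne)
    apply hw
    rw [hsub, sub_eq_zero, hA]
    have hw' : w = (x : Matrix (Fin n) (Fin n) F) *ᵥ (((x⁻¹ : GL (Fin n) F) : Matrix (Fin n) (Fin n) F) *ᵥ w) := by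
      rw [Matrix.mulVec_mulVec, ← Units.val_mul, mul_inv_cancel, Units.val_one, Matrix.one_mulVec]
    rw [hw', hinv x hx, hfix _ ⟨x, hx, rfl⟩, hA]
  have hcomm : ∀ s ∈ matrixSet P, LinearMap.toMatrix' A * s = s * LinearMap.toMatrix' A := by
    rintro s ⟨x, hx, rfl⟩
    apply Matrix.toLin'.injective
    apply LinearMap.ext
    intro u
    simp only [Matrix.toLin'_mul, Matrix.toLin'_toMatrix', LinearMap.comp_apply, Matrix.toLin'_apply]
    exact hcommv x hx u
  obtain ⟨c, hc⟩ := hP.2 _ hcomm
  have hAc : ∀ u, A u = c • u := by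
    intro u
    have : A u = Matrix.toLin' (LinearMap.toMatrix' A) u := by rw [Matrix.toLin'_toMatrix']
    rw [this, hc, Matrix.toLin'_apply, Matrix.smul_mulVec, Matrix.one_mulVec]
  have hfin : ∀ u w, f' u w = c * f u w := by
    intro u w
    rw [← hA, hAc, hsl]
  by_cases hc0 : c = 0
  · refine ⟨1, fun u v => ?_⟩
    have hz : ∀ u w, f' u w = 0 := fun u w => by rw [hfin, hc0, zero_mul]
    have h3 : ∀ z : Fin n → F, z = H *ᵥ (((h⁻¹ : GL (Fin n) F) : Matrix (Fin n) (Fin n) F) *ᵥ z) := by
      intro z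
      rw [Matrix.mulVec_mulVec, hH, ← Units.val_mul, mul_inv_cancel, Units.val_one, Matrix.one_mulVec]
    have h4 : f u v = 0 := by
      rw [h3 u, h3 v]; exact hz _ _
    rw [h4, mul_zero]
    exact hz u v
  · exact ⟨Units.mk0 c hc0, fun u v => hfin u v⟩

/-- FORMU. -/
theorem normalizer_le_unitarySim (P : Subgroup (GL (Fin n) F))
    (hP : ActsAbsolutelyIrreducibly (matrixSet P)) (σ : F ≃+* F) (f : (Fin n → F) → (Fin n → F) → F)
    (hf : IsUnitaryForm σ f) (hfix : FixesForm (matrixSet P) f) :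
    subgroupNormalizer P ≤ similarityGroup f := by
  refine formu_key P hP σ f hf.add_left hf.smul_left ?_ ?_ hf.nondegenerate hfix
  · intro v x y
    rw [hf.herm v (x + y), hf.add_left, map_add, ← hf.herm, ← hf.herm]
  · intro c v x
    rw [hf.herm v (c • x), hf.smul_left, map_mul, ← hf.herm]

end Cfsg.Agent.Lib.Helper77.Asch
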