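import Cfsg.Agent.Lib.Helper77.Asch.Defs

/-! Ladder ASCH, rung PR3: SL is not inside the normaliser of a field subalgebra of degree `n ≥ 3`. -/

set_option autoImplicit false

namespace Cfsg.Agent.Lib.Helper77.Asch

open Cfsg Cfsg.Geo
open scoped MatrixGroups Matrix

variable {n : ℕ} {F : Type*} [Field F]

/-- two linear conditions in dimension at least three have a common nonzero solution. -/
theorem pr3_exists_perp (h3 : 3 ≤ n) (a b : Fin n → F) :
    ∃ z : Fin n → F, z ≠ 0 ∧ a ⬝ᵥ z = 0 ∧ b ⬝ᵥ z = 0 := by
  have hker : LinearMap.ker (Matrix.mulVecLin (Matrix.of ![a, b])) ≠ ⊥ := by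
    apply LinearMap.ker_ne_bot_of_finrank_lt
    simp only [Module.finrank_fintype_fun_eq_card, Fintype.card_fin]
    omega
  obtain ⟨z, hz, hz0⟩ := (Submodule.ne_bot_iff _).1 hker
  refine ⟨z, hz0, ?_, ?_⟩
  · have := congrFun (LinearMap.mem_ker.1 hz) 0
    simpa [Matrix.mulVec] using this
  · have := congrFun (LinearMap.mem_ker.1 hz) 1
    simpa [Matrix.mulVec] using this

/-- the elementary transvection as an element of `GL`. -/
def pr3Tv (i j : Fin n) (hij : i ≠ j) : GL (Fin n) F :=
  ⟨Matrix.transvection i j 1, Matrix.transvection i j (-1),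
    by rw [Matrix.transvection_mul_transvection_same i j hij]; simp,
    by rw [Matrix.transvection_mul_transvection_same i j hij]; simp⟩

theorem pr3Tv_mem (i j : Fin n) (hij : i ≠ j) :
    (pr3Tv i j hij : GL (Fin n) F) ∈ specialLinear (Fin n) F := by
  rw [specialLinear, MonoidHom.mem_ker]
  apply Units.ext
  rw [Matrix.GeneralLinearGroup.val_det_apply]
  exact Matrix.det_transvection_of_ne i j hij 1

theorem not_le_fieldNormalizer (h3 : 3 ≤ n) (K : Subalgebra F (Matrix (Fin n) (Fin n) F))
    (hK : IsFieldSubalgebra n K) : ¬ specialLinear (Fin n) F ≤ subalgebraNormalizer K := by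
  classical
  intro hle
  have hcomm : ∀ i j : Fin n, i ≠ j → ∀ k ∈ K, Commute (Matrix.single i j (1 : F)) k := by
    intro i j hij k hk
    have hτ : (Matrix.transvection i j (1 : F)) * k * Matrix.transvection i j (-1) ∈ K :=
      (hle (pr3Tv_mem i j hij) k).1 hk
    obtain ⟨D, hD⟩ : ∃ D, D = (Matrix.transvection i j (1 : F)) * k * Matrix.transvection i j (-1) - k :=
      ⟨_, rfl⟩
    have hDK : D ∈ K := by rw [hD]; exact K.sub_mem hτ hk
    have hDτ : D * Matrix.transvection i j (1 : F) = Matrix.single i j (1 : F) * k - k * Matrix.single i j (1 : F) := by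
      rw [hD, sub_mul, mul_assoc, Matrix.transvection_mul_transvection_same i j hij]
      simp only [Matrix.transvection]
      simp [add_mul, mul_add]
    have hD0 : D = 0 := by
      by_contra hne
      obtain ⟨y, _, hy⟩ := hK.inv D hDK hne
      obtain ⟨z, hz0, hz1, hz2⟩ := pr3_exists_perp h3 (Pi.single j (1 : F) ᵥ* k) (Pi.single j (1 : F))
      have hdet : (D * Matrix.transvection i j (1 : F)).det = 0 := by
        rw [← Matrix.exists_mulVec_eq_zero_iff]
        refine ⟨z, hz0, ?_⟩
        rw [hDτ, Matrix.sub_mulVec, ← Matrix.mulVec_mulVec, ← Matrix.mulVec_mulVec,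
          Matrix.single_mulVec_eq, Matrix.single_mulVec_eq]
        have e1 : (k *ᵥ z) j = 0 := by
          rw [← Matrix.dotProduct_mulVec] at hz1
          simpa using hz1
        have e2 : z j = 0 := by simpa using hz2
        rw [e1, e2]
        simp
      rw [Matrix.det_mul, Matrix.det_transvection_of_ne i j hij, mul_one] at hdet
      have := congrArg Matrix.det hy
      rw [Matrix.det_mul, hdet, zero_mul, Matrix.det_one] at this
      exact zero_ne_one this
    rw [hD0, zero_mul] at hDτ
    exact (sub_eq_zero.1 hDτ.symm)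
  have hbot : K = ⊥ := by
    rw [eq_bot_iff]
    intro k hk
    obtain ⟨c, hc⟩ := Matrix.mem_range_scalar_of_commute_single (M := k)
      (fun i j hij => hcomm i j hij k hk)
    rw [Algebra.mem_bot]
    refine ⟨c, ?_⟩
    rw [← hc]
    rfl
  have hfr := hK.finrank_eq
  rw [hbot] at hfr
  have : Nonempty (Fin n) := ⟨⟨0, by omega⟩⟩
  rw [Subalgebra.finrank_bot] at hfr
  omega

end Cfsg.Agent.Lib.Helper77.Asch
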