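import Cfsg.Agent.Lib.Helper77.Asch.Defs

/-! Ladder ASCH: common lemmas of the properness block (transvections). -/

set_option autoImplicit false

namespace Cfsg.Agent.Lib.Helper77.Asch

open Cfsg Cfsg.Geo
open scoped MatrixGroups Matrix

variable {n : ℕ} {F : Type*} [Field F]

/-- The transvection `1 + u ⊗ φ`. -/
theorem pr0_trv (u φ : Fin n → F) (h : φ ⬝ᵥ u = 0) :
    ∃ g : GL (Fin n) F, g ∈ specialLinear (Fin n) F ∧
      (g : Matrix (Fin n) (Fin n) F) = 1 + Matrix.vecMulVec u φ := by
  have hdet : (1 + Matrix.vecMulVec u φ).det = 1 := by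
    rw [Matrix.vecMulVec_eq Unit, Matrix.det_one_add_replicateCol_mul_replicateRow, h, add_zero]
  refine ⟨Matrix.GeneralLinearGroup.mkOfDetNeZero (1 + Matrix.vecMulVec u φ)
    (by rw [hdet]; exact one_ne_zero), ?_, rfl⟩
  change Matrix.GeneralLinearGroup.det _ = 1
  apply Units.ext
  rw [Matrix.GeneralLinearGroup.val_det_apply]
  exact hdet

/-- The transvection `v ↦ v + f v • u` attached to a linear functional. -/
theorem pr0_trv' (u : Fin n → F) (f : (Fin n → F) →ₗ[F] F) (h : f u = 0) :
    ∃ g : GL (Fin n) F, g ∈ specialLinear (Fin n) F ∧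
      ∀ v, (g : Matrix (Fin n) (Fin n) F) *ᵥ v = v + f v • u := by
  have hf : ∀ v, (fun i => f (Pi.single i 1)) ⬝ᵥ v = f v := by
    intro v
    rw [LinearMap.pi_apply_eq_sum_univ f v]
    simp only [dotProduct, smul_eq_mul]
    refine Finset.sum_congr rfl fun i _ => ?_
    rw [mul_comm]
    congr 2
    ext j
    simp [Pi.single_apply, eq_comm]
  obtain ⟨g, hg, hgm⟩ := pr0_trv u (fun i => f (Pi.single i 1)) (by rw [hf, h])
  refine ⟨g, hg, fun v => ?_⟩
  rw [hgm, Matrix.add_mulVec, Matrix.one_mulVec, Matrix.vecMulVec_mulVec, hf, op_smul_eq_smul]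

/-- A functional vanishing on `p` with value `1` at a given vector outside `p`. -/
theorem pr0_dual (p : Submodule F (Fin n → F)) {x : Fin n → F} (hx : x ∉ p) :
    ∃ f : (Fin n → F) →ₗ[F] F, f x = 1 ∧ ∀ y ∈ p, f y = 0 := by
  obtain ⟨f, hfx, hfp⟩ := Submodule.exists_dual_map_eq_bot_of_notMem hx inferInstance
  refine ⟨(f x)⁻¹ • f, by simp [hfx], fun y hy => ?_⟩
  have : f y ∈ p.map f := ⟨y, hy, rfl⟩
  rw [hfp, Submodule.mem_bot] at this
  simp [this]

/-- In dimension at least three two vectors do not span. -/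
theorem pr0_notMem_span (h3 : 3 ≤ n) (u w : Fin n → F) :
    ∃ z : Fin n → F, z ∉ Submodule.span F ({u, w} : Set (Fin n → F)) := by
  by_contra hcon
  push Not at hcon
  have htop : Submodule.span F ({u, w} : Set (Fin n → F)) = ⊤ := by
    rw [eq_top_iff]; intro z _; exact hcon z
  have h1 : Module.finrank F (Submodule.span F ({u, w} : Set (Fin n → F))) ≤ 2 := by
    classical
    have := finrank_span_finset_le_card (R := F) ({u, w} : Finset (Fin n → F))
    have h2 : ({u, w} : Finset (Fin n → F)).card ≤ 2 := Finset.card_le_two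
    simp only [Finset.coe_insert, Finset.coe_singleton] at this
    exact this.trans h2
  rw [htop, finrank_top, Module.finrank_fin_fun] at h1
  omega

/-- In dimension at least three there is a functional killing two given vectors, with a vector of value one. -/
theorem pr0_dual2 (h3 : 3 ≤ n) (u w : Fin n → F) :
    ∃ (f : (Fin n → F) →ₗ[F] F) (z : Fin n → F), f z = 1 ∧ f u = 0 ∧ f w = 0 := by
  obtain ⟨z, hz⟩ := pr0_notMem_span h3 u w
  obtain ⟨f, hfz, hf⟩ := pr0_dual _ hz
  exact ⟨f, z, hfz, hf u (Submodule.subset_span (by simp)), hf w (Submodule.subset_span (by simp))⟩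

end Cfsg.Agent.Lib.Helper77.Asch
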