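import Cfsg.Agent.Lib.Helper77.Asch.PR0

set_option autoImplicit false

namespace Cfsg.Agent.Lib.Helper77.Asch

open Cfsg Cfsg.Geo
open scoped MatrixGroups Matrix

variable {n : ℕ} {F : Type*} [Field F]

theorem not_le_subspace (W : Submodule F (Fin n → F)) (h0 : W ≠ ⊥) (h1 : W ≠ ⊤) :
    ¬ specialLinear (Fin n) F ≤ subspaceStabilizer W := by
  intro hle
  obtain ⟨u, huW, hu0⟩ := Submodule.exists_mem_ne_zero_of_ne_bot h0
  obtain ⟨z, hz⟩ : ∃ z, z ∉ W := by
    by_contra hcon
    push Not at hcon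
    exact h1 (eq_top_iff.2 fun z _ => hcon z)
  have hu : u ∉ Submodule.span F {z} := by
    intro h
    obtain ⟨c, rfl⟩ := Submodule.mem_span_singleton.1 h
    have hc : c ≠ 0 := by
      rintro rfl
      simp at hu0
    apply hz
    have := W.smul_mem c⁻¹ huW
    rwa [smul_smul, inv_mul_cancel₀ hc, one_smul] at this
  obtain ⟨f, hfu, hf⟩ := pr0_dual _ hu
  obtain ⟨g, hg, hgv⟩ := pr0_trv' z f (hf z (Submodule.mem_span_singleton_self z))
  have this : (g : Matrix (Fin n) (Fin n) F) *ᵥ u ∈ W := (hle hg u).1 huW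
  rw [hgv, hfu, one_smul] at this
  exact hz ((W.add_mem_iff_right huW).1 this)

end Cfsg.Agent.Lib.Helper77.Asch
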