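import Cfsg.Agent.Lib.Helper77.Asch.PR0

set_option autoImplicit false

namespace Cfsg.Agent.Lib.Helper77.Asch

open Cfsg Cfsg.Geo
open scoped MatrixGroups Matrix

variable {n : ℕ} {F : Type*} [Field F]

theorem not_le_decomp {t m : ℕ} (D : Fin t → Submodule F (Fin n → F)) (hD : IsMDecomposition m D) :
    ¬ specialLinear (Fin n) F ≤ decompositionStabilizer D := by
  intro hle
  have ht := hD.two_le
  let i0 : Fin t := ⟨0, by omega⟩
  let i1 : Fin t := ⟨1, by omega⟩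
  have h01 : i0 ≠ i1 := by simp [i0, i1, Fin.ext_iff]
  have hne : ∀ i, ∃ u ∈ D i, u ≠ 0 := by
    intro i
    apply Submodule.exists_mem_ne_zero_of_ne_bot
    intro h
    have h1 := hD.finrank_eq i
    rw [h, finrank_bot] at h1
    have := hD.pos
    omega
  obtain ⟨u, hu, hu0⟩ := hne i0
  obtain ⟨v, hv, hv0⟩ := hne i1
  have key : ∀ i x, x ∈ D i → x ∈ ⨆ j, ⨆ (_ : j ≠ i), D j → x = 0 := by
    intro i x h1 h2
    have := (hD.indep i).le_bot ⟨h1, h2⟩
    simpa using this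
  have hle' : ∀ i j, j ≠ i → D j ≤ ⨆ j, ⨆ (_ : j ≠ i), D j :=
    fun i j hj => le_iSup₂_of_le j hj le_rfl
  have hvu : v ∉ Submodule.span F {u} := by
    intro h
    obtain ⟨c, rfl⟩ := Submodule.mem_span_singleton.1 h
    exact hv0 (key i1 _ hv (hle' i1 i0 h01 ((D i0).smul_mem c hu)))
  obtain ⟨f, hfv, hf⟩ := pr0_dual _ hvu
  obtain ⟨g, hg, hgv⟩ := pr0_trv' u f (hf u (Submodule.mem_span_singleton_self u))
  obtain ⟨σ, hσ⟩ := hle hg
  have hmem : v + u ∈ D (σ i1) := by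
    rw [← hσ i1]
    refine ⟨v, hv, ?_⟩
    rw [Matrix.toLin'_apply, hgv, hfv, one_smul]
  by_cases hj : σ i1 = i0
  · rw [hj] at hmem
    have : v ∈ D i0 := ((D i0).add_mem_iff_left hu).1 hmem
    exact hv0 (key i1 v hv (hle' i1 i0 h01 this))
  · have : u ∈ ⨆ j, ⨆ (_ : j ≠ i0), D j := by
      have h1 := hle' i0 _ hj hmem
      have h2 := hle' i0 i1 h01.symm hv
      have := Submodule.sub_mem _ h1 h2
      simpa using this
    exact hu0 (key i0 u hu this)

end Cfsg.Agent.Lib.Helper77.Asch
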