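import Cfsg.Agent.Lib.Helper77.Asch.PR0

set_option autoImplicit false

namespace Cfsg.Agent.Lib.Helper77.Asch

open Cfsg Cfsg.Geo
open scoped MatrixGroups Matrix

variable {n : ℕ} {F : Type*} [Field F]

theorem not_le_subfield (h2 : 2 ≤ n) (F₀ : Subfield F) (h : F₀ ≠ ⊤) (P : GL (Fin n) F) :
    ¬ specialLinear (Fin n) F ≤ subfieldSubgroup F₀ P := by
  intro hle
  obtain ⟨a, ha⟩ : ∃ a, a ∉ F₀ := by
    by_contra hcon
    push Not at hcon
    exact h (eq_top_iff.2 fun z _ => hcon z)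
  let i0 : Fin n := ⟨0, by omega⟩
  let i1 : Fin n := ⟨1, by omega⟩
  have h01 : i0 ≠ i1 := by simp [i0, i1, Fin.ext_iff]
  obtain ⟨t, ht, htm⟩ := pr0_trv (Pi.single i0 (1 : F)) (Pi.single i1 a) (by simp [h01.symm])
  have hn : (specialLinear (Fin n) F).Normal := by
    unfold specialLinear
    infer_instance
  have h1 : P * t * P⁻¹ ∈ subfieldSubgroup F₀ P := hle (hn.conj_mem t ht P)
  obtain ⟨x, hx, hxe⟩ := h1
  have hxt : x = t := by
    have : P * x * P⁻¹ = P * t * P⁻¹ := hxe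
    simpa using this
  rw [hxt] at hx
  obtain ⟨g0, ⟨y, rfl⟩, s, hs, hprod⟩ := Subgroup.mem_sup_of_normal_right.1 hx
  obtain ⟨c, hc⟩ := (mem_scalars_iff s).1 hs
  have hent : ∀ i j, (t : Matrix (Fin n) (Fin n) F) i j = (c : F) * ((y i j : F₀) : F) := by
    intro i j
    rw [← hprod, Units.val_mul, hc, Matrix.mul_smul, Matrix.mul_one, Matrix.smul_apply, smul_eq_mul]
    rfl
  have h00 := hent i0 i0
  have h01' := hent i0 i1
  rw [htm] at h00 h01'
  simp [Matrix.vecMulVec_apply, h01, h01.symm] at h00 h01'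
  have hcF : (c : F) ∈ F₀ := by
    have hy : ((y i0 i0 : F₀) : F) ≠ 0 := by
      intro h0
      rw [h0, mul_zero] at h00
      exact one_ne_zero h00
    have : (c : F) = ((y i0 i0 : F₀) : F)⁻¹ := by
      field_simp
      exact h00.symm
    rw [this]
    exact F₀.inv_mem (y i0 i0 : F₀).2
  apply ha
  rw [h01']
  exact F₀.mul_mem hcF (y i0 i1 : F₀).2

end Cfsg.Agent.Lib.Helper77.Asch
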