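import Cfsg.Agent.Lib.Helper77.Asch.PR0
import Cfsg.Agent.Lib.Helper77.Asch.PR3
import Cfsg.Agent.Lib.Helper77.Asch.EX1

/-! Ladder ASCH, rung PR5: SL does not normalise a non-scalar `r`-group, `r` not the characteristic. -/

set_option autoImplicit false

namespace Cfsg.Agent.Lib.Helper77.Asch

open Cfsg Cfsg.Geo
open scoped MatrixGroups Matrix

variable {n : ℕ} {F : Type*} [Field F]

/-- a matrix all of whose vectors are eigenvectors is scalar. -/
theorem pr5_exists_noneig (x : Matrix (Fin n) (Fin n) F) (hx : ∀ c : F, x ≠ c • 1) :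
    ∃ v : Fin n → F, ∀ c : F, x *ᵥ v ≠ c • v := by
  classical
  by_contra hcon
  push Not at hcon
  choose c hc using fun i : Fin n => hcon (Pi.single i 1)
  have hcc : ∀ i j, c i = c j := by
    intro i j
    by_cases hij : i = j
    · rw [hij]
    obtain ⟨d, hd⟩ := hcon (Pi.single i 1 + Pi.single j 1)
    rw [Matrix.mulVec_add, hc, hc] at hd
    have h1 := congrFun hd i
    have h2 := congrFun hd j
    simp [hij, Ne.symm hij] at h1 h2
    rw [h1, h2]
  rcases Nat.eq_zero_or_pos n with h0 | h0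
  · subst h0
    exact hx 0 (Subsingleton.elim _ _)
  · apply hx (c ⟨0, h0⟩)
    ext a b
    have h1 := congrFun (hc b) a
    rw [Matrix.mulVec_single_one] at h1
    have h2 : x a b = c b * (Pi.single b (1 : F) : Fin n → F) a := by
      simpa using h1
    rw [h2, hcc b ⟨0, h0⟩, Matrix.smul_apply, Matrix.one_apply, Pi.single_apply]
    simp

theorem not_le_normalizer (h3 : 3 ≤ n) (r p : ℕ) [CharP F p] (hp : p.Prime) (hr : r.Prime) (hrp : r ≠ p)
    (R : Subgroup (GL (Fin n) F)) (hR : IsPGroup r R) (hns : ¬ R ≤ scalars (Fin n) F) :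
    ¬ specialLinear (Fin n) F ≤ subgroupNormalizer R := by
  classical
  intro hle
  obtain ⟨x, hxR, hxs⟩ := SetLike.not_le_iff_exists.1 hns
  have hx : ∀ c : F, (x : Matrix (Fin n) (Fin n) F) ≠ c • 1 := fun c hc =>
    hxs (ex1_mem_scalars (by omega) x c hc)
  obtain ⟨v, hv⟩ := pr5_exists_noneig _ hx
  obtain ⟨φ, hφ0, hφ1, hφ2⟩ := pr3_exists_perp h3 v ((x : Matrix (Fin n) (Fin n) F) *ᵥ v)
  rw [dotProduct_comm] at hφ1 hφ2
  obtain ⟨τ, hτS, hτ⟩ := pr0_trv v φ hφ1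
  have hτN : ∀ y, y ∈ R ↔ τ * y * τ⁻¹ ∈ R := Subgroup.mem_normalizer_iff.1 (hle hτS)
  obtain ⟨g, hg⟩ : ∃ g, g = τ * x * τ⁻¹ * x⁻¹ := ⟨_, rfl⟩
  have hgR : g ∈ R := by
    rw [hg]; exact R.mul_mem ((hτN x).1 hxR) (R.inv_mem hxR)
  -- the inverse of the transvection
  have hτi : ((τ⁻¹ : GL (Fin n) F) : Matrix (Fin n) (Fin n) F) = 1 - Matrix.vecMulVec v φ := by
    have h1 : (τ : Matrix (Fin n) (Fin n) F) * (1 - Matrix.vecMulVec v φ) = 1 := by
      rw [hτ]
      simp [add_mul, mul_sub, Matrix.vecMulVec_mul_vecMulVec, hφ1]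
    calc ((τ⁻¹ : GL (Fin n) F) : Matrix (Fin n) (Fin n) F)
        = ((τ⁻¹ : GL (Fin n) F) : Matrix (Fin n) (Fin n) F) *
            ((τ : Matrix (Fin n) (Fin n) F) * (1 - Matrix.vecMulVec v φ)) := by rw [h1, mul_one]
      _ = 1 - Matrix.vecMulVec v φ := by
          rw [← mul_assoc, ← Units.val_mul, inv_mul_cancel, Units.val_one, one_mul]
  obtain ⟨b, hb⟩ : ∃ b, b = (x : Matrix (Fin n) (Fin n) F) *ᵥ v := ⟨_, rfl⟩
  obtain ⟨ψ, hψ⟩ : ∃ ψ, ψ = φ ᵥ* ((x⁻¹ : GL (Fin n) F) : Matrix (Fin n) (Fin n) F) := ⟨_, rfl⟩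
  rw [← hb] at hφ2
  have hxx : ((x⁻¹ : GL (Fin n) F) : Matrix (Fin n) (Fin n) F) * (x : Matrix (Fin n) (Fin n) F) = 1 := by
    rw [← Units.val_mul, inv_mul_cancel, Units.val_one]
  have hxx' : (x : Matrix (Fin n) (Fin n) F) * ((x⁻¹ : GL (Fin n) F) : Matrix (Fin n) (Fin n) F) = 1 := by
    rw [← Units.val_mul, mul_inv_cancel, Units.val_one]
  have hψb : ψ ⬝ᵥ b = 0 := by
    rw [hψ, hb, ← Matrix.dotProduct_mulVec, Matrix.mulVec_mulVec, hxx, Matrix.one_mulVec, hφ1]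
  obtain ⟨A, hA⟩ : ∃ A, A = Matrix.vecMulVec v φ - Matrix.vecMulVec b ψ := ⟨_, rfl⟩
  have hgA : (g : Matrix (Fin n) (Fin n) F) = 1 + A := by
    have h1 : (x : Matrix (Fin n) (Fin n) F) * (1 - Matrix.vecMulVec v φ) *
        ((x⁻¹ : GL (Fin n) F) : Matrix (Fin n) (Fin n) F) = 1 - Matrix.vecMulVec b ψ := by
      rw [mul_sub, sub_mul, mul_one, hxx', Matrix.mul_vecMulVec, Matrix.vecMulVec_mul, ← hb, ← hψ]
    rw [hg, Units.val_mul, Units.val_mul, Units.val_mul, hτi, mul_assoc, mul_assoc,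
      ← mul_assoc (x : Matrix (Fin n) (Fin n) F), h1, hτ, hA]
    simp [add_mul, mul_sub, Matrix.vecMulVec_mul_vecMulVec, hφ2]
    abel
  have hA3 : A ^ 3 = 0 := by
    rw [hA, pow_succ, pow_two]
    simp [sub_mul, mul_sub, Matrix.vecMulVec_mul_vecMulVec, hφ1, hφ2, hψb]
  -- `g` has `p`-power order
  have hgp : g ^ (p ^ 2) = 1 := by
    apply Units.ext
    rw [Units.val_pow_eq_pow_val, hgA, Units.val_one]
    have : Nonempty (Fin n) := ⟨⟨0, by omega⟩⟩
    have : Fact p.Prime := ⟨hp⟩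
    rw [add_pow_char_pow_of_commute p 2 (Commute.one_left A), one_pow]
    have h4 : 3 ≤ p ^ 2 := by nlinarith [hp.two_le]
    rw [← Nat.sub_add_cancel h4, pow_add, hA3, mul_zero, add_zero]
  -- `g` has `r`-power order
  obtain ⟨k, hk⟩ := hR ⟨g, hgR⟩
  have hgr : g ^ (r ^ k) = 1 := by
    have := congrArg Subtype.val hk
    simpa using this
  have hg1 : g = 1 := by
    have hcop : Nat.gcd (p ^ 2) (r ^ k) = 1 :=
      Nat.Coprime.pow _ _ ((Nat.coprime_primes hp hr).2 (Ne.symm hrp))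
    have := pow_gcd_eq_one.2 ⟨hgp, hgr⟩
    rwa [hcop, pow_one] at this
  have hA0 : A = 0 := by
    have : (g : Matrix (Fin n) (Fin n) F) = 1 := by rw [hg1, Units.val_one]
    rw [hgA] at this
    simpa using this
  -- but `A ≠ 0`
  obtain ⟨i, hi⟩ : ∃ i, φ i ≠ 0 := by
    by_contra hcon
    push Not at hcon
    exact hφ0 (funext hcon)
  have hAi : A *ᵥ Pi.single i 1 = φ i • v - ψ i • b := by
    rw [hA, Matrix.sub_mulVec, Matrix.vecMulVec_mulVec, Matrix.vecMulVec_mulVec]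
    simp
  rw [hA0, Matrix.zero_mulVec] at hAi
  have heq : ψ i • b = φ i • v := (sub_eq_zero.1 hAi.symm).symm
  by_cases hψi : ψ i = 0
  · rw [hψi, zero_smul] at heq
    have hv0 : v = 0 := by
      rcases smul_eq_zero.1 heq.symm with h | h
      · exact absurd h hi
      · exact h
    apply hv 0
    rw [hv0]; simp
  · apply hv ((ψ i)⁻¹ * φ i)
    rw [← hb, mul_smul, ← heq, smul_smul, inv_mul_cancel₀ hψi, one_smul]

end Cfsg.Agent.Lib.Helper77.Asch
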