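import Cfsg.Agent.Lib.Helper77.Asch.PR0

set_option autoImplicit false

namespace Cfsg.Agent.Lib.Helper77.Asch

open Cfsg Cfsg.Geo
open scoped MatrixGroups Matrix

variable {n : ℕ} {F : Type*} [Field F]

theorem not_le_quadSim (h3 : 3 ≤ n) (Q : (Fin n → F) → F) (hQ : IsNondegenerateQuadraticForm Q) :
    ¬ specialLinear (Fin n) F ≤ quadSimilarityGroup Q := by
  intro hle
  obtain ⟨u, hu0⟩ : ∃ u : Fin n → F, u ≠ 0 := by
    refine ⟨fun _ => 1, ?_⟩
    intro h
    have := congrFun h ⟨0, by omega⟩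
    simp at this
  obtain ⟨-, w, hw⟩ := hQ.nondegenerate u hu0
  obtain ⟨f, z, hfz, hfu, hfw⟩ := pr0_dual2 h3 u w
  obtain ⟨g, hg, hgv⟩ := pr0_trv' u f hfu
  obtain ⟨c, hc⟩ := hle hg
  have hpol : ∀ a b, QuadraticMap.polar Q ((g : Matrix (Fin n) (Fin n) F) *ᵥ a)
      ((g : Matrix (Fin n) (Fin n) F) *ᵥ b) = c * QuadraticMap.polar Q a b := by
    intro a b
    simp only [QuadraticMap.polar]
    rw [← Matrix.mulVec_add, hc, hc, hc]
    ring
  have h1 := hpol u w
  rw [hgv, hgv, hfu, hfw, zero_smul, add_zero, add_zero] at h1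
  have hc1 : (c : F) = 1 := by
    have : ((c : F) - 1) * QuadraticMap.polar Q u w = 0 := by
      rw [sub_mul, ← h1]; ring
    rcases mul_eq_zero.1 this with h | h
    · exact sub_eq_zero.1 h
    · exact absurd h hw
  have h2 := hpol z w
  rw [hgv, hgv, hfz, hfw, zero_smul, add_zero, one_smul, hc1, one_mul,
    hQ.polar_bilinear.add_left] at h2
  exact hw (by simpa using h2)

end Cfsg.Agent.Lib.Helper77.Asch
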