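import Cfsg.Agent.Lib.Helper77.Asch.PR0

set_option autoImplicit false

namespace Cfsg.Agent.Lib.Helper77.Asch

open Cfsg Cfsg.Geo
open scoped MatrixGroups Matrix

variable {n : ℕ} {F : Type*} [Field F]

theorem not_le_unitarySim (h3 : 3 ≤ n) (σ : F ≃+* F) (f : (Fin n → F) → (Fin n → F) → F)
    (hf : IsUnitaryForm σ f) : ¬ specialLinear (Fin n) F ≤ similarityGroup f := by
  intro hle
  obtain ⟨u, hu0⟩ : ∃ u : Fin n → F, u ≠ 0 := by
    refine ⟨fun _ => 1, ?_⟩
    intro h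
    have := congrFun h ⟨0, by omega⟩
    simp at this
  obtain ⟨-, w, hw⟩ := hf.nondegenerate u hu0
  obtain ⟨φ, z, hfz, hfu, hfw⟩ := pr0_dual2 h3 u w
  obtain ⟨g, hg, hgv⟩ := pr0_trv' u φ hfu
  obtain ⟨c, hc⟩ := hle hg
  have h1 := hc u w
  rw [hgv, hgv, hfu, hfw, zero_smul, add_zero, add_zero] at h1
  have hc1 : (c : F) = 1 := by
    have : ((c : F) - 1) * f u w = 0 := by
      rw [sub_mul, ← h1]; ring
    rcases mul_eq_zero.1 this with h | h
    · exact sub_eq_zero.1 h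
    · exact absurd h hw
  have h2 := hc z w
  rw [hgv, hgv, hfz, hfw, zero_smul, add_zero, one_smul, hc1, one_mul, hf.add_left] at h2
  exact hw (by simpa using h2)

end Cfsg.Agent.Lib.Helper77.Asch
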