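import Cfsg.Agent.Lib.Helper77.Asch.Defs

set_option autoImplicit false

namespace Cfsg.Agent.Lib.Helper77.Asch

open Cfsg Cfsg.Geo
open scoped MatrixGroups Matrix

variable {n : ℕ} {F : Type*} [Field F]

/-- A decomposition into lines comes from a basis. -/
theorem sq2_basis (D : Fin n → Submodule F (Fin n → F)) (hD : IsMDecomposition 1 D) :
    ∃ b : Module.Basis (Fin n) F (Fin n → F), ∀ i, D i = Submodule.span F {b i} := by
  have h1 : ∀ i, ∃ v : Fin n → F, v ≠ 0 ∧ D i = Submodule.span F {v} := by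
    intro i
    obtain ⟨v, hv0, hv⟩ := finrank_eq_one_iff'.mp (hD.finrank_eq i)
    refine ⟨v, fun h => hv0 (Subtype.ext h), le_antisymm ?_ ?_⟩
    · intro w hw
      obtain ⟨c, hc⟩ := hv ⟨w, hw⟩
      rw [Submodule.mem_span_singleton]
      exact ⟨c, congrArg Subtype.val hc⟩
    · rw [Submodule.span_singleton_le_iff_mem]
      exact v.2
  choose v hv0 hv using h1
  have hli : LinearIndependent F v :=
    hD.indep.linearIndependent D (fun i => by rw [hv i]; exact Submodule.mem_span_singleton_self _) hv0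
  have hsp : ⊤ ≤ Submodule.span F (Set.range v) := by
    rw [Submodule.span_range_eq_iSup, ← hD.iSup_eq_top]
    exact le_of_eq (iSup_congr hv)
  refine ⟨Module.Basis.mk hli hsp, fun i => ?_⟩
  rw [Module.Basis.mk_apply, hv i]

/-- An element of the stabiliser is monomial in that basis. -/
theorem sq2_monomial (D : Fin n → Submodule F (Fin n → F))
    (b : Module.Basis (Fin n) F (Fin n → F)) (hb : ∀ i, D i = Submodule.span F {b i})
    (g : GL (Fin n) F) (hg : g ∈ decompositionStabilizer D) :
    ∃ (σ : Equiv.Perm (Fin n)) (c : Fin n → F), (∀ i, c i ≠ 0) ∧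
      ∀ i, (g : Matrix (Fin n) (Fin n) F) *ᵥ b i = c i • b (σ i) := by
  obtain ⟨σ, hσ⟩ := hg
  have h1 : ∀ i, ∃ c : F, c • b (σ i) = (g : Matrix (Fin n) (Fin n) F) *ᵥ b i := by
    intro i
    rw [← Submodule.mem_span_singleton, ← hb, ← hσ i, ← Matrix.toLin'_apply]
    apply Submodule.mem_map_of_mem
    rw [hb]
    exact Submodule.mem_span_singleton_self _
  choose c hc using h1
  refine ⟨σ, c, fun i h0 => ?_, fun i => (hc i).symm⟩
  have h2 := hc i
  rw [h0, zero_smul] at h2
  have h3 : ((g⁻¹ : GL (Fin n) F) : Matrix (Fin n) (Fin n) F) *ᵥ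
      ((g : Matrix (Fin n) (Fin n) F) *ᵥ b i) = b i := by
    rw [Matrix.mulVec_mulVec, ← Units.val_mul, inv_mul_cancel, Units.val_one, Matrix.one_mulVec]
  rw [← h2, Matrix.mulVec_zero] at h3
  exact b.ne_zero i h3.symm

/-- Coordinates of the image under a monomial element. -/
theorem sq2_repr (b : Module.Basis (Fin n) F (Fin n → F)) (g : GL (Fin n) F)
    (σ : Equiv.Perm (Fin n)) (c : Fin n → F)
    (h : ∀ i, (g : Matrix (Fin n) (Fin n) F) *ᵥ b i = c i • b (σ i)) (v : Fin n → F) (i : Fin n) :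
    b.repr ((g : Matrix (Fin n) (Fin n) F) *ᵥ v) (σ i) = c i * b.repr v i := by
  have h1 : (g : Matrix (Fin n) (Fin n) F) *ᵥ v = ∑ j, (b.repr v j * c j) • b (σ j) := by
    conv_lhs => rw [← b.sum_repr v]
    rw [← Matrix.toLin'_apply, map_sum]
    refine Finset.sum_congr rfl fun j _ => ?_
    rw [map_smul, Matrix.toLin'_apply, h j, smul_smul]
  rw [h1, map_sum, Finsupp.coe_finsetSum, Finset.sum_apply, Finset.sum_eq_single i]
  · rw [map_smul, Module.Basis.repr_self, Finsupp.smul_apply, Finsupp.single_eq_same, smul_eq_mul,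
      mul_one, mul_comm]
  · intro j _ hj
    rw [map_smul, Module.Basis.repr_self, Finsupp.smul_apply,
      Finsupp.single_eq_of_ne (fun h => hj (σ.injective h.symm)), smul_zero]
  · intro h
    exact absurd (Finset.mem_univ i) h

/-- SQ2. -/
theorem decomp_two [Fintype F] (h2 : 2 ≤ n) (hq : Fintype.card F = 2) (D : Fin n → Submodule F (Fin n → F))
    (hD : IsMDecomposition 1 D) :
    ∃ W : Submodule F (Fin n → F), W ≠ ⊥ ∧ W ≠ ⊤ ∧ decompositionStabilizer D ≤ subspaceStabilizer W := by
  obtain ⟨b, hb⟩ := sq2_basis D hD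
  have hF : ∀ a : F, a ≠ 0 → a = 1 := by
    classical
    intro a ha
    by_contra h1
    have : 3 ≤ Fintype.card F := by
      have h3 : ({0, 1, a} : Finset F).card = 3 := by
        rw [Finset.card_insert_of_notMem, Finset.card_insert_of_notMem, Finset.card_singleton]
        · simpa using Ne.symm h1
        · simp only [Finset.mem_insert, Finset.mem_singleton, not_or]
          exact ⟨zero_ne_one, Ne.symm ha⟩
      rw [← h3]
      exact Finset.card_le_univ _
    omega
  set s : Fin n → F := ∑ i, b i with hs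
  have hfix : ∀ g ∈ decompositionStabilizer D, (g : Matrix (Fin n) (Fin n) F) *ᵥ s = s := by
    intro g hg
    obtain ⟨σ, c, hc0, hc⟩ := sq2_monomial D b hb g hg
    rw [hs, ← Matrix.toLin'_apply, map_sum]
    rw [← Equiv.sum_comp σ (fun i => b i)]
    refine Finset.sum_congr rfl fun i _ => ?_
    rw [Matrix.toLin'_apply, hc i, hF _ (hc0 i), one_smul]
  have hrep : ∀ i, b.repr s i = 1 := by
    intro i
    rw [hs, map_sum, Finsupp.coe_finsetSum, Finset.sum_apply, Finset.sum_eq_single i]
    · rw [Module.Basis.repr_self, Finsupp.single_eq_same]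
    · intro j _ hj
      rw [Module.Basis.repr_self, Finsupp.single_eq_of_ne (fun h => hj h.symm)]
    · intro h
      exact absurd (Finset.mem_univ i) h
  have hs0 : s ≠ 0 := by
    intro h0
    have := hrep ⟨0, by omega⟩
    rw [h0, map_zero, Finsupp.zero_apply] at this
    exact zero_ne_one this
  have hinv : ∀ g ∈ decompositionStabilizer D, ∀ v ∈ Submodule.span F {s},
      (g : Matrix (Fin n) (Fin n) F) *ᵥ v ∈ Submodule.span F {s} := by
    intro g hg v hv
    obtain ⟨a, rfl⟩ := Submodule.mem_span_singleton.mp hv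
    rw [Matrix.mulVec_smul, hfix g hg]
    exact Submodule.smul_mem _ _ (Submodule.mem_span_singleton_self _)
  refine ⟨Submodule.span F {s}, ?_, ?_, fun g hg v => ⟨fun hv => hinv g hg v hv, fun hv => ?_⟩⟩
  · rw [Ne, Submodule.span_singleton_eq_bot]
    exact hs0
  · intro htop
    have h1 : Module.finrank F (Submodule.span F {s}) = 1 := finrank_span_singleton hs0
    rw [htop, finrank_top, Module.finrank_fin_fun] at h1
    omega
  · have h1 := hinv g⁻¹ (Subgroup.inv_mem _ hg) _ hv
    change ((g⁻¹ : GL (Fin n) F) : Matrix (Fin n) (Fin n) F) *ᵥ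
      ((g : Matrix (Fin n) (Fin n) F) *ᵥ v) ∈ _ at h1
    rw [Matrix.mulVec_mulVec, ← Units.val_mul, inv_mul_cancel, Units.val_one,
      Matrix.one_mulVec] at h1
    exact h1

end Cfsg.Agent.Lib.Helper77.Asch
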