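import Cfsg.Agent.Lib.Helper77.Asch.SQ2

set_option autoImplicit false

namespace Cfsg.Agent.Lib.Helper77.Asch

open Cfsg Cfsg.Geo
open scoped MatrixGroups Matrix

variable {n : ℕ} {F : Type*} [Field F]

/-- SQ3. -/
theorem decomp_three [Fintype F] (hq : Fintype.card F = 3) (D : Fin n → Submodule F (Fin n → F))
    (hD : IsMDecomposition 1 D) :
    ∃ Q : (Fin n → F) → F, IsNondegenerateQuadraticForm Q ∧ decompositionStabilizer D ≤ quadSimilarityGroup Q := by
  obtain ⟨b, hb⟩ := sq2_basis D hD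
  have h3 : (3 : F) = 0 := by
    have := Nat.cast_card_eq_zero F
    rw [hq] at this
    exact_mod_cast this
  have h2 : (2 : F) ≠ 0 := by
    intro h
    have : (1 : F) = 3 - 2 := by norm_num
    rw [h3, h, sub_zero] at this
    exact one_ne_zero this
  have hsq : ∀ a : F, a ≠ 0 → a ^ 2 = 1 := by
    intro a ha
    have := FiniteField.pow_card_sub_one_eq_one a ha
    rwa [hq] at this
  have hpol : ∀ u v, QuadraticMap.polar (fun v : Fin n → F => ∑ i, (b.repr v i) ^ 2) u v
      = 2 * ∑ i, b.repr u i * b.repr v i := by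
    intro u v
    unfold QuadraticMap.polar
    rw [Finset.mul_sum, ← Finset.sum_sub_distrib, ← Finset.sum_sub_distrib]
    refine Finset.sum_congr rfl fun i _ => ?_
    rw [map_add, Finsupp.add_apply]
    ring
  refine ⟨fun v => ∑ i, (b.repr v i) ^ 2, ⟨?_, ⟨?_, ?_, ?_, ?_⟩, ?_⟩, ?_⟩
  · intro c v
    change ∑ i, (b.repr (c • v) i) ^ 2 = c ^ 2 * ∑ i, (b.repr v i) ^ 2
    rw [Finset.mul_sum]
    refine Finset.sum_congr rfl fun i _ => ?_
    rw [map_smul, Finsupp.smul_apply, smul_eq_mul, mul_pow]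
  · intro x y v
    rw [hpol, hpol, hpol, ← mul_add, ← Finset.sum_add_distrib]
    congr 1
    refine Finset.sum_congr rfl fun i _ => ?_
    rw [map_add, Finsupp.add_apply, add_mul]
  · intro c x v
    rw [hpol, hpol, mul_left_comm]
    congr 1
    rw [Finset.mul_sum]
    refine Finset.sum_congr rfl fun i _ => ?_
    rw [map_smul, Finsupp.smul_apply, smul_eq_mul, mul_assoc]
  · intro v x y
    rw [hpol, hpol, hpol, ← mul_add, ← Finset.sum_add_distrib]
    congr 1
    refine Finset.sum_congr rfl fun i _ => ?_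
    rw [map_add, Finsupp.add_apply, mul_add]
  · intro c v x
    rw [hpol, hpol, mul_left_comm]
    congr 1
    rw [Finset.mul_sum]
    refine Finset.sum_congr rfl fun i _ => ?_
    rw [map_smul, Finsupp.smul_apply, smul_eq_mul, mul_left_comm]
  · intro v hv
    have hex : ∃ i, b.repr v i ≠ 0 := by
      by_contra hcon
      push Not at hcon
      apply hv
      rw [← b.sum_repr v]
      exact Finset.sum_eq_zero fun i _ => by rw [hcon i, zero_smul]
    obtain ⟨i, hi⟩ := hex
    have hs1 : ∑ j, b.repr (b i) j * b.repr v j = b.repr v i := by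
      rw [Finset.sum_eq_single i]
      · rw [Module.Basis.repr_self, Finsupp.single_eq_same, one_mul]
      · intro j _ hj
        rw [Module.Basis.repr_self, Finsupp.single_eq_of_ne (fun h => hj h), zero_mul]
      · intro h
        exact absurd (Finset.mem_univ i) h
    refine ⟨⟨b i, ?_⟩, ⟨b i, ?_⟩⟩
    · rw [hpol, hs1]
      exact mul_ne_zero h2 hi
    · rw [hpol, Finset.sum_congr rfl (fun j _ => mul_comm (b.repr v j) (b.repr (b i) j)), hs1]
      exact mul_ne_zero h2 hi
  · intro g hg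
    obtain ⟨σ, c, hc0, hc⟩ := sq2_monomial D b hb g hg
    refine ⟨1, fun v => ?_⟩
    change ∑ i, (b.repr ((g : Matrix (Fin n) (Fin n) F) *ᵥ v) i) ^ 2 = ((1 : Fˣ) : F) * ∑ i, (b.repr v i) ^ 2
    rw [Units.val_one, one_mul,
      ← Equiv.sum_comp σ (fun i => (b.repr ((g : Matrix (Fin n) (Fin n) F) *ᵥ v) i) ^ 2)]
    refine Finset.sum_congr rfl fun i _ => ?_
    rw [sq2_repr b g σ c hc v i, mul_pow, hsq _ (hc0 i), one_mul]

end Cfsg.Agent.Lib.Helper77.Asch
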