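import Cfsg.Agent.Lib.Helper77.Asch.SQ2

set_option autoImplicit false

namespace Cfsg.Agent.Lib.Helper77.Asch

open Cfsg Cfsg.Geo
open scoped MatrixGroups Matrix

variable {n : ℕ} {F : Type*} [Field F]

/-- SQ4. -/
theorem decomp_four [Fintype F] (hq : Fintype.card F = 4) (D : Fin n → Submodule F (Fin n → F))
    (hD : IsMDecomposition 1 D) :
    ∃ (σ : F ≃+* F) (f : (Fin n → F) → (Fin n → F) → F), IsUnitaryForm σ f ∧
      decompositionStabilizer D ≤ similarityGroup f := by
  classical
  obtain ⟨b, hb⟩ := sq2_basis D hD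
  have h2 : (2 : F) = 0 := by
    have h4 : ((4 : ℕ) : F) = 0 := hq ▸ Nat.cast_card_eq_zero F
    have h22 : (2 : F) * 2 = 0 := by
      have : ((4 : ℕ) : F) = 2 * 2 := by norm_num
      rw [← this, h4]
    exact mul_self_eq_zero.1 h22
  have hp4 : ∀ a : F, a ^ 4 = a := fun a => hq ▸ FiniteField.pow_card a
  let σ : F ≃+* F :=
    { toFun := fun a => a ^ 2
      invFun := fun a => a ^ 2
      left_inv := fun a => by
        change (a ^ 2) ^ 2 = a
        rw [← pow_mul]; exact hp4 a
      right_inv := fun a => by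
        change (a ^ 2) ^ 2 = a
        rw [← pow_mul]; exact hp4 a
      map_mul' := fun a c => mul_pow a c 2
      map_add' := fun a c => by
        have : (a + c) ^ 2 = a ^ 2 + c ^ 2 + 2 * (a * c) := by ring
        rw [this, h2, zero_mul, add_zero] }
  have hσ : ∀ a, σ a = a ^ 2 := fun a => rfl
  have hσσ : ∀ a, σ (σ a) = a := fun a => by
    rw [hσ, hσ, ← pow_mul]; exact hp4 a
  have hne : σ ≠ RingEquiv.refl F := by
    intro h
    have h1 : ∀ a : F, a ^ 2 = a := fun a => by
      rw [← hσ, h]; rfl
    have h3 : (Finset.univ : Finset F) ⊆ {0, 1} := by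
      intro a _
      have : a * (a - 1) = 0 := by
        have := h1 a
        ring_nf
        rw [this]; ring
      rcases mul_eq_zero.1 this with h | h
      · simp [h]
      · simp [sub_eq_zero.1 h]
    have := Finset.card_le_card h3
    have h5 : ({0, 1} : Finset F).card ≤ 2 := Finset.card_le_two
    rw [Finset.card_univ, hq] at this
    omega
  refine ⟨σ, fun u v => ∑ i, b.repr u i * σ (b.repr v i), ⟨hne, hσσ, ?_, ?_, ?_, ?_⟩, ?_⟩
  · intro x y v
    simp only [map_add, Finsupp.add_apply, add_mul, Finset.sum_add_distrib]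
  · intro c x v
    simp only [map_smul, Finsupp.smul_apply, smul_eq_mul, Finset.mul_sum, mul_assoc]
  · intro v w
    rw [map_sum]
    refine Finset.sum_congr rfl fun i _ => ?_
    rw [map_mul, hσσ, mul_comm]
  · intro v hv
    have : ∃ i, b.repr v i ≠ 0 := by
      by_contra hcon
      push Not at hcon
      apply hv
      apply b.repr.injective
      ext i
      simpa using hcon i
    obtain ⟨i, hi⟩ := this
    constructor
    · refine ⟨b i, ?_⟩
      beta_reduce
      rw [Finset.sum_eq_single i]
      · rw [Module.Basis.repr_self, Finsupp.single_eq_same, one_mul, hσ]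
        exact pow_ne_zero 2 hi
      · intro j _ hj
        rw [Module.Basis.repr_self, Finsupp.single_eq_of_ne hj, zero_mul]
      · intro h; exact absurd (Finset.mem_univ i) h
    · refine ⟨b i, ?_⟩
      beta_reduce
      rw [Finset.sum_eq_single i]
      · rw [Module.Basis.repr_self, Finsupp.single_eq_same, map_one, mul_one]
        exact hi
      · intro j _ hj
        rw [Module.Basis.repr_self, Finsupp.single_eq_of_ne hj, map_zero, mul_zero]
      · intro h; exact absurd (Finset.mem_univ i) h
  · intro g hg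
    obtain ⟨τ, c, hc0, hc⟩ := sq2_monomial D b hb g hg
    refine ⟨1, fun u v => ?_⟩
    rw [Units.val_one, one_mul]
    change ∑ i, b.repr ((g : Matrix (Fin n) (Fin n) F) *ᵥ u) i *
      σ (b.repr ((g : Matrix (Fin n) (Fin n) F) *ᵥ v) i) = ∑ i, b.repr u i * σ (b.repr v i)
    rw [← Equiv.sum_comp τ]
    refine Finset.sum_congr rfl fun i _ => ?_
    rw [sq2_repr b g τ c hc, sq2_repr b g τ c hc, map_mul, hσ (c i)]
    have h3 : c i ^ 3 = 1 := by
      have := hp4 (c i)
      have h4 : c i * (c i ^ 3 - 1) = 0 := by ring_nf; rw [this]; ring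
      rcases mul_eq_zero.1 h4 with h | h
      · exact absurd h (hc0 i)
      · exact sub_eq_zero.1 h
    calc c i * b.repr u i * (c i ^ 2 * σ (b.repr v i))
        = c i ^ 3 * (b.repr u i * σ (b.repr v i)) := by ring
      _ = _ := by rw [h3, one_mul]

end Cfsg.Agent.Lib.Helper77.Asch
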