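import Cfsg.Agent.Lib.Helper77.Asch.Main
import Cfsg.Agent.Lib.Helper77.Asch.PR1
import Cfsg.Agent.Lib.Helper77.Asch.PR2
import Cfsg.Agent.Lib.Helper77.Asch.PR3
import Cfsg.Agent.Lib.Helper77.Asch.PR4
import Cfsg.Agent.Lib.Helper77.Asch.PR5
import Cfsg.Agent.Lib.Helper77.Asch.PR6
import Cfsg.Agent.Lib.Helper77.Asch.PR7
import Cfsg.Agent.Lib.Helper77.Asch.SQ2
import Cfsg.Agent.Lib.Helper77.Asch.SQ3
import Cfsg.Agent.Lib.Helper77.Asch.SQ4
import Cfsg.Agent.Lib.Helper77.Asch.AR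

set_option autoImplicit false

namespace Cfsg.Agent.Lib.Helper77.Asch

open Cfsg Cfsg.Geo
open scoped MatrixGroups Matrix

variable {n : ℕ} {F : Type*} [Field F]

theorem eq_of_le {H M : Subgroup (GL (Fin n) F)} (hH : IsMaximalIn (specialLinear (Fin n) F) H)
    (hle : H ≤ M) (hnot : ¬ specialLinear (Fin n) F ≤ M) : H = M ⊓ specialLinear (Fin n) F := by
  rcases hH.2 (M ⊓ specialLinear (Fin n) F) (le_inf hle hH.1.le) inf_le_right with h | h
  · exact h.symm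
  · exact absurd (h ▸ inf_le_left) hnot

theorem subfield_ne_top [Fintype F] (F₀ : Subfield F) (r : ℕ) (hr : r.Prime)
    (h : Fintype.card F = Nat.card F₀ ^ r) : F₀ ≠ ⊤ := by
  rintro rfl
  have h1 : Nat.card (⊤ : Subfield F) = Fintype.card F := by
    rw [← Nat.card_eq_fintype_card]
    exact Nat.card_congr Subfield.topEquiv.toEquiv
  rw [h1] at h
  have h2 : 1 < Fintype.card F := Fintype.one_lt_card
  have h3 : Fintype.card F ^ 1 < Fintype.card F ^ r := Nat.pow_lt_pow_right h2 hr.one_lt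
  rw [pow_one, ← h] at h3
  exact lt_irrefl _ h3

theorem c6_data [Fintype F] (hn2 : n ≠ 2) (R : Subgroup (GL (Fin n) F))
    (h : IsLinearSymplecticTypeData n R) :
    ∃ p e : ℕ, p.Prime ∧ n ≠ p ∧ CharP F p ∧ Fintype.card F = p ^ e ∧ Odd e ∧ e ∣ n - 1 ∧
      orderOf (p : ZMod n) = e := by
  obtain ⟨p, e, hnp, ⟨hp, hch, hcard, hdvd, hmin⟩, hcase⟩ := h.field
  rcases hcase with ⟨-, he, hz, -⟩ | ⟨h2, -⟩ | ⟨h2, -⟩
  · rw [hz] at hdvd hmin
    obtain ⟨h1, h2⟩ := c6_arith n p e h.symplecticType.prime hp he hdvd hmin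
    exact ⟨p, e, hp, hnp, hch, hcard, he, h1, h2⟩
  · exact absurd h2 hn2
  · exact absurd h2 hn2

theorem maximal_cases [Fintype F] (hn : n.Prime) (h2 : n ≠ 2) (H : Subgroup (GL (Fin n) F))
    (hH : IsMaximalIn (specialLinear (Fin n) F) H) :
    (∃ W : Submodule F (Fin n → F), W ≠ ⊥ ∧ W ≠ ⊤ ∧ H = subspaceStabilizer W ⊓ specialLinear (Fin n) F) ∨
    (5 ≤ Fintype.card F ∧ ∃ D : Fin n → Submodule F (Fin n → F), IsMDecomposition 1 D ∧
      H = decompositionStabilizer D ⊓ specialLinear (Fin n) F) ∨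
    (∃ K : Subalgebra F (Matrix (Fin n) (Fin n) F), IsFieldSubalgebra n K ∧
      H = subalgebraNormalizer K ⊓ specialLinear (Fin n) F) ∨
    (∃ (F₀ : Subfield F) (r : ℕ) (P : GL (Fin n) F), r.Prime ∧ Fintype.card F = Nat.card F₀ ^ r ∧
      H = subfieldSubgroup F₀ P ⊓ specialLinear (Fin n) F) ∨
    (∃ R : Subgroup (GL (Fin n) F), IsLinearSymplecticTypeData n R ∧
      H = subgroupNormalizer R ⊓ specialLinear (Fin n) F) ∨
    (Odd (Fintype.card F) ∧ ∃ Q : (Fin n → F) → F, IsNondegenerateQuadraticForm Q ∧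
      H = quadSimilarityGroup Q ⊓ specialLinear (Fin n) F) ∨
    (∃ (σ : F ≃+* F) (f : (Fin n → F) → (Fin n → F) → F), IsUnitaryForm σ f ∧
      H = similarityGroup f ⊓ specialLinear (Fin n) F) ∨
    InLinearResidualClass H := by
  have h3 : 3 ≤ n := by
    have := hn.two_le
    omega
  have caseW : ∀ W : Submodule F (Fin n → F), W ≠ ⊥ → W ≠ ⊤ → H ≤ subspaceStabilizer W →
      ∃ W : Submodule F (Fin n → F), W ≠ ⊥ ∧ W ≠ ⊤ ∧ H = subspaceStabilizer W ⊓ specialLinear (Fin n) F :=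
    fun W h0 h1 hle => ⟨W, h0, h1, eq_of_le hH hle (not_le_subspace W h0 h1)⟩
  have caseQ : ∀ Q : (Fin n → F) → F, IsNondegenerateQuadraticForm Q → H ≤ quadSimilarityGroup Q →
      ∃ Q : (Fin n → F) → F, IsNondegenerateQuadraticForm Q ∧
        H = quadSimilarityGroup Q ⊓ specialLinear (Fin n) F :=
    fun Q hQ hle => ⟨Q, hQ, eq_of_le hH hle (not_le_quadSim h3 Q hQ)⟩
  have caseU : ∀ (σ : F ≃+* F) (f : (Fin n → F) → (Fin n → F) → F), IsUnitaryForm σ f →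
      H ≤ similarityGroup f → ∃ (σ : F ≃+* F) (f : (Fin n → F) → (Fin n → F) → F), IsUnitaryForm σ f ∧
        H = similarityGroup f ⊓ specialLinear (Fin n) F :=
    fun σ f hf hle => ⟨σ, f, hf, eq_of_le hH hle (not_le_unitarySim h3 σ f hf)⟩
  rcases main hn h2 H with hgeo | hres
  swap
  · exact Or.inr (Or.inr (Or.inr (Or.inr (Or.inr (Or.inr (Or.inr hres))))))
  rcases hgeo with ⟨W, h0, h1, hle⟩ | ⟨D, hD, hle⟩ | ⟨K, hK, hle⟩ | ⟨F₀, r, P, hr, hc, hle⟩ | ⟨R, hR, hle⟩ |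
    ⟨ho, Q, hQ, hle⟩ | ⟨σ, f, hf, hle⟩
  · exact Or.inl (caseW W h0 h1 hle)
  · by_cases h5 : 5 ≤ Fintype.card F
    · exact Or.inr (Or.inl ⟨h5, D, hD, eq_of_le hH hle (not_le_decomp D hD)⟩)
    · have h1 : 1 < Fintype.card F := Fintype.one_lt_card
      have hq : Fintype.card F = 2 ∨ Fintype.card F = 3 ∨ Fintype.card F = 4 := by omega
      rcases hq with hq | hq | hq
      · obtain ⟨W, h0, h1, hW⟩ := decomp_two hn.two_le hq D hD
        exact Or.inl (caseW W h0 h1 (hle.trans hW))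
      · obtain ⟨Q, hQ, hle'⟩ := decomp_three hq D hD
        exact Or.inr (Or.inr (Or.inr (Or.inr (Or.inr (Or.inl ⟨by rw [hq]; decide,
          caseQ Q hQ (hle.trans hle')⟩)))))
      · obtain ⟨σ, f, hf, hle'⟩ := decomp_four hq D hD
        exact Or.inr (Or.inr (Or.inr (Or.inr (Or.inr (Or.inr (Or.inl (caseU σ f hf (hle.trans hle'))))))))
  · exact Or.inr (Or.inr (Or.inl ⟨K, hK, eq_of_le hH hle (not_le_fieldNormalizer h3 K hK)⟩))
  · exact Or.inr (Or.inr (Or.inr (Or.inl ⟨F₀, r, P, hr, hc,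
      eq_of_le hH hle (not_le_subfield hn.two_le F₀ (subfield_ne_top F₀ r hr hc) P)⟩)))
  · obtain ⟨p, e, hp, hnp, hch, -⟩ := c6_data h2 R hR
    have hns : ¬ R ≤ scalars (Fin n) F := fun h => not_irr_of_le_scalars hn.two_le R h hR.absIrred.1
    exact Or.inr (Or.inr (Or.inr (Or.inr (Or.inl ⟨R, hR,
      eq_of_le hH hle (not_le_normalizer h3 n p hp hn hnp R hR.symplecticType.pGroup hns)⟩))))
  · exact Or.inr (Or.inr (Or.inr (Or.inr (Or.inr (Or.inl ⟨ho, caseQ Q hQ hle⟩)))))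
  · exact Or.inr (Or.inr (Or.inr (Or.inr (Or.inr (Or.inr (Or.inl (caseU σ f hf hle)))))))

theorem mod_of_cast {l p r : ℕ} (h : (p : ZMod l) = (r : ZMod l)) (hr : r < l) : p % l = r := by
  have := (ZMod.natCast_eq_natCast_iff' p r l).1 h
  rwa [Nat.mod_eq_of_lt hr] at this

end Cfsg.Agent.Lib.Helper77.Asch
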