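import Cfsg.Agent.Lib.Helper77.Asch.Defs

set_option autoImplicit false

namespace Cfsg.Agent.Lib.Helper77.Asch

open Cfsg Cfsg.Geo
open scoped MatrixGroups Matrix

theorem ar_dvd_iff (l p d : ℕ) (hp : 0 < p) : l ∣ p ^ d - 1 ↔ ((p : ZMod l)) ^ d = 1 := by
  have h1 : 1 ≤ p ^ d := Nat.one_le_pow _ _ hp
  rw [← ZMod.natCast_eq_zero_iff, Nat.cast_sub h1, sub_eq_zero]
  push_cast
  rfl

/-- AR. -/
theorem c6_arith (l p e : ℕ) (hl : l.Prime) (hp : p.Prime) (he : Odd e) (h1 : l ∣ p ^ e - 1)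
    (h2 : ∀ d : ℕ, 0 < d → d < e → ¬ l ∣ p ^ d - 1) : e ∣ l - 1 ∧ orderOf (p : ZMod l) = e := by
  haveI : Fact l.Prime := ⟨hl⟩
  have he0 : 0 < e := he.pos
  have h3 : ((p : ZMod l)) ^ e = 1 := (ar_dvd_iff l p e hp.pos).1 h1
  have hord : orderOf (p : ZMod l) = e := by
    have hd : orderOf (p : ZMod l) ∣ e := orderOf_dvd_of_pow_eq_one h3
    have hpos : 0 < orderOf (p : ZMod l) := Nat.pos_of_dvd_of_pos hd he0
    by_contra hne
    have hlt : orderOf (p : ZMod l) < e := lt_of_le_of_ne (Nat.le_of_dvd he0 hd) hne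
    exact h2 _ hpos hlt ((ar_dvd_iff l p _ hp.pos).2 (pow_orderOf_eq_one _))
  refine ⟨?_, hord⟩
  rw [← hord]
  have hne : (p : ZMod l) ≠ 0 := by
    intro h0
    rw [h0, zero_pow he0.ne'] at h3
    exact zero_ne_one h3
  exact orderOf_dvd_of_pow_eq_one (ZMod.pow_card_sub_one_eq_one hne)

end Cfsg.Agent.Lib.Helper77.Asch
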