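import Cfsg.Agent.Lib.Helper77.Asch.HR

/-! Ladder ASCH, rung HU: the Heisenberg group fixes a unitary form when `σ w = w⁻¹`. -/

set_option autoImplicit false

namespace Cfsg.Agent.Lib.Helper77.Asch

open Cfsg Cfsg.Geo
open scoped MatrixGroups Matrix

variable {n : ℕ} {F : Type*} [Field F]

/-- the standard hermitian form -/
def huF (σ : F ≃+* F) (a b : Fin n → F) : F := ∑ i, a i * σ (b i)

/-- `M` preserves the standard hermitian form -/
def HuP (σ : F ≃+* F) (M : Matrix (Fin n) (Fin n) F) : Prop :=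
  ∀ a b, huF σ (M *ᵥ a) (M *ᵥ b) = huF σ a b

theorem hu_mul {σ : F ≃+* F} {M N : Matrix (Fin n) (Fin n) F} (hM : HuP σ M) (hN : HuP σ N) :
    HuP σ (M * N) := by
  intro a b
  rw [← Matrix.mulVec_mulVec, ← Matrix.mulVec_mulVec, hM, hN]

theorem hu_pow {σ : F ≃+* F} {M : Matrix (Fin n) (Fin n) F} (hM : HuP σ M) (k : ℕ) :
    HuP σ (M ^ k) := by
  induction k with
  | zero => intro a b; simp
  | succ k ih => rw [pow_succ]; exact hu_mul ih hM

theorem hu_diag {σ : F ≃+* F} (d : Fin n → F) (hd : ∀ i, d i * σ (d i) = 1) :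
    HuP σ (Matrix.diagonal d) := by
  intro a b
  unfold huF
  apply Finset.sum_congr rfl
  intro i _
  rw [Matrix.mulVec_diagonal, Matrix.mulVec_diagonal, map_mul]
  calc d i * a i * (σ (d i) * σ (b i)) = (d i * σ (d i)) * (a i * σ (b i)) := by ring
    _ = a i * σ (b i) := by rw [hd, one_mul]

theorem hu_shift_apply [NeZero n] (h2 : 2 ≤ n) (a : Fin n → F) (i : Fin n) :
    (shiftM n F *ᵥ a) (i + 1) = a i := by
  classical
  have hval : ∀ k : Fin n, ((k + 1 : Fin n) : ℕ) = ((k : ℕ) + 1) % n := by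
    intro k
    rw [Fin.val_add]
    congr 2
    rw [Fin.val_one', Nat.mod_eq_of_lt h2]
  show ∑ k, shiftM n F (i + 1) k * a k = a i
  rw [Finset.sum_eq_single i]
  · simp [shiftM, hval]
  · intro k _ hk
    have : ¬ (((i + 1 : Fin n) : ℕ) = ((k : ℕ) + 1) % n) := by
      rw [← hval k]
      intro h
      exact hk (add_right_cancel (Fin.ext h)).symm
    simp [shiftM, this]
  · intro h
    exact absurd (Finset.mem_univ _) h

theorem hu_shift (h2 : 2 ≤ n) (σ : F ≃+* F) : HuP σ (shiftM n F) := by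
  haveI : NeZero n := ⟨by omega⟩
  intro a b
  unfold huF
  rw [← Equiv.sum_comp (Equiv.addRight (1 : Fin n))]
  apply Finset.sum_congr rfl
  intro i _
  simp only [Equiv.coe_addRight]
  rw [hu_shift_apply h2, hu_shift_apply h2]

/-- HU -/
theorem heis_unitary (hn : n.Prime) (R : Subgroup (GL (Fin n) F)) (x y : GL (Fin n) F) (w : Fˣ)
    (h : Heis R x y w) (σ : F ≃+* F) (h1 : σ ≠ RingEquiv.refl F) (h2 : ∀ a, σ (σ a) = a)
    (h3 : σ (w : F) = (w : F)⁻¹) :
    ∃ f : (Fin n → F) → (Fin n → F) → F, IsUnitaryForm σ f ∧ FixesForm (matrixSet R) f := by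
  classical
  obtain ⟨B, hB⟩ := hr_conj hn R x y w h
  have hw0 : (w : F) ≠ 0 := w.ne_zero
  have hww : (w : F) * σ (w : F) = 1 := by rw [h3, mul_inv_cancel₀ hw0]
  have hBinv : ((B⁻¹ : GL (Fin n) F) : Matrix (Fin n) (Fin n) F) * (B : Matrix (Fin n) (Fin n) F) = 1 :=
    Units.inv_mul B
  have hBinv' : (B : Matrix (Fin n) (Fin n) F) * ((B⁻¹ : GL (Fin n) F) : Matrix (Fin n) (Fin n) F) = 1 :=
    Units.mul_inv B
  refine ⟨fun u v => huF σ ((B : Matrix (Fin n) (Fin n) F) *ᵥ u) ((B : Matrix (Fin n) (Fin n) F) *ᵥ v),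
    ⟨h1, h2, ?_, ?_, ?_, ?_⟩, ?_⟩
  · intro a b v
    simp only [huF, Matrix.mulVec_add, Pi.add_apply, add_mul, Finset.sum_add_distrib]
  · intro c a v
    simp only [huF, Matrix.mulVec_smul, Pi.smul_apply, smul_eq_mul, mul_assoc, Finset.mul_sum]
  · intro v u
    simp only [huF, map_sum, map_mul, h2]
    apply Finset.sum_congr rfl
    intro i _
    ring
  · intro v hv
    have hBv : (B : Matrix (Fin n) (Fin n) F) *ᵥ v ≠ 0 := by
      intro h0
      apply hv
      calc v = (1 : Matrix (Fin n) (Fin n) F) *ᵥ v := (Matrix.one_mulVec v).symm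
        _ = 0 := by rw [← hBinv, ← Matrix.mulVec_mulVec, h0, Matrix.mulVec_zero]
    obtain ⟨i, hi⟩ : ∃ i, ((B : Matrix (Fin n) (Fin n) F) *ᵥ v) i ≠ 0 := by
      by_contra hcon
      push Not at hcon
      exact hBv (funext hcon)
    have hx : (B : Matrix (Fin n) (Fin n) F) *ᵥ
        (((B⁻¹ : GL (Fin n) F) : Matrix (Fin n) (Fin n) F) *ᵥ (Pi.single i 1)) = Pi.single i 1 := by
      rw [Matrix.mulVec_mulVec, hBinv', Matrix.one_mulVec]
    refine ⟨⟨((B⁻¹ : GL (Fin n) F) : Matrix (Fin n) (Fin n) F) *ᵥ (Pi.single i 1), ?_⟩,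
      ⟨((B⁻¹ : GL (Fin n) F) : Matrix (Fin n) (Fin n) F) *ᵥ (Pi.single i 1), ?_⟩⟩
    · simp only [hx, huF]
      rw [Finset.sum_eq_single i]
      · simpa using hi
      · intro k _ hk
        simp [Pi.single_eq_of_ne hk]
      · intro h'
        exact absurd (Finset.mem_univ _) h'
    · simp only [hx, huF]
      rw [Finset.sum_eq_single i]
      · simpa using hi
      · intro k _ hk
        simp [Pi.single_eq_of_ne hk]
      · intro h'
        exact absurd (Finset.mem_univ _) h'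
  · rintro s ⟨g, hg, rfl⟩ u v
    obtain ⟨a, b, c, he⟩ := hB g hg
    have hP : HuP σ ((B : Matrix (Fin n) (Fin n) F) * (g : Matrix (Fin n) (Fin n) F) *
        ((B⁻¹ : GL (Fin n) F) : Matrix (Fin n) (Fin n) F)) := by
      rw [he]
      refine hu_mul (hu_pow ?_ c) (hu_mul (hu_pow ?_ a) (hu_pow (hu_shift hn.two_le σ) b))
      · rw [Matrix.smul_one_eq_diagonal]
        exact hu_diag _ fun _ => hww
      · apply hu_diag
        intro i
        rw [map_pow, ← mul_pow, hww, one_pow]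
    have key : ∀ t : Fin n → F, (B : Matrix (Fin n) (Fin n) F) *ᵥ ((g : Matrix (Fin n) (Fin n) F) *ᵥ t) =
        ((B : Matrix (Fin n) (Fin n) F) * (g : Matrix (Fin n) (Fin n) F) *
        ((B⁻¹ : GL (Fin n) F) : Matrix (Fin n) (Fin n) F)) *ᵥ ((B : Matrix (Fin n) (Fin n) F) *ᵥ t) := by
      intro t
      rw [Matrix.mulVec_mulVec, Matrix.mulVec_mulVec, mul_assoc _ _ (B : Matrix (Fin n) (Fin n) F), hBinv,
        mul_one]
    simp only
    rw [key, key, hP]

end Cfsg.Agent.Lib.Helper77.Asch
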