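import Cfsg.Agent.Lib.Helper77.Asch.SP34B

set_option autoImplicit false
set_option linter.style.haveILetI false

namespace Cfsg.Agent.Lib.Helper77.Asch

open Cfsg Cfsg.Geo
open scoped MatrixGroups Matrix

variable {F : Type*} [Field F] {L : Type*} [Field L] [Algebra F L]

theorem sp34_theta7 (h2 : (2 : L) = 0) (θ : L) (hθ : θ ^ 3 = θ + 1) : θ ^ 7 = 1 := by
  linear_combination (θ * (θ ^ 3 + θ + 1) + 1) * hθ + (θ ^ 2 + θ) * h2

theorem sp34_conj_pow (g : GL (Fin 3) F) (X : Matrix (Fin 3) (Fin 3) F) (j : ℕ) :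
    ((g : Matrix (Fin 3) (Fin 3) F) * X * ((g⁻¹ : GL (Fin 3) F) : Matrix (Fin 3) (Fin 3) F)) ^ j =
      (g : Matrix (Fin 3) (Fin 3) F) * X ^ j * ((g⁻¹ : GL (Fin 3) F) : Matrix (Fin 3) (Fin 3) F) := by
  induction j with
  | zero => simp
  | succ j ih =>
    rw [pow_succ, ih, pow_succ]
    have h : ((g⁻¹ : GL (Fin 3) F) : Matrix (Fin 3) (Fin 3) F) * (g : Matrix (Fin 3) (Fin 3) F) = 1 := by
      rw [← Units.val_mul]; simp
    calc (g : Matrix (Fin 3) (Fin 3) F) * X ^ j * ((g⁻¹ : GL (Fin 3) F) : Matrix (Fin 3) (Fin 3) F) *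
          ((g : Matrix (Fin 3) (Fin 3) F) * X * ((g⁻¹ : GL (Fin 3) F) : Matrix (Fin 3) (Fin 3) F))
        = (g : Matrix (Fin 3) (Fin 3) F) * X ^ j * (((g⁻¹ : GL (Fin 3) F) : Matrix (Fin 3) (Fin 3) F) *
          (g : Matrix (Fin 3) (Fin 3) F)) * X * ((g⁻¹ : GL (Fin 3) F) : Matrix (Fin 3) (Fin 3) F) := by
            simp only [mul_assoc]
      _ = _ := by rw [h, mul_one]; simp only [mul_assoc]

/-- the determinant is not identically `1` on the nonzero elements. -/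
theorem sp34_det_ne [Fintype F] (hq : Fintype.card F = 4) (φ : L →ₐ[F] Matrix (Fin 3) (Fin 3) F)
    (θ : L) (hθ : θ ^ 3 = θ + 1) : ∃ x : L, x ≠ 0 ∧ (φ x).det ≠ 1 := by
  classical
  by_contra hcon
  push Not at hcon
  have heval : ∀ t ∈ (Finset.univ : Finset F), ((φ θ).charpoly - 1).eval t = 0 := by
    intro t _
    rw [Polynomial.eval_sub, Polynomial.eval_one, Matrix.eval_charpoly]
    have h1 : algebraMap F L t - θ ≠ 0 := fun h => sp34_not_mem hq θ hθ t (sub_eq_zero.1 h).symm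
    have h2 := hcon _ h1
    rw [map_sub, AlgHom.commutes] at h2
    have h3 : Matrix.scalar (Fin 3) t = algebraMap F (Matrix (Fin 3) (Fin 3) F) t := rfl
    rw [h3, h2, sub_self]
  have hdeg : ((φ θ).charpoly - 1).natDegree < (Finset.univ : Finset F).card := by
    rw [Finset.card_univ, hq]
    have h1 : ((φ θ).charpoly - 1).natDegree ≤ 3 := by
      refine (Polynomial.natDegree_sub_le _ _).trans ?_
      rw [Matrix.charpoly_natDegree_eq_dim]
      simp
    omega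
  have h0 := Polynomial.eq_zero_of_natDegree_lt_card_of_eval_eq_zero' _ _ heval hdeg
  have h1 : (φ θ).charpoly = 1 := sub_eq_zero.1 h0
  have h2 := Matrix.charpoly_natDegree_eq_dim (φ θ)
  rw [h1] at h2
  simp at h2

theorem sp34_core [Fintype F] (hq : Fintype.card F = 4) (hfin : Module.finrank F L = 3)
    (φ : L →ₐ[F] Matrix (Fin 3) (Fin 3) F) :
    ∃ (F₀ : Subfield F) (r : ℕ) (P : GL (Fin 3) F), r.Prime ∧ Fintype.card F = Nat.card F₀ ^ r ∧
      ∀ g : GL (Fin 3) F,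
        (∀ k : L, ∃ k' : L, (g : Matrix (Fin 3) (Fin 3) F) * φ k *
          ((g⁻¹ : GL (Fin 3) F) : Matrix (Fin 3) (Fin 3) F) = φ k') →
        (g : Matrix (Fin 3) (Fin 3) F).det = 1 → g ∈ subfieldSubgroup F₀ P := by
  classical
  have h2F := sp34_two_eq_zero hq
  have h2L : (2 : L) = 0 := by
    have := congrArg (algebraMap F L) h2F
    rw [map_zero, map_ofNat] at this
    exact this
  haveI : CharP F 2 := CharTwo.of_one_ne_zero_of_two_eq_zero one_ne_zero h2F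
  haveI : FiniteDimensional F L := Module.finite_of_finrank_pos (by omega)
  haveI : Finite L := Module.finite_of_finite F
  haveI : Fintype L := Fintype.ofFinite L
  have hcardL : Fintype.card L = 64 := by
    rw [Module.card_eq_pow_finrank (K := F) (V := L), hq, hfin]; norm_num
  have hφinj : Function.Injective φ := φ.toRingHom.injective
  obtain ⟨θu, hθ, hroots⟩ := sp34_theta hcardL h2L
  set θ : L := (θu : L) with hθdef
  obtain ⟨P, hP⟩ := sp34P_isUnit hq φ θ hθ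
  set F₀ : Subfield F := (frobenius F 2).eqLocusField (RingHom.id F) with hF₀
  have hmem : ∀ x : F, x ∈ F₀ → x = 0 ∨ x = 1 := by
    intro x hx
    have h1 : x ^ 2 = x := hx
    have h2 : x * (x - 1) = 0 := by linear_combination h1
    rcases mul_eq_zero.1 h2 with h | h
    · exact Or.inl h
    · exact Or.inr (sub_eq_zero.1 h)
  have hcard0 : Nat.card F₀ = 2 := by
    rw [Nat.card_eq_two_iff]
    refine ⟨0, 1, zero_ne_one, ?_⟩
    rw [Set.eq_univ_iff_forall]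
    intro x
    rcases hmem x.1 x.2 with h | h
    · left; exact Subtype.ext h
    · right; exact Subtype.ext h
  refine ⟨F₀, 2, P, Nat.prime_two, by rw [hq, hcard0]; norm_num, ?_⟩
  intro g hnorm hdet
  have hdetP : (sp34P φ θ).det ≠ 0 := by
    have := (Matrix.isUnit_iff_isUnit_det _).1 ⟨P, hP⟩
    exact this.ne_zero
  obtain ⟨k', hk'⟩ := hnorm θ
  have hconj : ∀ j : ℕ, (g : Matrix (Fin 3) (Fin 3) F) * φ (θ ^ j) *
      ((g⁻¹ : GL (Fin 3) F) : Matrix (Fin 3) (Fin 3) F) = φ (k' ^ j) := by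
    intro j
    rw [map_pow, map_pow, ← hk', sp34_conj_pow]
  have hgg : (g : Matrix (Fin 3) (Fin 3) F) * ((g⁻¹ : GL (Fin 3) F) : Matrix (Fin 3) (Fin 3) F) = 1 := by
    rw [← Units.val_mul]; simp
  have hgg' : ((g⁻¹ : GL (Fin 3) F) : Matrix (Fin 3) (Fin 3) F) * (g : Matrix (Fin 3) (Fin 3) F) = 1 := by
    rw [← Units.val_mul]; simp
  have hk7 : k' ^ 7 = 1 := by
    apply hφinj
    rw [← hconj 7, sp34_theta7 h2L θ hθ, map_one, mul_one, hgg]
  have hk0 : k' ≠ 0 := by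
    rintro rfl
    norm_num at hk7
  obtain ⟨t, ht⟩ := hroots (Units.mk0 k' hk0) (Units.ext (by simpa using hk7))
  have ht' : k' = θ ^ t := by simpa using congrArg Units.val ht
  obtain ⟨a, ha⟩ := sp34ev_surj hfin φ ((g : Matrix (Fin 3) (Fin 3) F) *ᵥ sp34ev φ 1)
  have hg : ∀ j : ℕ, (g : Matrix (Fin 3) (Fin 3) F) *ᵥ sp34ev φ (θ ^ j) =
      sp34ev φ (θ ^ (t * j) * a) := by
    intro j
    have h1 : sp34ev φ (θ ^ j) = φ (θ ^ j) *ᵥ sp34ev φ 1 := by rw [sp34ev_mul, mul_one]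
    have h2 : (g : Matrix (Fin 3) (Fin 3) F) * φ (θ ^ j) = φ (k' ^ j) * g := by
      rw [← hconj j, mul_assoc, hgg', mul_one]
    rw [h1, Matrix.mulVec_mulVec, h2, ← Matrix.mulVec_mulVec, ← ha, sp34ev_mul, ht', ← pow_mul]
  have ha0 : a ≠ 0 := by
    rintro rfl
    have h1 : sp34ev φ (0 : L) = 0 := by unfold sp34ev; rw [map_zero, Matrix.zero_mulVec]
    rw [h1] at ha
    have h2 : sp34ev φ (1 : L) = 0 := by
      have : ((g⁻¹ : GL (Fin 3) F) : Matrix (Fin 3) (Fin 3) F) *ᵥ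
          ((g : Matrix (Fin 3) (Fin 3) F) *ᵥ sp34ev φ 1) = 0 := by rw [← ha, Matrix.mulVec_zero]
      rwa [Matrix.mulVec_mulVec, hgg', Matrix.one_mulVec] at this
    exact one_ne_zero (sp34ev_inj φ 1 h2)
  have hβ : ∀ j : Fin 3, (φ a⁻¹ * (g : Matrix (Fin 3) (Fin 3) F)) *ᵥ sp34ev φ (θ ^ (j : ℕ)) =
      (1 : F) • sp34ev φ (θ ^ (t * (j : ℕ))) := by
    intro j
    rw [← Matrix.mulVec_mulVec, hg, sp34ev_mul, one_smul]
    congr 1
    field_simp
  obtain ⟨N, hN⟩ := sp34_coord F₀ φ θ hθ _ 1 (fun j => t * (j : ℕ)) hβ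
  have hmapdet : ∀ N : Matrix (Fin 3) (Fin 3) F₀, (N.map F₀.subtype).det = (N.det : F) := by
    intro N
    have := RingHom.map_det F₀.subtype N
    rw [RingHom.mapMatrix_apply] at this
    exact this.symm
  have haa : (φ a⁻¹).det * (φ a).det = 1 := by
    rw [← Matrix.det_mul, ← map_mul, inv_mul_cancel₀ ha0, map_one, Matrix.det_one]
  have hdeta' : (φ a⁻¹).det = 1 := by
    have h1 := congrArg Matrix.det hN
    rw [one_smul, Matrix.det_mul, Matrix.det_mul, Matrix.det_mul, hdet, mul_one, hmapdet,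
      mul_comm] at h1
    have h2 : (φ a⁻¹).det = (N.det : F) := mul_left_cancel₀ hdetP h1
    rcases hmem _ N.det.2 with h | h
    · rw [h2, h, zero_mul] at haa
      exact absurd haa zero_ne_one
    · rw [h2, h]
  have hdeta : (φ a).det = 1 := by rwa [hdeta', one_mul] at haa
  let δ : Lˣ →* Fˣ := Units.map ((Matrix.detMonoidHom : Matrix (Fin 3) (Fin 3) F →* F).comp
    (φ : L →* Matrix (Fin 3) (Fin 3) F))
  have hδ : ∃ x, δ x ≠ 1 := by
    obtain ⟨x, hx0, hx⟩ := sp34_det_ne hq φ θ hθ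
    refine ⟨Units.mk0 x hx0, fun h => hx ?_⟩
    exact congrArg Units.val h
  have ha1 : δ (Units.mk0 a ha0) = 1 := Units.ext hdeta
  obtain ⟨c, s, hcs⟩ := sp34_ker hq hcardL θu hroots δ hδ (Units.mk0 a ha0) ha1
  have hcs' : a = algebraMap F L c * θ ^ s := by simpa using congrArg Units.val hcs
  have hg2 : ∀ j : Fin 3, (g : Matrix (Fin 3) (Fin 3) F) *ᵥ sp34ev φ (θ ^ (j : ℕ)) =
      (c : F) • sp34ev φ (θ ^ (t * (j : ℕ) + s)) := by
    intro j
    rw [hg, hcs', ← sp34ev_smul]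
    congr 1
    rw [pow_add]; ring
  obtain ⟨N', hN'⟩ := sp34_coord F₀ φ θ hθ g c (fun j => t * (j : ℕ) + s) hg2
  have hN'det : N'.det ≠ 0 := by
    intro h0
    have h1 := congrArg Matrix.det hN'
    rw [Matrix.det_smul, Matrix.det_mul, Matrix.det_mul, hdet, hmapdet, h0] at h1
    simp at h1
    exact hdetP h1
  refine ⟨Matrix.GeneralLinearGroup.map F₀.subtype (Matrix.GeneralLinearGroup.mkOfDetNeZero N' hN'det) *
    Units.map (Matrix.scalar (Fin 3) : F →+* Matrix (Fin 3) (Fin 3) F).toMonoidHom c,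
    Subgroup.mul_mem_sup ⟨_, rfl⟩ ⟨c, rfl⟩, ?_⟩
  apply Units.ext
  have hPP : (P : Matrix (Fin 3) (Fin 3) F) * ((P⁻¹ : GL (Fin 3) F) : Matrix (Fin 3) (Fin 3) F) = 1 := by
    rw [← Units.val_mul]; simp
  have hsc : (Matrix.scalar (Fin 3) (c : F) : Matrix (Fin 3) (Fin 3) F) = (c : F) • 1 := by
    rw [Matrix.scalar_apply, Matrix.smul_one_eq_diagonal]
  show (P : Matrix (Fin 3) (Fin 3) F) * ((N'.map F₀.subtype) * Matrix.scalar (Fin 3) (c : F)) *
    ((P⁻¹ : GL (Fin 3) F) : Matrix (Fin 3) (Fin 3) F) = g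
  rw [hsc, Matrix.mul_smul, mul_one, Matrix.mul_smul, hP, ← hN', ← hP, mul_assoc, hPP, mul_one]

/-- SP34. -/
theorem singer_three_four [Fintype F] (hq : Fintype.card F = 4) (K : Subalgebra F (Matrix (Fin 3) (Fin 3) F))
    (hK : IsFieldSubalgebra 3 K) :
    ∃ (F₀ : Subfield F) (r : ℕ) (P : GL (Fin 3) F), r.Prime ∧ Fintype.card F = Nat.card F₀ ^ r ∧
      subalgebraNormalizer K ⊓ specialLinear (Fin 3) F ≤ subfieldSubgroup F₀ P := by
  have hf : IsField K :=
    { exists_pair_ne := ⟨0, 1, fun h => by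
        have h1 : (0 : Matrix (Fin 3) (Fin 3) F) = 1 := congrArg Subtype.val h
        exact zero_ne_one h1⟩
      mul_comm := fun x y => Subtype.ext (hK.comm x.1 x.2 y.1 y.2)
      mul_inv_cancel := fun {x} hx => by
        obtain ⟨y, hy, hxy⟩ := hK.inv x.1 x.2 (fun h => hx (Subtype.ext h))
        exact ⟨⟨y, hy⟩, Subtype.ext hxy⟩ }
  obtain ⟨F₀, r, P, hr, hc, h⟩ := @sp34_core F _ K hf.toField K.algebra _ hq hK.finrank_eq K.val
  refine ⟨F₀, r, P, hr, hc, ?_⟩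
  rintro g ⟨hg1, hg2⟩
  apply h g
  · intro k
    exact ⟨⟨_, (hg1 k.1).1 k.2⟩, rfl⟩
  · have h1 : Matrix.GeneralLinearGroup.det g = 1 := hg2
    have := congrArg Units.val h1
    simpa using this

end Cfsg.Agent.Lib.Helper77.Asch
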