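import Cfsg.Agent.Lib.Helper77.Asch.Defs

set_option autoImplicit false
set_option linter.style.haveILetI false

namespace Cfsg.Agent.Lib.Helper77.Asch

variable {F : Type*} [Field F]

theorem sp34_two_eq_zero [Fintype F] (hq : Fintype.card F = 4) : (2 : F) = 0 := by
  obtain ⟨p, hchar⟩ := CharP.exists F
  obtain ⟨e, hp, hcard⟩ := FiniteField.card F p
  have h1 : p ∣ 2 ^ 2 := by
    have : p ∣ p ^ (e : ℕ) := dvd_pow_self p e.pos.ne'
    rw [← hcard, hq] at this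
    exact this
  have h2 : p = 2 := (Nat.prime_dvd_prime_iff_eq hp Nat.prime_two).1 (hp.dvd_of_dvd_pow h1)
  subst h2
  exact_mod_cast CharP.cast_eq_zero F 2

/-- no root of `X ^ 3 + X + 1` in the field with four elements. -/
theorem sp34_no_root [Fintype F] (hq : Fintype.card F = 4) (t : F) : t ^ 3 ≠ t + 1 := by
  intro h
  have h2 := sp34_two_eq_zero hq
  have h4 : t ^ 4 = t := by
    have := FiniteField.pow_card t
    rwa [hq] at this
  have h5 : t ^ 2 = 0 := by linear_combination h4 - t * h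
  have h6 : t = 0 := by simpa using h5
  rw [h6] at h
  norm_num at h

variable {L : Type*} [Field L] [Algebra F L]

theorem sp34_not_mem [Fintype F] (hq : Fintype.card F = 4) (θ : L) (hθ : θ ^ 3 = θ + 1) (t : F) :
    θ ≠ algebraMap F L t := by
  intro h
  apply sp34_no_root hq t
  apply (algebraMap F L).injective
  rw [map_pow, map_add, map_one, ← h, hθ]

/-- `1, θ, θ²` are independent over the field with four elements. -/
theorem sp34_indep [Fintype F] (hq : Fintype.card F = 4) (θ : L) (hθ : θ ^ 3 = θ + 1) (c₀ c₁ c₂ : F)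
    (h : algebraMap F L c₀ + algebraMap F L c₁ * θ + algebraMap F L c₂ * θ ^ 2 = 0) :
    c₀ = 0 ∧ c₁ = 0 ∧ c₂ = 0 := by
  have h2 := sp34_two_eq_zero hq
  have hX : algebraMap F L (c₀ * c₁ - c₂ ^ 2) + algebraMap F L (c₁ ^ 2 - c₀ * c₂ - c₂ ^ 2) * θ = 0 := by
    simp only [map_sub, map_mul, map_pow]
    linear_combination (algebraMap F L c₁ - algebraMap F L c₂ * θ) * h
      + (algebraMap F L c₂) ^ 2 * hθ
  have hY : c₁ ^ 2 - c₀ * c₂ - c₂ ^ 2 = 0 := by
    by_contra hne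
    apply sp34_not_mem hq θ hθ (-(c₀ * c₁ - c₂ ^ 2) / (c₁ ^ 2 - c₀ * c₂ - c₂ ^ 2))
    have hne' : algebraMap F L (c₁ ^ 2 - c₀ * c₂ - c₂ ^ 2) ≠ 0 := by
      rwa [Ne, map_eq_zero]
    rw [map_div₀, map_neg, eq_div_iff hne']
    linear_combination hX
  have hX0 : c₀ * c₁ - c₂ ^ 2 = 0 := by
    rw [hY, map_zero, zero_mul, add_zero, map_eq_zero] at hX
    exact hX
  by_cases hc2 : c₂ = 0
  · subst hc2
    have hc1 : c₁ = 0 := by
      have : c₁ ^ 2 = 0 := by linear_combination hY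
      simpa using this
    subst hc1
    refine ⟨?_, rfl, rfl⟩
    simpa using h
  · exfalso
    apply sp34_no_root hq (c₁ / c₂)
    have hc1 : c₁ ≠ 0 := by
      rintro rfl
      apply hc2
      have : c₂ ^ 2 = 0 := by linear_combination -hX0
      simpa using this
    field_simp
    have : c₁ * (c₁ ^ 2 - c₀ * c₂ - c₂ ^ 2) + c₂ * (c₀ * c₁ - c₂ ^ 2) = 0 := by
      rw [hY, hX0]; ring
    linear_combination this

theorem sp34_gen [Fintype L] (hL : Fintype.card L = 64) :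
    ∃ γ : Lˣ, orderOf γ = 63 ∧ ∀ x : Lˣ, ∃ i : ℕ, x = γ ^ i := by
  classical
  obtain ⟨γ, hγ⟩ := IsCyclic.exists_generator (α := Lˣ)
  refine ⟨γ, ?_, ?_⟩
  · rw [orderOf_eq_card_of_forall_mem_zpowers hγ, Nat.card_eq_fintype_card, Fintype.card_units, hL]
  · intro x
    have h1 : x ∈ Submonoid.powers γ := mem_powers_iff_mem_zpowers.2 (hγ x)
    obtain ⟨i, hi⟩ := Submonoid.mem_powers_iff _ _ |>.1 h1
    exact ⟨i, hi.symm⟩

theorem sp34_theta [Fintype L] (hL : Fintype.card L = 64) (h2 : (2 : L) = 0) :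
    ∃ θ : Lˣ, (θ : L) ^ 3 = θ + 1 ∧ ∀ y : Lˣ, y ^ 7 = 1 → ∃ i : ℕ, y = θ ^ i := by
  obtain ⟨γ, hord, hgen⟩ := sp34_gen hL
  have h63 : γ ^ 63 = 1 := hord ▸ pow_orderOf_eq_one γ
  set θ₁ := γ ^ 9 with hθ₁
  have h7 : θ₁ ^ 7 = 1 := by rw [hθ₁, ← pow_mul]; exact h63
  have hne : θ₁ ≠ 1 := by
    intro h
    have := orderOf_dvd_of_pow_eq_one h
    rw [hord] at this
    omega
  have hroots : ∀ y : Lˣ, y ^ 7 = 1 → ∃ i : ℕ, y = θ₁ ^ i := by
    intro y hy
    obtain ⟨i, rfl⟩ := hgen y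
    rw [← pow_mul] at hy
    have h1 := orderOf_dvd_of_pow_eq_one hy
    rw [hord] at h1
    have h3 : 9 ∣ i := by omega
    obtain ⟨k, rfl⟩ := h3
    exact ⟨k, by rw [hθ₁, ← pow_mul]⟩
  set x : L := (θ₁ : L) with hx
  have hx7 : x ^ 7 = 1 := by
    have := congrArg Units.val h7
    simpa using this
  have hx1 : x - 1 ≠ 0 := by
    intro h
    apply hne
    apply Units.ext
    rw [Units.val_one]
    exact sub_eq_zero.1 h
  have hsum : x ^ 6 + x ^ 5 + x ^ 4 + x ^ 3 + x ^ 2 + x + 1 = 0 := by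
    have : (x - 1) * (x ^ 6 + x ^ 5 + x ^ 4 + x ^ 3 + x ^ 2 + x + 1) = 0 := by
      linear_combination hx7
    exact (mul_eq_zero.1 this).resolve_left hx1
  have hprod : (x ^ 3 + x + 1) * (x ^ 3 + x ^ 2 + 1) = 0 := by
    linear_combination hsum + x ^ 3 * h2
  rcases mul_eq_zero.1 hprod with hc | hc
  · exact ⟨θ₁, by linear_combination hc - (x + 1) * h2, hroots⟩
  · refine ⟨θ₁⁻¹, ?_, ?_⟩
    · set z : L := ((θ₁⁻¹ : Lˣ) : L) with hz
      have hxz : x * z = 1 := by rw [hx, hz, ← Units.val_mul]; simp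
      linear_combination (-z ^ 3) * hc + z ^ 3 * h2
        + (x ^ 2 * z ^ 2 + x * z + 1 + z * (x * z + 1)) * hxz
    · intro y hy
      obtain ⟨i, rfl⟩ := hroots y hy
      refine ⟨6 * i, ?_⟩
      have h6 : θ₁⁻¹ ^ 6 = θ₁ := by
        rw [inv_pow, inv_eq_iff_mul_eq_one, ← pow_succ]
        exact h7
      rw [pow_mul, h6]

theorem sp34_ker [Fintype F] (hq : Fintype.card F = 4) [Fintype L] (hL : Fintype.card L = 64)
    (θ : Lˣ) (hroots : ∀ y : Lˣ, y ^ 7 = 1 → ∃ i : ℕ, y = θ ^ i) (δ : Lˣ →* Fˣ)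
    (hδ : ∃ x, δ x ≠ 1) (a : Lˣ) (ha : δ a = 1) :
    ∃ (c : Fˣ) (s : ℕ), a = Units.map (algebraMap F L : F →* L) c * θ ^ s := by
  classical
  obtain ⟨γ, hord, hgen⟩ := sp34_gen hL
  have h63 : γ ^ 63 = 1 := hord ▸ pow_orderOf_eq_one γ
  set d := δ γ with hd
  have hd1 : d ≠ 1 := by
    intro h
    obtain ⟨x, hx⟩ := hδ
    obtain ⟨i, rfl⟩ := hgen x
    apply hx
    rw [map_pow, ← hd, h, one_pow]
  have hd3 : d ^ 3 = 1 := by
    have : Fintype.card Fˣ = 3 := by rw [Fintype.card_units, hq]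
    rw [← this]
    exact pow_card_eq_one
  haveI : Fact (Nat.Prime 3) := ⟨Nat.prime_three⟩
  have hdo : orderOf d = 3 := orderOf_eq_prime hd3 hd1
  obtain ⟨i, rfl⟩ := hgen a
  rw [map_pow, ← hd] at ha
  have h3i : 3 ∣ i := hdo ▸ orderOf_dvd_of_pow_eq_one ha
  obtain ⟨k, rfl⟩ := h3i
  set ι := Units.map (algebraMap F L : F →* L) with hι
  have hιinj : Function.Injective ι := by
    intro u v huv
    apply Units.ext
    apply (algebraMap F L).injective
    exact congrArg Units.val huv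
  obtain ⟨j, hj⟩ := hgen (ι d)
  have hj3 : 63 ∣ j * 3 := by
    have : (γ ^ j) ^ 3 = 1 := by rw [← hj, ← map_pow, hd3, map_one]
    rw [← pow_mul] at this
    exact hord ▸ orderOf_dvd_of_pow_eq_one this
  have h21 : 21 ∣ j := by omega
  obtain ⟨j', rfl⟩ := h21
  have hj' : ¬ 3 ∣ j' := by
    rintro ⟨m, rfl⟩
    apply hd1
    apply hιinj
    rw [hj, map_one, show 21 * (3 * m) = 63 * m by ring, pow_mul, h63, one_pow]
  have hγ21 : γ ^ 21 = ι d ^ j' := by
    rw [hj, ← pow_mul, pow_eq_pow_iff_modEq, hord]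
    obtain ⟨q, r, hr, rfl⟩ : ∃ q r, (r = 1 ∨ r = 2) ∧ j' = 3 * q + r := by
      refine ⟨j' / 3, j' % 3, ?_, (Nat.div_add_mod j' 3).symm⟩
      omega
    rcases hr with rfl | rfl
    · have : 21 * (3 * q + 1) * (3 * q + 1) = 21 + 63 * (3 * q * q + 2 * q) := by ring
      rw [this]
      unfold Nat.ModEq; simp
    · have : 21 * (3 * q + 2) * (3 * q + 2) = 21 + 63 * (3 * q * q + 4 * q + 1) := by ring
      rw [this]
      unfold Nat.ModEq; simp
  obtain ⟨s₀, hs₀⟩ := hroots (γ ^ 45) (by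
    rw [← pow_mul, show 45 * 7 = 63 * 5 by norm_num, pow_mul, h63, one_pow])
  have hγ3 : γ ^ 3 = γ ^ 21 * γ ^ 45 := by
    rw [← pow_add, show 21 + 45 = 63 + 3 by norm_num, pow_add, h63, one_mul]
  refine ⟨d ^ (j' * k), s₀ * k, ?_⟩
  rw [pow_mul γ 3 k, hγ3, hγ21, hs₀, mul_pow, map_pow, ← pow_mul, ← pow_mul]

end Cfsg.Agent.Lib.Helper77.Asch
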