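import Cfsg.Agent.Lib.Helper77.Asch.SP34A

set_option autoImplicit false
set_option linter.style.haveILetI false

namespace Cfsg.Agent.Lib.Helper77.Asch

open Cfsg Cfsg.Geo
open scoped MatrixGroups Matrix

variable {F : Type*} [Field F] {L : Type*} [Field L] [Algebra F L]

/-- evaluation at the first basis vector. -/
def sp34ev (φ : L →ₐ[F] Matrix (Fin 3) (Fin 3) F) (k : L) : Fin 3 → F :=
  φ k *ᵥ (Pi.single 0 1)

theorem sp34ev_add (φ : L →ₐ[F] Matrix (Fin 3) (Fin 3) F) (k l : L) :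
    sp34ev φ (k + l) = sp34ev φ k + sp34ev φ l := by
  unfold sp34ev; rw [map_add, Matrix.add_mulVec]

theorem sp34ev_smul (φ : L →ₐ[F] Matrix (Fin 3) (Fin 3) F) (c : F) (k : L) :
    sp34ev φ (algebraMap F L c * k) = c • sp34ev φ k := by
  unfold sp34ev; rw [← Algebra.smul_def, map_smul, Matrix.smul_mulVec]

theorem sp34ev_mul (φ : L →ₐ[F] Matrix (Fin 3) (Fin 3) F) (x k : L) :
    φ x *ᵥ sp34ev φ k = sp34ev φ (x * k) := by
  unfold sp34ev; rw [Matrix.mulVec_mulVec, map_mul]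

theorem sp34ev_inj (φ : L →ₐ[F] Matrix (Fin 3) (Fin 3) F) (k : L) (h : sp34ev φ k = 0) : k = 0 := by
  by_contra hk
  have h1 : φ k⁻¹ *ᵥ sp34ev φ k = sp34ev φ 1 := by rw [sp34ev_mul, inv_mul_cancel₀ hk]
  rw [h, Matrix.mulVec_zero] at h1
  have h2 : sp34ev φ 1 = Pi.single 0 1 := by unfold sp34ev; rw [map_one, Matrix.one_mulVec]
  rw [h2] at h1
  have := congrFun h1 0
  simp at this

/-- the linear version. -/
def sp34evL (φ : L →ₐ[F] Matrix (Fin 3) (Fin 3) F) : L →ₗ[F] (Fin 3 → F) where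
  toFun := sp34ev φ
  map_add' := sp34ev_add φ
  map_smul' c k := by rw [Algebra.smul_def, sp34ev_smul]; rfl

theorem sp34ev_surj (hfin : Module.finrank F L = 3) (φ : L →ₐ[F] Matrix (Fin 3) (Fin 3) F)
    (v : Fin 3 → F) : ∃ k : L, sp34ev φ k = v := by
  haveI : FiniteDimensional F L := Module.finite_of_finrank_pos (by omega)
  have hinj : Function.Injective (sp34evL φ) := by
    rw [injective_iff_map_eq_zero]
    exact fun k hk => sp34ev_inj φ k hk
  have := (LinearMap.injective_iff_surjective_of_finrank_eq_finrank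
    (f := sp34evL φ) (by rw [hfin]; simp)).1 hinj
  exact this v

/-- the matrix with columns `u, θ u, θ² u`. -/
def sp34P (φ : L →ₐ[F] Matrix (Fin 3) (Fin 3) F) (θ : L) : Matrix (Fin 3) (Fin 3) F :=
  Matrix.of fun i j => sp34ev φ (θ ^ (j : ℕ)) i

theorem sp34P_mulVec (φ : L →ₐ[F] Matrix (Fin 3) (Fin 3) F) (θ : L) (c : Fin 3 → F) :
    sp34P φ θ *ᵥ c =
      sp34ev φ (algebraMap F L (c 0) * 1 + algebraMap F L (c 1) * θ + algebraMap F L (c 2) * θ ^ 2) := by
  rw [sp34ev_add, sp34ev_add, sp34ev_smul, sp34ev_smul, sp34ev_smul]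
  funext i
  simp only [Matrix.mulVec, dotProduct, Fin.sum_univ_three, sp34P, Matrix.of_apply, Pi.add_apply,
    Pi.smul_apply, smul_eq_mul]
  simp only [Fin.val_zero, Fin.val_one, Fin.val_two, pow_zero, pow_one]
  ring

theorem sp34P_isUnit [Fintype F] (hq : Fintype.card F = 4) (φ : L →ₐ[F] Matrix (Fin 3) (Fin 3) F)
    (θ : L) (hθ : θ ^ 3 = θ + 1) : IsUnit (sp34P φ θ) := by
  rw [← Matrix.mulVec_injective_iff_isUnit]
  intro c d hcd
  have h1 : sp34P φ θ *ᵥ (c - d) = 0 := by rw [Matrix.mulVec_sub, hcd, sub_self]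
  rw [sp34P_mulVec] at h1
  have h2 := sp34ev_inj φ _ h1
  rw [mul_one] at h2
  obtain ⟨h3, h4, h5⟩ := sp34_indep hq θ hθ _ _ _ h2
  funext i
  fin_cases i
  · exact sub_eq_zero.1 h3
  · exact sub_eq_zero.1 h4
  · exact sub_eq_zero.1 h5

/-- powers of `θ` have coordinates in any subfield. -/
theorem sp34_pow_coord (F₀ : Subfield F) (θ : L) (hθ : θ ^ 3 = θ + 1) (e : ℕ) :
    ∃ c : Fin 3 → F, (∀ i, c i ∈ F₀) ∧
      θ ^ e = algebraMap F L (c 0) * 1 + algebraMap F L (c 1) * θ + algebraMap F L (c 2) * θ ^ 2 := by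
  induction e with
  | zero =>
    refine ⟨![1, 0, 0], ?_, ?_⟩
    · intro i; fin_cases i
      · exact F₀.one_mem
      · exact F₀.zero_mem
      · exact F₀.zero_mem
    · simp
  | succ e ih =>
    obtain ⟨c, hc, h⟩ := ih
    refine ⟨![c 2, c 0 + c 2, c 1], ?_, ?_⟩
    · intro i; fin_cases i
      · exact hc 2
      · exact F₀.add_mem (hc 0) (hc 2)
      · exact hc 1
    · rw [pow_succ, h]
      simp only [Matrix.cons_val_zero, Matrix.cons_val_one, Matrix.cons_val, map_add]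
      linear_combination algebraMap F L (c 2) * hθ

/-- a matrix mapping `θ^j u` to `c θ^(e j) u` has, up to `c`, coordinates in `F₀` in the basis. -/
theorem sp34_coord (F₀ : Subfield F) (φ : L →ₐ[F] Matrix (Fin 3) (Fin 3) F) (θ : L)
    (hθ : θ ^ 3 = θ + 1) (h : Matrix (Fin 3) (Fin 3) F) (c : F) (e : Fin 3 → ℕ)
    (hh : ∀ j : Fin 3, h *ᵥ sp34ev φ (θ ^ (j : ℕ)) = c • sp34ev φ (θ ^ e j)) :
    ∃ N : Matrix (Fin 3) (Fin 3) F₀, h * sp34P φ θ = c • (sp34P φ θ * N.map F₀.subtype) := by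
  choose cc hcc hpow using fun j : Fin 3 => sp34_pow_coord F₀ θ hθ (e j)
  refine ⟨Matrix.of fun i j => ⟨cc j i, hcc j i⟩, ?_⟩
  ext i j
  have h1 : (h * sp34P φ θ) i j = (h *ᵥ sp34ev φ (θ ^ (j : ℕ))) i := by
    simp only [Matrix.mul_apply, Matrix.mulVec, dotProduct, sp34P, Matrix.of_apply]
  have h2 : (sp34P φ θ * (Matrix.of fun i j => (⟨cc j i, hcc j i⟩ : F₀)).map F₀.subtype) i j =
      (sp34P φ θ *ᵥ cc j) i := by
    simp only [Matrix.mul_apply, Matrix.mulVec, dotProduct, Matrix.map_apply, Matrix.of_apply]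
    rfl
  rw [h1, hh j, Matrix.smul_apply, h2, sp34P_mulVec, ← hpow j]
  rfl

end Cfsg.Agent.Lib.Helper77.Asch
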