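import Cfsg.Agent.Lib.Helper77.Asch.Defs

/-! Ladder ASCH, rung SUBF (core, with the Burnside span hypothesis as an assumption). -/

set_option autoImplicit false

namespace Cfsg.Agent.Lib.Helper77.Asch

open Cfsg Cfsg.Geo
open scoped MatrixGroups Matrix

variable {n : ℕ} {F : Type*} [Field F]

/-- descent of spans: if `S` consists of `F₀`-rational matrices and spans everything over `F`, then its
`F₀`-span contains all `F₀`-rational matrices. -/
theorem subf_span (F₀ : Subfield F) (S : Set (Matrix (Fin n) (Fin n) F))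
    (hS : Submodule.span F S = ⊤) (h0 : ∀ s ∈ S, ∀ i j, s i j ∈ F₀)
    (M : Matrix (Fin n) (Fin n) F) (hM : ∀ i j, M i j ∈ F₀) :
    M ∈ Submodule.span F₀ S := by
  classical
  obtain ⟨b, hbS, hbspan, hbli⟩ := exists_linearIndependent F S
  have hfin : b.Finite := hbli.setFinite
  have : Fintype b := hfin.fintype
  have hcard : Fintype.card b = n * n := by
    have h1 := finrank_span_eq_card hbli
    rw [Subtype.range_coe, hbspan, hS, finrank_top, Module.finrank_matrix] at h1
    simpa using h1.symm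
  have hli0 : LinearIndependent F₀ (Subtype.val : b → Matrix (Fin n) (Fin n) F) := by
    refine hbli.restrict_scalars ?_
    intro x y hxy
    have : (x : F) * 1 = (y : F) * 1 := hxy
    exact Subtype.ext (by simpa using this)
  have hr0 : Module.finrank F₀ (Submodule.span F₀ b) = n * n := by
    have h1 := finrank_span_eq_card hli0
    rw [Subtype.range_coe] at h1
    rw [h1, hcard]
  let f : Matrix (Fin n) (Fin n) F₀ →ₗ[F₀] Matrix (Fin n) (Fin n) F :=
    (Algebra.linearMap F₀ F).mapMatrix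
  have hle : Submodule.span F₀ b ≤ LinearMap.range f := by
    rw [Submodule.span_le]
    intro s hs
    refine ⟨fun i j => ⟨s i j, h0 s (hbS hs) i j⟩, ?_⟩
    ext i j
    rfl
  have hrk : Module.finrank F₀ (LinearMap.range f) ≤ n * n := by
    have := LinearMap.finrank_range_le f
    rw [Module.finrank_matrix] at this
    simpa using this
  have heq : Submodule.span F₀ b = LinearMap.range f :=
    Submodule.eq_of_le_of_finrank_le hle (by rw [hr0]; exact hrk)
  have hMr : M ∈ LinearMap.range f := by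
    refine ⟨fun i j => ⟨M i j, hM i j⟩, ?_⟩
    ext i j
    rfl
  rw [← heq] at hMr
  exact Submodule.span_mono hbS hMr

/-- SUBF with the conclusion of BURN as a hypothesis. -/
theorem subf_core (P : Subgroup (GL (Fin n) F))
    (hspan : Submodule.span F (matrixSet P) = ⊤) (F₀ : Subfield F) (B : GL (Fin n) F)
    (hB : ∀ s ∈ matrixSet P, ∀ i j,
      ((B : Matrix (Fin n) (Fin n) F) * s * ((B⁻¹ : GL (Fin n) F) : Matrix (Fin n) (Fin n) F)) i j ∈ F₀) :
    subgroupNormalizer P ≤ subfieldSubgroup F₀ B⁻¹ := by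
  classical
  intro h hh
  by_contra hcon'
  have hh' : ∀ x, x ∈ P ↔ h * x * h⁻¹ ∈ P := Subgroup.mem_normalizer_iff.1 hh
  -- the conjugated set
  let cj : Matrix (Fin n) (Fin n) F →ₗ[F] Matrix (Fin n) (Fin n) F :=
    (LinearMap.mulLeft F (B : Matrix (Fin n) (Fin n) F)) ∘ₗ
      (LinearMap.mulRight F ((B⁻¹ : GL (Fin n) F) : Matrix (Fin n) (Fin n) F))
  have hcj : ∀ M, cj M = (B : Matrix (Fin n) (Fin n) F) * M *
      ((B⁻¹ : GL (Fin n) F) : Matrix (Fin n) (Fin n) F) := by
    intro M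
    simp [cj, mul_assoc]
  have hBi : ((B⁻¹ : GL (Fin n) F) : Matrix (Fin n) (Fin n) F) * (B : Matrix (Fin n) (Fin n) F) = 1 := by
    rw [← Units.val_mul]; simp
  have hBi' : (B : Matrix (Fin n) (Fin n) F) * ((B⁻¹ : GL (Fin n) F) : Matrix (Fin n) (Fin n) F) = 1 := by
    rw [← Units.val_mul]; simp
  have hsurj : Function.Surjective cj := by
    intro M
    refine ⟨((B⁻¹ : GL (Fin n) F) : Matrix (Fin n) (Fin n) F) * M * (B : Matrix (Fin n) (Fin n) F), ?_⟩
    rw [hcj]
    calc (B : Matrix (Fin n) (Fin n) F) * (((B⁻¹ : GL (Fin n) F) : Matrix (Fin n) (Fin n) F) * M *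
          (B : Matrix (Fin n) (Fin n) F)) * ((B⁻¹ : GL (Fin n) F) : Matrix (Fin n) (Fin n) F)
        = ((B : Matrix (Fin n) (Fin n) F) * ((B⁻¹ : GL (Fin n) F) : Matrix (Fin n) (Fin n) F)) * M *
          ((B : Matrix (Fin n) (Fin n) F) * ((B⁻¹ : GL (Fin n) F) : Matrix (Fin n) (Fin n) F)) := by
            simp only [mul_assoc]
      _ = M := by rw [hBi']; simp
  have hS' : Submodule.span F (cj '' matrixSet P) = ⊤ := by
    rw [Submodule.span_image, hspan, Submodule.map_top, LinearMap.range_eq_top.2 hsurj]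
  have h0 : ∀ s ∈ cj '' matrixSet P, ∀ i j, s i j ∈ F₀ := by
    rintro _ ⟨s, hs, rfl⟩ i j
    rw [hcj]
    exact hB s hs i j
  -- the conjugated normalising element
  obtain ⟨h', hh'def⟩ : ∃ h' : GL (Fin n) F, h' = B * h * B⁻¹ := ⟨_, rfl⟩
  have hclaim : ∀ M ∈ Submodule.span F₀ (cj '' matrixSet P), ∀ i j,
      ((h' : Matrix (Fin n) (Fin n) F) * M * ((h'⁻¹ : GL (Fin n) F) : Matrix (Fin n) (Fin n) F)) i j ∈ F₀ := by
    intro M hM
    induction hM using Submodule.span_induction with
    | mem s hs =>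
      obtain ⟨s, ⟨x, hx, rfl⟩, rfl⟩ := hs
      intro i j
      have h1 := hB _ ⟨h * x * h⁻¹, (hh' x).1 hx, rfl⟩ i j
      have h2 : (h' : Matrix (Fin n) (Fin n) F) * cj (x : Matrix (Fin n) (Fin n) F) *
          ((h'⁻¹ : GL (Fin n) F) : Matrix (Fin n) (Fin n) F) =
          (B : Matrix (Fin n) (Fin n) F) * ((h * x * h⁻¹ : GL (Fin n) F) : Matrix (Fin n) (Fin n) F) *
            ((B⁻¹ : GL (Fin n) F) : Matrix (Fin n) (Fin n) F) := by
        rw [hcj]
        simp only [← Units.val_mul]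
        congr 1
        rw [hh'def]
        group
      rw [h2]
      exact h1
    | zero => intro i j; simp
    | add a b _ _ ha hb =>
      intro i j
      rw [mul_add, add_mul, Matrix.add_apply]
      exact F₀.add_mem (ha i j) (hb i j)
    | smul c a _ ha =>
      intro i j
      have : (h' : Matrix (Fin n) (Fin n) F) * (c • a) *
          ((h'⁻¹ : GL (Fin n) F) : Matrix (Fin n) (Fin n) F) =
          (c : F) • ((h' : Matrix (Fin n) (Fin n) F) * a *
          ((h'⁻¹ : GL (Fin n) F) : Matrix (Fin n) (Fin n) F)) := by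
        have hc : c • a = (c : F) • a := rfl
        rw [hc, Matrix.mul_smul, Matrix.smul_mul]
      rw [this, Matrix.smul_apply, smul_eq_mul]
      exact F₀.mul_mem c.2 (ha i j)
  have hprod : ∀ k j l m, (h' : Matrix (Fin n) (Fin n) F) k j *
      ((h'⁻¹ : GL (Fin n) F) : Matrix (Fin n) (Fin n) F) l m ∈ F₀ := by
    intro k j l m
    have h1 := hclaim (Matrix.single j l 1) (subf_span F₀ _ hS' h0 _ (by
      intro a b
      by_cases hab : j = a ∧ l = b
      · rw [Matrix.single_apply, if_pos hab]; exact F₀.one_mem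
      · rw [Matrix.single_apply, if_neg hab]; exact F₀.zero_mem)) k m
    have h2 : ((h' : Matrix (Fin n) (Fin n) F) * (Matrix.single j l 1 : Matrix (Fin n) (Fin n) F) *
        ((h'⁻¹ : GL (Fin n) F) : Matrix (Fin n) (Fin n) F)) k m =
        (h' : Matrix (Fin n) (Fin n) F) k j *
      ((h'⁻¹ : GL (Fin n) F) : Matrix (Fin n) (Fin n) F) l m := by
      rw [Matrix.mul_apply, Finset.sum_eq_single l]
      · rw [Matrix.mul_single_apply_same, mul_one]
      · intro b _ hb
        rw [Matrix.mul_single_apply_of_ne (c := (1 : F)) j l k b hb, zero_mul]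
      · simp
    rw [h2] at h1
    exact h1
  -- a nonzero entry of the inverse
  obtain ⟨l, m, hlm⟩ : ∃ l m, ((h'⁻¹ : GL (Fin n) F) : Matrix (Fin n) (Fin n) F) l m ≠ 0 := by
    by_contra hcon
    push Not at hcon
    have hz : ((h'⁻¹ : GL (Fin n) F) : Matrix (Fin n) (Fin n) F) = 0 := by
      ext a b; exact hcon a b
    have h1 : (h' : Matrix (Fin n) (Fin n) F) * ((h'⁻¹ : GL (Fin n) F) : Matrix (Fin n) (Fin n) F) = 1 := by
      rw [← Units.val_mul]; simp
    rw [hz, mul_zero] at h1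
    -- then `n = 0` and everything is trivial
    have hall : ∀ g : GL (Fin n) F, g = 1 := by
      intro g
      apply Units.ext
      calc (g : Matrix (Fin n) (Fin n) F) = (g : Matrix (Fin n) (Fin n) F) * 1 := (mul_one _).symm
        _ = 0 := by rw [← h1, mul_zero]
        _ = ((1 : GL (Fin n) F) : Matrix (Fin n) (Fin n) F) := by rw [Units.val_one, ← h1]
    apply hcon' 
    rw [hall h]
    exact Subgroup.one_mem _
  obtain ⟨c, hc⟩ : ∃ c, c = ((h'⁻¹ : GL (Fin n) F) : Matrix (Fin n) (Fin n) F) l m := ⟨_, rfl⟩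
  rw [← hc] at hlm
  let G₀ : Matrix (Fin n) (Fin n) F₀ := fun k j => ⟨(h' : Matrix (Fin n) (Fin n) F) k j * c, by
    rw [hc]; exact hprod k j l m⟩
  have hG₀ : G₀.map (F₀.subtype) = c • (h' : Matrix (Fin n) (Fin n) F) := by
    ext k j
    show (h' : Matrix (Fin n) (Fin n) F) k j * c = c * (h' : Matrix (Fin n) (Fin n) F) k j
    exact mul_comm _ _
  have hdet : G₀.det ≠ 0 := by
    intro hd
    have h1 : (G₀.map (F₀.subtype)).det = 0 := by
      rw [← RingHom.mapMatrix_apply, ← RingHom.map_det, hd, map_zero]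
    rw [hG₀, Matrix.det_smul] at h1
    have h2 : (h' : Matrix (Fin n) (Fin n) F).det ≠ 0 := by
      have := (Matrix.isUnit_iff_isUnit_det _).1 h'.isUnit
      exact this.ne_zero
    exact (mul_ne_zero (pow_ne_zero _ hlm) h2) h1
  let g₀ : GL (Fin n) F₀ := Matrix.GeneralLinearGroup.mkOfDetNeZero G₀ hdet
  have hfac : h' = Matrix.GeneralLinearGroup.map (F₀.subtype : F₀ →+* F) g₀ *
      (sc (Units.mk0 c hlm)⁻¹ : GL (Fin n) F) := by
    apply Units.ext
    rw [Units.val_mul]
    have h1 : ((Matrix.GeneralLinearGroup.map (F₀.subtype : F₀ →+* F) g₀ : GL (Fin n) F) :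
        Matrix (Fin n) (Fin n) F) = c • (h' : Matrix (Fin n) (Fin n) F) := by
      rw [← hG₀]; rfl
    have h2 : ((sc (Units.mk0 c hlm)⁻¹ : GL (Fin n) F) : Matrix (Fin n) (Fin n) F) =
        c⁻¹ • (1 : Matrix (Fin n) (Fin n) F) := by
      simp [sc, Matrix.smul_one_eq_diagonal]
    rw [h1, h2, Matrix.mul_smul, Matrix.smul_mul, mul_one, smul_smul, inv_mul_cancel₀ hlm, one_smul]
  apply hcon'
  refine Subgroup.mem_map.2 ⟨h', ?_, ?_⟩
  · rw [hfac]
    exact Subgroup.mul_mem_sup ⟨g₀, rfl⟩ ⟨_, rfl⟩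
  · rw [hh'def]
    simp
    group

end Cfsg.Agent.Lib.Helper77.Asch
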